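import Cfsg.Agent.H28.JkDefs
import Cfsg.Agent.S2950
import Cfsg.Agent.Helper55.UqBase
import Cfsg.Agent.H54.UqO2SN
import Cfsg.Agent.H5.JzOut1

/-!
# JK-A (piece of the sub-project JK of JZ = S2951 + S2952)

Facts on the maximal 2-local `L` of a `Base`: `L ∈ ℒ(T)`, `O₂(K) ≤ O₂(L)`, `N_G(L) ≤ L`.
-/

set_option autoImplicit false
open Cfsg

namespace Cfsg.Agent.H4.Jk

universe u

theorem ka : Cfsg.Agent.H28.Jk.StKA.{u} := by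
  intro G _ _ S M T K L hB
  obtain ⟨⟨hL, hN, hZ⟩, hO, hM, hMJ, hT, hTS, hK, hLmax, hKL⟩ := hB
  obtain ⟨L₀, hL₀max, hKL₀, huniq, hsn, hsyl⟩ :=
    Cfsg.Agent.S2950.result hL hN hZ hO S M hM hMJ T hT K hK
  have hLL : L = L₀ := huniq L hLmax hKL
  obtain ⟨L₁, hL₁max, hKT₁, -, hov, -⟩ :=
    Cfsg.Agent.Helper55.Uq.exists_max hL hN hZ S M hMJ T hT K hK
  have hL₁ : L₁ = L₀ := huniq L₁ hL₁max
    (sup_le (le_sup_left.trans hKT₁)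
      ((Cfsg.Agent.Helper55.ThJ.J_le T).trans (le_sup_right.trans hKT₁)))
  have hL₁L : L₁ = L := hL₁.trans hLL.symm
  refine ⟨hL₁L ▸ hov, ?_, Cfsg.Agent.H5.Jz.normalizer_maxTwoLocal_le hLmax⟩
  have hsn' : (K.subgroupOf L).IsSubnormal := hLL ▸ hsn
  exact Cfsg.Agent.H54.Uq.o2sn K L (le_sup_left.trans hKL) hsn'

example : Cfsg.Agent.H28.Jk.StKA.{u} := ka

end Cfsg.Agent.H4.Jk
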