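import Mathlib
import Cfsg.Agent.H45.MDefs
import Cfsg.Agent.H49.AutEich

set_option autoImplicit false
set_option linter.unusedSectionVars false

/-!
# Siegel elements from the two unipotent radicals, minus-type orthogonal case
(helper4, piece M-GEN of the S2415 team project)

The moves are Eichler transformations `eichG Q x v` with `x = tri p 0 0`, `v = tri s 0 ζ`
(upper unipotent) or `x = tri 0 p 0`, `v = tri 0 s ζ` (lower unipotent).
-/

namespace Cfsg.Agent.H4.M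

open Matrix Cfsg.Agent.H49 Cfsg.Agent.H45.M

variable {F : Type*} [Field F] {k : ℕ}

theorem Q_triX (a b : F) (p : Fin k → F) : QMin k F a b (tri p 0 0) = 0 := by
  rw [QMin_tri]
  simp

theorem Q_triY (a b : F) (p : Fin k → F) : QMin k F a b (tri 0 p 0) = 0 := by
  rw [QMin_tri]
  simp

theorem polar_triX (a b : F) (p s : Fin k → F) (ζ : Fin 2 → F) :
    QuadraticMap.polar (⇑(QMin k F a b)) (tri p 0 0) (tri s 0 ζ) = 0 := by
  rw [polar_tri]
  simp

theorem polar_triY (a b : F) (p s : Fin k → F) (ζ : Fin 2 → F) :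
    QuadraticMap.polar (⇑(QMin k F a b)) (tri 0 p 0) (tri 0 s ζ) = 0 := by
  rw [polar_tri]
  simp

/-- The upper Eichler element attached to `tri p 0 0` and `tri s 0 ζ`. -/
def eU (a b : F) (p s : Fin k → F) (ζ : Fin 2 → F) : OM k F a b :=
  eichG (QMin k F a b) (tri p 0 0) (tri s 0 ζ) (Q_triX a b p) (polar_triX a b p s ζ)

/-- The lower Eichler element attached to `tri 0 p 0` and `tri 0 s ζ`. -/
def eL (a b : F) (p s : Fin k → F) (ζ : Fin 2 → F) : OM k F a b :=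
  eichG (QMin k F a b) (tri 0 p 0) (tri 0 s ζ) (Q_triY a b p) (polar_triY a b p s ζ)

theorem tri_congr {x x' y y' : Fin k → F} {z z' : Fin 2 → F} (hx : x = x') (hy : y = y')
    (hz : z = z') : tri x y z = tri x' y' z' := by
  rw [hx, hy, hz]

theorem act_eU (a b : F) (p s : Fin k → F) (ζ : Fin 2 → F) (X Y : Fin k → F) (Z : Fin 2 → F) :
    act (eU a b p s ζ) (tri X Y Z) =
      tri (X + (p ⬝ᵥ Y) • s - (s ⬝ᵥ Y + ζ ⬝ᵥ (gam a b *ᵥ Z)) • p
        - (binQ a b ζ * (p ⬝ᵥ Y)) • p) Y (Z + (p ⬝ᵥ Y) • ζ) := by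
  unfold eU
  rw [act_eichG, polar_tri, polar_tri, QMin_tri, tri_smul, tri_smul, tri_smul, tri_add, tri_sub,
    tri_sub]
  apply tri_congr
  · simp
  · simp
  · simp

theorem act_eL (a b : F) (p s : Fin k → F) (ζ : Fin 2 → F) (X Y : Fin k → F) (Z : Fin 2 → F) :
    act (eL a b p s ζ) (tri X Y Z) =
      tri X (Y + (p ⬝ᵥ X) • s - (s ⬝ᵥ X + ζ ⬝ᵥ (gam a b *ᵥ Z)) • p
        - (binQ a b ζ * (p ⬝ᵥ X)) • p) (Z + (p ⬝ᵥ X) • ζ) := by
  unfold eL
  rw [act_eichG, polar_tri, polar_tri, QMin_tri, tri_smul, tri_smul, tri_smul, tri_add, tri_sub,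
    tri_sub]
  apply tri_congr
  · simp
  · simp [dotProduct_comm X p, dotProduct_comm X s]
  · simp [dotProduct_comm X p]

theorem isU_eU (a b : F) (p s : Fin k → F) (ζ : Fin 2 → F) :
    IsU (eU a b p s ζ) (vecMulVec ζ p)
      (vecMulVec s p - vecMulVec p s - binQ a b ζ • vecMulVec p p) := by
  intro X Y Z
  rw [act_eU]
  apply tri_congr
  · rw [Matrix.sub_mulVec, Matrix.sub_mulVec, Matrix.smul_mulVec, vecMulVec_mulVec,
      vecMulVec_mulVec, vecMulVec_mulVec, ← Matrix.mulVec_mulVec, transpose_vecMulVec,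
      vecMulVec_mulVec]
    simp only [op_smul_eq_smul]
    funext i
    simp only [Pi.add_apply, Pi.sub_apply, Pi.smul_apply, smul_eq_mul]
    ring
  · rfl
  · rw [vecMulVec_mulVec, op_smul_eq_smul]

theorem isL_eL (a b : F) (p s : Fin k → F) (ζ : Fin 2 → F) :
    IsL (eL a b p s ζ) (vecMulVec ζ p)
      (vecMulVec s p - vecMulVec p s - binQ a b ζ • vecMulVec p p) := by
  intro X Y Z
  rw [act_eL]
  apply tri_congr
  · rfl
  · rw [Matrix.sub_mulVec, Matrix.sub_mulVec, Matrix.smul_mulVec, vecMulVec_mulVec,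
      vecMulVec_mulVec, vecMulVec_mulVec, ← Matrix.mulVec_mulVec, transpose_vecMulVec,
      vecMulVec_mulVec]
    simp only [op_smul_eq_smul]
    funext i
    simp only [Pi.add_apply, Pi.sub_apply, Pi.smul_apply, smul_eq_mul]
    ring
  · rw [vecMulVec_mulVec, op_smul_eq_smul]

theorem eU_mem {a b : F} (K : Subgroup (OM k F a b)) (hU : Qin K) (p s : Fin k → F)
    (ζ : Fin 2 → F) : eU a b p s ζ ∈ K :=
  hU _ _ _ (isU_eU a b p s ζ)

theorem eL_mem {a b : F} (K : Subgroup (OM k F a b)) (hL : Qlow K) (p s : Fin k → F)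
    (ζ : Fin 2 → F) : eL a b p s ζ ∈ K :=
  hL _ _ _ (isL_eL a b p s ζ)

theorem exists_dot_one {x : Fin k → F} (hx : x ≠ 0) : ∃ q : Fin k → F, q ⬝ᵥ x = 1 := by
  obtain ⟨i, hi⟩ : ∃ i, x i ≠ 0 := by
    by_contra hcon
    exact hx (funext fun i => by_contra fun h => hcon ⟨i, h⟩)
  exact ⟨Pi.single i (x i)⁻¹, by rw [single_dotProduct, inv_mul_cancel₀ hi]⟩

theorem exists_perp (hk : 2 ≤ k) {y : Fin k → F} (hy : y ≠ 0) :
    ∃ p : Fin k → F, p ⬝ᵥ y = 0 ∧ p ≠ 0 := by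
  obtain ⟨i, hi⟩ : ∃ i, y i ≠ 0 := by
    by_contra hcon
    exact hy (funext fun i => by_contra fun h => hcon ⟨i, h⟩)
  obtain ⟨j, hj⟩ : ∃ j : Fin k, j ≠ i := by
    by_contra hcon
    have hcon' : ∀ j : Fin k, j = i := fun j => by_contra fun h => hcon ⟨j, h⟩
    have h1 : Fintype.card (Fin k) ≤ 1 := Fintype.card_le_one_iff.2 (fun a b => by
      rw [hcon' a, hcon' b])
    rw [Fintype.card_fin] at h1
    omega
  refine ⟨Pi.single j (y i) - Pi.single i (y j), ?_, ?_⟩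
  · rw [sub_dotProduct, single_dotProduct, single_dotProduct]
    ring
  · intro h
    have h1 := congrFun h j
    simp only [Pi.sub_apply, Pi.single_eq_same, Pi.single_eq_of_ne hj, sub_zero,
      Pi.zero_apply] at h1
    exact hi h1

theorem exists_perp_pair (hk : 3 ≤ k) {a y : Fin k → F} (ha : a ≠ 0) (hy : y ≠ 0)
    (hay : a ⬝ᵥ y = 0) :
    ∃ p q' : Fin k → F, p ⬝ᵥ y = 0 ∧ q' ⬝ᵥ p = 1 ∧ q' ⬝ᵥ a = 0 := by
  obtain ⟨i₀, hi₀⟩ : ∃ i, y i ≠ 0 := by
    by_contra hcon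
    exact hy (funext fun i => by_contra fun h => hcon ⟨i, h⟩)
  obtain ⟨l, hl, hla⟩ : ∃ l, l ≠ i₀ ∧ a l ≠ 0 := by
    by_contra hcon
    have hcon' : ∀ l, l ≠ i₀ → a l = 0 := fun l hl => by_contra fun h => hcon ⟨l, hl, h⟩
    have h1 : a ⬝ᵥ y = a i₀ * y i₀ := by
      unfold dotProduct
      rw [Finset.sum_eq_single i₀]
      · intro b _ hb
        rw [hcon' b hb, zero_mul]
      · intro h
        exact absurd (Finset.mem_univ _) h
    rw [h1] at hay
    have h2 : a i₀ = 0 := by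
      rcases mul_eq_zero.1 hay with h | h
      · exact h
      · exact absurd h hi₀
    apply ha
    funext b
    by_cases hb : b = i₀
    · rw [hb, h2]
      rfl
    · exact hcon' b hb
  obtain ⟨j, hj0, hjl⟩ : ∃ j : Fin k, j ≠ i₀ ∧ j ≠ l := by
    by_contra hcon
    have hcon' : ∀ j : Fin k, j ≠ i₀ → j = l := fun j hj =>
      by_contra fun h => hcon ⟨j, hj, h⟩
    have h1 : (Finset.univ : Finset (Fin k)) ⊆ {i₀, l} := by
      intro b _
      by_cases hb : b = i₀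
      · simp [hb]
      · simp [hcon' b hb]
    have h2 := Finset.card_le_card h1
    rw [Finset.card_univ, Fintype.card_fin] at h2
    have h3 := Finset.card_le_two (a := i₀) (b := l)
    omega
  have hμ : a l * y i₀ ≠ 0 := mul_ne_zero hla hi₀
  refine ⟨Pi.single j (y i₀) - Pi.single i₀ (y j),
    (a l * y i₀)⁻¹ • (Pi.single j (a l) - Pi.single l (a j)), ?_, ?_, ?_⟩
  · rw [sub_dotProduct, single_dotProduct, single_dotProduct]
    ring
  · rw [smul_dotProduct, sub_dotProduct, single_dotProduct, single_dotProduct]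
    simp only [Pi.sub_apply, Pi.single_eq_same, Pi.single_eq_of_ne hj0, Pi.single_eq_of_ne hjl.symm,
      Pi.single_eq_of_ne hl, sub_zero, smul_eq_mul, mul_zero]
    field_simp
  · rw [smul_dotProduct, sub_dotProduct, single_dotProduct, single_dotProduct]
    simp only [smul_eq_mul]
    ring

theorem z_zero_of_aniso (a b : F)
    (hab : ∀ z₁ z₂ : F, z₁ ^ 2 + a * z₁ * z₂ + b * z₂ ^ 2 = 0 → z₁ = 0 ∧ z₂ = 0)
    (z : Fin 2 → F) (h : binQ a b z = 0) : z = 0 := by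
  rw [binQ_apply] at h
  obtain ⟨h0, h1⟩ := hab _ _ h
  funext i
  fin_cases i
  · exact h0
  · exact h1

section steps

variable {a b : F} (K : Subgroup (OM k F a b))

/-- Step A, case `x ≠ 0`. -/
theorem stepA_x (hL : Qlow K) (x y : Fin k → F) (z : Fin 2 → F) (hx : x ≠ 0)
    (hu : QMin k F a b (tri x y z) = 0) :
    ∃ h ∈ K, act h (tri x y z) = tri x 0 0 := by
  obtain ⟨q, hq⟩ := exists_dot_one hx
  obtain ⟨y₁, hy₁⟩ : ∃ y₁ : Fin k → F, act (eL a b q 0 (-z)) (tri x y z) = tri x y₁ 0 := by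
    have h1 := act_eL a b q 0 (-z) x y z
    simp only [hq, one_smul, add_neg_cancel] at h1
    exact ⟨_, h1⟩
  have hs : QMin k F a b (tri x y₁ 0) = 0 := by
    rw [← hy₁, Q_act]
    exact hu
  rw [QMin_tri, map_zero, add_zero] at hs
  refine ⟨eL a b q (-y₁) 0 * eL a b q 0 (-z), K.mul_mem (eL_mem K hL _ _ _) (eL_mem K hL _ _ _),
    ?_⟩
  rw [act_mul, hy₁, act_eL]
  apply tri_congr rfl
  · rw [hq, neg_dotProduct, dotProduct_comm y₁ x, hs]
    simp
  · simp

/-- Step A. -/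
theorem stepA (hab : ∀ z₁ z₂ : F, z₁ ^ 2 + a * z₁ * z₂ + b * z₂ ^ 2 = 0 → z₁ = 0 ∧ z₂ = 0)
    (hk : 2 ≤ k) (hU : Qin K) (hL : Qlow K)
    (u : (Fin k ⊕ Fin k) ⊕ Fin 2 → F) (hu : QMin k F a b u = 0) (hu0 : u ≠ 0) :
    ∃ h ∈ K, ∃ p : Fin k → F, p ≠ 0 ∧ act h u = tri p 0 0 := by
  obtain ⟨x, y, z, rfl⟩ := tri_eta u
  by_cases hx : x = 0
  · subst hx
    have hu' := hu
    rw [QMin_tri, zero_dotProduct, zero_add] at hu'
    have hz : z = 0 := z_zero_of_aniso a b hab z hu'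
    subst hz
    have hy : y ≠ 0 := by
      rintro rfl
      exact hu0 tri_zero
    obtain ⟨q, hq⟩ := exists_dot_one hy
    obtain ⟨p, hp, hp0⟩ := exists_perp hk hy
    have e1 : act (eU a b q p 0) (tri 0 y 0) = tri p y 0 := by
      rw [act_eU]
      apply tri_congr _ rfl
      · simp
      · rw [hq, hp]
        simp
    have hs : QMin k F a b (tri p y 0) = 0 := by
      rw [← e1, Q_act]
      exact hu
    obtain ⟨h₂, h₂K, h₂a⟩ := stepA_x K hL p y 0 hp0 hs
    refine ⟨h₂ * eU a b q p 0, K.mul_mem h₂K (eU_mem K hU _ _ _), p, hp0, ?_⟩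
    rw [act_mul, e1, h₂a]
  · obtain ⟨h, hK, ha⟩ := stepA_x K hL x y z hx hu
    exact ⟨h, hK, x, hx, ha⟩

/-- Step B. -/
theorem stepB (hab : ∀ z₁ z₂ : F, z₁ ^ 2 + a * z₁ * z₂ + b * z₂ ^ 2 = 0 → z₁ = 0 ∧ z₂ = 0)
    (hk : 3 ≤ k) (hU : Qin K) (hL : Qlow K)
    (p : Fin k → F) (hp : p ≠ 0) (v : (Fin k ⊕ Fin k) ⊕ Fin 2 → F)
    (hv : QMin k F a b v = 0)
    (hpv : QuadraticMap.polar (⇑(QMin k F a b)) (tri p 0 0) v = 0) :
    ∃ h ∈ K, act h (tri p 0 0) = tri p 0 0 ∧ ∃ p' : Fin k → F, act h v = tri p' 0 0 := by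
  obtain ⟨x, y, z, rfl⟩ := tri_eta v
  rw [polar_tri, zero_dotProduct, dotProduct_zero, add_zero, add_zero] at hpv
  by_cases hy : y = 0
  · subst hy
    have hv' := hv
    rw [QMin_tri, dotProduct_zero, zero_add] at hv'
    have hz : z = 0 := z_zero_of_aniso a b hab z hv'
    subst hz
    exact ⟨1, K.one_mem, act_one _, x, act_one _⟩
  · obtain ⟨q, hq⟩ := exists_dot_one hy
    -- kill z
    obtain ⟨x₁, hx₁⟩ : ∃ x₁ : Fin k → F, act (eU a b q 0 (-z)) (tri x y z) = tri x₁ y 0 := by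
      have h1 := act_eU a b q 0 (-z) x y z
      simp only [hq, one_smul, add_neg_cancel] at h1
      exact ⟨_, h1⟩
    have f1 : act (eU a b q 0 (-z)) (tri p 0 0) = tri p 0 0 := by
      rw [act_eU]
      apply tri_congr _ rfl
      · simp
      · simp
    have hs : QMin k F a b (tri x₁ y 0) = 0 := by
      rw [← hx₁, Q_act]
      exact hv
    rw [QMin_tri, map_zero, add_zero] at hs
    -- kill x₁
    have e2 : act (eU a b q (-x₁) 0) (tri x₁ y 0) = tri 0 y 0 := by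
      rw [act_eU]
      apply tri_congr _ rfl
      · simp
      · rw [hq, neg_dotProduct, hs]
        simp
    have f2 : act (eU a b q (-x₁) 0) (tri p 0 0) = tri p 0 0 := by
      rw [act_eU]
      apply tri_congr _ rfl
      · simp
      · simp
    -- move to (p₁, y, 0)
    obtain ⟨p₁, q', hp₁, hq'p, hq'a⟩ := exists_perp_pair hk hp hy hpv
    have e3 : act (eU a b q p₁ 0) (tri 0 y 0) = tri p₁ y 0 := by
      rw [act_eU]
      apply tri_congr _ rfl
      · simp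
      · rw [hq, hp₁]
        simp
    have f3 : act (eU a b q p₁ 0) (tri p 0 0) = tri p 0 0 := by
      rw [act_eU]
      apply tri_congr _ rfl
      · simp
      · simp
    -- kill y
    have e4 : act (eL a b q' (-y) 0) (tri p₁ y 0) = tri p₁ 0 0 := by
      rw [act_eL]
      apply tri_congr rfl
      · rw [hq'p, neg_dotProduct, dotProduct_comm y p₁, hp₁]
        simp
      · simp
    have f4 : act (eL a b q' (-y) 0) (tri p 0 0) = tri p 0 0 := by
      rw [act_eL]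
      apply tri_congr rfl
      · rw [hq'a, neg_dotProduct, dotProduct_comm y p, hpv]
        simp
      · simp
    refine ⟨eL a b q' (-y) 0 * (eU a b q p₁ 0 * (eU a b q (-x₁) 0 * eU a b q 0 (-z))),
      K.mul_mem (eL_mem K hL _ _ _) (K.mul_mem (eU_mem K hU _ _ _)
        (K.mul_mem (eU_mem K hU _ _ _) (eU_mem K hU _ _ _))), ?_, p₁, ?_⟩
    · rw [act_mul, act_mul, act_mul, f1, f2, f3, f4]
    · rw [act_mul, act_mul, act_mul, hx₁, e2, e3, e4]

end steps

/-- **M-GEN.** -/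
theorem gen (a b : F)
    (hab : ∀ z₁ z₂ : F, z₁ ^ 2 + a * z₁ * z₂ + b * z₂ ^ 2 = 0 → z₁ = 0 ∧ z₂ = 0)
    (hk : 3 ≤ k) (K : Subgroup (OM k F a b)) (hU : Qin K) (hL : Qlow K) :
    ∀ g ∈ siegelSet (QMin k F a b), g ∈ K := by
  rintro g ⟨u, v, hu, hv, huv, c, rfl⟩
  by_cases hu0 : u = 0
  · rw [siegelG_eq_one _ u v hu hv huv c (Or.inl hu0)]
    exact K.one_mem
  · obtain ⟨h₁, h₁K, p, hp, h₁u⟩ := stepA K hab (by omega) hU hL u hu hu0
    have hv₁ : QMin k F a b (act h₁ v) = 0 := by rw [Q_act]; exact hv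
    have huv₁ : QuadraticMap.polar (⇑(QMin k F a b)) (tri p 0 0) (act h₁ v) = 0 := by
      rw [← h₁u, polar_act]
      exact huv
    obtain ⟨h₂, h₂K, h₂u, p', h₂v⟩ := stepB K hab hk hU hL p hp _ hv₁ huv₁
    have hhK : h₂ * h₁ ∈ K := K.mul_mem h₂K h₁K
    have e_u : act (h₂ * h₁) u = tri p 0 0 := by rw [act_mul, h₁u, h₂u]
    have e_v : act (h₂ * h₁) v = tri p' 0 0 := by rw [act_mul, h₂v]
    have hconj := conj_siegelG (QMin k F a b) (h₂ * h₁) u v hu hv huv c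
    have hmem : (h₂ * h₁) * siegelG (QMin k F a b) u v hu hv huv c * (h₂ * h₁)⁻¹ ∈ K := by
      rw [hconj, siegelG_eq_eichG]
      have e : eichG (QMin k F a b) (act (h₂ * h₁) u) (c • act (h₂ * h₁) v)
          (by rw [Q_act, hu])
          (by rw [QuadraticMap.polar_smul_right, polar_act, huv, smul_zero])
          = eU a b p (c • p') 0 := by
        unfold eU
        apply eichG_congr _ _ _ _ _ _ _ _ _ e_u
        rw [e_v, tri_smul]
        simp
      rw [e]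
      exact eU_mem K hU _ _ _
    have e2 : siegelG (QMin k F a b) u v hu hv huv c
        = (h₂ * h₁)⁻¹ * ((h₂ * h₁) * siegelG (QMin k F a b) u v hu hv huv c * (h₂ * h₁)⁻¹)
          * (h₂ * h₁) := by group
    rw [e2]
    exact K.mul_mem (K.mul_mem (K.inv_mem hhK) hmem) hhK

end Cfsg.Agent.H4.M

section check
open Matrix Cfsg.Agent.H49 Cfsg.Agent.H45.M
variable {F : Type*} [Field F] {k : ℕ}
example (a b : F)
    (hab : ∀ z₁ z₂ : F, z₁ ^ 2 + a * z₁ * z₂ + b * z₂ ^ 2 = 0 → z₁ = 0 ∧ z₂ = 0)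
    (hk : 3 ≤ k) (K : Subgroup (OM k F a b)) (hU : Qin K) (hL : Qlow K) :
    ∀ g ∈ siegelSet (QMin k F a b), g ∈ K :=
  Cfsg.Agent.H4.M.gen a b hab hk K hU hL
end check
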