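import Mathlib

/-!
# Piece S2140-ARITH (for helper17)
-/

set_option autoImplicit false

namespace Cfsg.Agent.H4.Pm

/-- **Piece S2140-ARITH.** -/
theorem arith_bound (q n : ℕ) (hq : 2 ≤ q) (hn : 1 ≤ n) :
    (q ^ n - 1) / (q - 1) ≤ 2 * q ^ (n - 1) := by
  obtain ⟨m, rfl⟩ : ∃ m, n = m + 1 := ⟨n - 1, by omega⟩
  obtain ⟨r, rfl⟩ : ∃ r, q = r + 2 := ⟨q - 2, by omega⟩
  rw [Nat.add_sub_cancel]
  apply Nat.div_le_of_le_mul
  have h1 : r + 2 - 1 = r + 1 := by omega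
  rw [h1, pow_succ]
  have h2 : (r + 2) ^ m * (r + 2) - 1 ≤ (r + 2) ^ m * (r + 2) := Nat.sub_le _ _
  refine h2.trans ?_
  nlinarith [Nat.zero_le (r * (r + 2) ^ m)]

section check

example (q n : ℕ) (hq : 2 ≤ q) (hn : 1 ≤ n) : (q ^ n - 1) / (q - 1) ≤ 2 * q ^ (n - 1) :=
  arith_bound q n hq hn

end check

end Cfsg.Agent.H4.Pm
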