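import Cfsg.Agent.H17.PmDefs

/-!
# Piece S2140-CARDY (for helper17): the number of linear forms vanishing at `c ≠ 0`
-/

set_option autoImplicit false

namespace Cfsg.Agent.H4.Pm

open Cfsg Cfsg.Geo Cfsg.Agent.H17.Mn Cfsg.Agent.H17.Pm
open scoped MatrixGroups Matrix

variable {ι : Type} [Fintype ι] [DecidableEq ι] {F : Type*} [Field F]

/-- `Yc c` is the kernel of the evaluation at `c`. -/
theorem Yc_eq_ker (c : ι → F) :
    Yc c = LinearMap.ker (LinearMap.applyₗ c : ((ι → F) →ₗ[F] F) →ₗ[F] F) := by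
  ext φ
  rw [mem_Yc, LinearMap.mem_ker]
  rfl

omit [Fintype ι] [DecidableEq ι] in
theorem applyₗ_surjective (c : ι → F) (hc : c ≠ 0) :
    Function.Surjective (LinearMap.applyₗ c : ((ι → F) →ₗ[F] F) →ₗ[F] F) := by
  obtain ⟨i, hi⟩ : ∃ i, c i ≠ 0 := by
    by_contra h
    apply hc
    funext j
    by_contra hj
    exact h ⟨j, hj⟩
  intro a
  refine ⟨(a * (c i)⁻¹) • LinearMap.proj i, ?_⟩
  show ((a * (c i)⁻¹) • (LinearMap.proj i : (ι → F) →ₗ[F] F)) c = a
  rw [LinearMap.smul_apply, LinearMap.proj_apply, smul_eq_mul, mul_assoc, inv_mul_cancel₀ hi,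
    mul_one]

theorem finrank_Yc (c : ι → F) (hc : c ≠ 0) :
    Module.finrank F ↥(Yc c) = Fintype.card ι - 1 := by
  have h1 := LinearMap.finrank_range_add_finrank_ker
    (LinearMap.applyₗ c : ((ι → F) →ₗ[F] F) →ₗ[F] F)
  rw [LinearMap.range_eq_top.2 (applyₗ_surjective c hc), finrank_top, Module.finrank_self,
    ← Yc_eq_ker] at h1
  have h2 : Module.finrank F ((ι → F) →ₗ[F] F) = Fintype.card ι := by
    have := Subspace.dual_finrank_eq (K := F) (V := ι → F)
    rw [Module.finrank_fintype_fun_eq_card] at this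
    exact this
  omega

/-- **Piece S2140-CARDY.** -/
theorem card_Yc [Fintype F] (c : ι → F) (hc : c ≠ 0) :
    Nat.card ↥(Yc c) = Fintype.card F ^ (Fintype.card ι - 1) := by
  rw [Module.natCard_eq_pow_finrank (K := F), Nat.card_eq_fintype_card, finrank_Yc c hc]

section check

example [Fintype F] (c : ι → F) (hc : c ≠ 0) :
    Nat.card ↥(Yc c) = Fintype.card F ^ (Fintype.card ι - 1) := card_Yc c hc

end check

end Cfsg.Agent.H4.Pm
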