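import Mathlib

/-!
# Piece S2140-PIDX (for helper17): separation by subgroups of prime index
-/

set_option autoImplicit false

namespace Cfsg.Agent.H4.Pm

/-- **Piece S2140-PIDX.** In a finite module over a finite field, a subgroup and an element
outside it are separated by a subgroup of prime index. -/
theorem exists_prime_index_sep {F : Type*} [Field F] [Fintype F] {Y : Type*} [AddCommGroup Y]
    [Module F Y] [Finite Y] (S : AddSubgroup Y) (y : Y) (hy : y ∉ S) :
    ∃ A : AddSubgroup Y, A.index.Prime ∧ S ≤ A ∧ y ∉ A := by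
  classical
  obtain ⟨p, hpchar⟩ := CharP.exists F
  have hp : p.Prime := CharP.char_is_prime F p
  have hpY : ∀ x : Y, p • x = 0 := by
    intro x
    rw [← Nat.cast_smul_eq_nsmul F p x, CharP.cast_eq_zero F p, zero_smul]
  have hfact : Fact p.Prime := ⟨hp⟩
  have inst : Module (ZMod p) Y := AddCommGroup.zmodModule hpY
  obtain ⟨S', hS'⟩ : ∃ S' : Submodule (ZMod p) Y, S' = AddSubgroup.toZModSubmodule p S :=
    ⟨_, rfl⟩
  have hSS' : ∀ x : Y, x ∈ S' ↔ x ∈ S := by
    intro x
    rw [hS']
    exact AddSubgroup.mem_toZModSubmodule p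
  have hyS' : y ∉ S' := fun h => hy ((hSS' y).1 h)
  obtain ⟨f, hfy, hfS⟩ := Submodule.exists_dual_map_eq_bot_of_notMem hyS' inferInstance
  refine ⟨f.toAddMonoidHom.ker, ?_, ?_, ?_⟩
  · rw [AddSubgroup.index_ker]
    have hcard : Nat.card (ZMod p) = p := by rw [Nat.card_eq_fintype_card, ZMod.card]
    have hfact' : Fact (Nat.card (ZMod p)).Prime := ⟨by rw [hcard]; exact hp⟩
    rcases (f.toAddMonoidHom.range).eq_bot_or_eq_top_of_prime_card with h | h
    · exfalso
      apply hfy
      have hmem : f y ∈ f.toAddMonoidHom.range := ⟨y, rfl⟩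
      rw [h] at hmem
      exact hmem
    · rw [h, AddSubgroup.card_top, hcard]
      exact hp
  · intro s hs
    rw [AddMonoidHom.mem_ker]
    have hmem : f s ∈ S'.map f := ⟨s, (hSS' s).2 hs, rfl⟩
    rw [hfS] at hmem
    exact hmem
  · intro h
    exact hfy (AddMonoidHom.mem_ker.1 h)

section check

example {F : Type*} [Field F] [Fintype F] {Y : Type*} [AddCommGroup Y] [Module F Y] [Finite Y]
    (S : AddSubgroup Y) (y : Y) (hy : y ∉ S) :
    ∃ A : AddSubgroup Y, A.index.Prime ∧ S ≤ A ∧ y ∉ A :=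
  exists_prime_index_sep (F := F) S y hy

end check

end Cfsg.Agent.H4.Pm
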