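import Mathlib
import Cfsg.Prelude.Def_Characters
import Cfsg.Prelude.Def_OddOrderLocal
import Cfsg.Agent.H4.SemiReg
import Cfsg.Agent.H4.Burnside

/-!
# Double coset counting for a TI subgroup (helper4)

If `P ≤ L` and `P ∩ t⁻¹ P t = 1` for all `t ∉ L`, then `P × P` acts freely on `G ∖ L` by
`(x, y) • t = x t y⁻¹`, so sums over `G ∖ L` of functions invariant under this action lie in
`|P|²` times the algebraic integers.  Application: an irreducible character constant on `Z#`
(`Z` central in the TI Sylow subgroup `P`, normal in `N(P)` of odd order) takes there an integer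
value congruent to its degree modulo `|P|`.
-/

set_option autoImplicit false
set_option linter.unusedSectionVars false
set_option linter.style.haveILetI false

open Cfsg Module
open scoped ComplexConjugate

namespace Cfsg.Agent.H4

universe u

section TICount

variable {G : Type u} [Group G]

/-- Left-right multiplication action of `P × P` on the complement of a subgroup `L ⊇ P`. -/
@[reducible] def lrAct (P L : Subgroup G) (hPL : P ≤ L) : MulAction (P × P) {t : G // t ∉ L} where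
  smul s t := ⟨(s.1 : G) * t.1 * (s.2 : G)⁻¹, fun h => t.2 (by
    have h1 : (s.1 : G)⁻¹ * ((s.1 : G) * t.1 * (s.2 : G)⁻¹) * (s.2 : G) ∈ L :=
      L.mul_mem (L.mul_mem (L.inv_mem (hPL s.1.2)) h) (hPL s.2.2)
    have e : (s.1 : G)⁻¹ * ((s.1 : G) * t.1 * (s.2 : G)⁻¹) * (s.2 : G) = t.1 := by group
    rwa [e] at h1)⟩
  one_smul t := Subtype.ext (by
    show (((1 : P × P).1 : P) : G) * t.1 * (((1 : P × P).2 : P) : G)⁻¹ = t.1
    simp)
  mul_smul s s' t := Subtype.ext (by
    show (((s * s').1 : P) : G) * t.1 * (((s * s').2 : P) : G)⁻¹ =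
      (s.1 : G) * ((s'.1 : G) * t.1 * (s'.2 : G)⁻¹) * (s.2 : G)⁻¹
    simp [mul_assoc])

/-- Sums over the complement of `L` of `P × P`-invariant functions are divisible by `|P|²`. -/
theorem pDiv_sum_compl_of_TI [Fintype G] (P L : Subgroup G) (hPL : P ≤ L)
    (hTI : ∀ t : G, t ∉ L → ∀ x ∈ P, t⁻¹ * x * t ∈ P → x = 1)
    (F : G → ℂ) (hF : ∀ x ∈ P, ∀ y ∈ P, ∀ t : G, F (x * t * y⁻¹) = F t)
    (hint : ∀ t, IsIntegral ℤ (F t)) [DecidablePred (· ∈ L)] :
    PDiv (Nat.card P * Nat.card P) (∑ t ∈ Finset.univ.filter (fun t => t ∉ L), F t) := by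
  classical
  letI := lrAct P L hPL
  have hfree : ∀ (a : {t : G // t ∉ L}) (s : P × P), s • a = a → s = 1 := by
    intro a s hs
    have h1 : (s.1 : G) * a.1 * (s.2 : G)⁻¹ = a.1 := congrArg Subtype.val hs
    have h2 : a.1⁻¹ * (s.1 : G) * a.1 = (s.2 : G) := by
      calc a.1⁻¹ * (s.1 : G) * a.1 = a.1⁻¹ * ((s.1 : G) * a.1 * (s.2 : G)⁻¹) * (s.2 : G) := by group
        _ = (s.2 : G) := by rw [h1]; group
    have h3 : (s.1 : G) = 1 := hTI a.1 a.2 _ s.1.2 (by rw [h2]; exact s.2.2)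
    have h4 : (s.2 : G) = 1 := by rw [← h2, h3]; group
    exact Prod.ext (Subtype.ext h3) (Subtype.ext h4)
  have h := pDiv_sum_of_free (P := P × P) (α := {t : G // t ∉ L}) hfree (fun a => F a.1)
    (fun s a => hF _ s.1.2 _ s.2.2 a.1) (fun a => hint a.1)
  have hcard : Fintype.card (P × P) = Nat.card P * Nat.card P := by
    rw [Fintype.card_prod, Nat.card_eq_fintype_card]
  rw [hcard] at h
  have hsum : ∑ t ∈ Finset.univ.filter (fun t => t ∉ L), F t = ∑ a : {t : G // t ∉ L}, F a.1 := by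
    apply Finset.sum_subtype
    intro x
    simp
  rw [hsum]
  exact h

/-- In a group of odd order no non-identity element is conjugate to its inverse. -/
theorem not_conj_inv_of_odd (L : Subgroup G) [Finite L] (hodd : Odd (Nat.card L)) (t z : G)
    (ht : t ∈ L) (hz : z ∈ L) (hz1 : z ≠ 1) : t * z * t⁻¹ ≠ z⁻¹ := by
  intro h
  have hordt : Odd (orderOf t) := by
    have h1 : orderOf t ∣ Nat.card L := by
      have := orderOf_dvd_natCard (⟨t, ht⟩ : L)
      rwa [Subgroup.orderOf_mk] at this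
    exact Odd.of_dvd_nat hodd h1
  have hordz : Odd (orderOf z) := by
    have h1 : orderOf z ∣ Nat.card L := by
      have := orderOf_dvd_natCard (⟨z, hz⟩ : L)
      rwa [Subgroup.orderOf_mk] at this
    exact Odd.of_dvd_nat hodd h1
  have h2 : t ^ 2 * z = z * t ^ 2 := by
    have e1 : t * z = z⁻¹ * t := by
      calc t * z = t * z * t⁻¹ * t := by group
        _ = z⁻¹ * t := by rw [h]
    have e2 : t * z⁻¹ = z * t := by
      have : (t * z * t⁻¹)⁻¹ = z := by rw [h, inv_inv]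
      calc t * z⁻¹ = (t * z * t⁻¹)⁻¹ * t := by group
        _ = z * t := by rw [this]
    calc t ^ 2 * z = t * (t * z) := by rw [pow_two, mul_assoc]
      _ = t * (z⁻¹ * t) := by rw [e1]
      _ = (t * z⁻¹) * t := by rw [mul_assoc]
      _ = z * t * t := by rw [e2]
      _ = z * t ^ 2 := by rw [pow_two, mul_assoc]
  obtain ⟨m, hm⟩ := hordt
  have h3 : t = (t ^ 2) ^ (m + 1) := by
    rw [← pow_mul]
    have : 2 * (m + 1) = orderOf t + 1 := by omega
    rw [this, pow_succ, pow_orderOf_eq_one, one_mul]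
  have h4 : t * z = z * t := by
    have hc : Commute (t ^ 2) z := h2
    have := (hc.pow_left (m + 1)).eq
    rwa [← h3] at this
  have h5 : z = z⁻¹ := by
    rw [← h, h4]
    group
  have h6 : z ^ 2 = 1 := by
    rw [pow_two]
    nth_rewrite 2 [h5]
    exact mul_inv_cancel z
  have h7 : orderOf z ∣ 2 := orderOf_dvd_of_pow_eq_one h6
  have h8 : orderOf z = 1 := by
    rcases (Nat.dvd_prime Nat.prime_two).mp h7 with h | h
    · exact h
    · rw [h] at hordz
      exact absurd hordz (by decide)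
  exact hz1 (orderOf_eq_one_iff.mp h8)

/-- **Peterfalvi-type congruence.** -/
theorem ti_const_congr [Finite G] {p : ℕ} [Fact p.Prime] (P : Sylow p G)
    (hTI : IsTISubset ((P : Subgroup G) : Set G))
    (hodd : Odd (Nat.card (Subgroup.normalizer ((P : Subgroup G) : Set G))))
    (Z : Subgroup G) (hZ1 : Z ≠ ⊥) (hZP : Z ≤ P)
    (hZn : ∀ x ∈ Subgroup.normalizer ((P : Subgroup G) : Set G), ∀ z ∈ Z, x * z * x⁻¹ ∈ Z)
    (hZc : ∀ z ∈ Z, ∀ y ∈ (P : Subgroup G), z * y = y * z)
    (ψ : G → ℂ) (hψ : IsIrrCharacter G ψ)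
    (hconst : ∀ z ∈ Z, ∀ z' ∈ Z, z ≠ 1 → z' ≠ 1 → ψ z = ψ z') (z : G) (hz : z ∈ Z)
    (hz1 : z ≠ 1) :
    ∃ n d : ℤ, ψ z = n ∧ ψ 1 = d ∧ (Nat.card (P : Subgroup G) : ℤ) ∣ d - n := by
  classical
  have hp : p.Prime := Fact.out
  haveI := Fintype.ofFinite G
  set S : Subgroup G := (P : Subgroup G) with hS
  set L : Subgroup G := Subgroup.normalizer (S : Set G) with hL
  have hPL : S ≤ L := Subgroup.le_normalizer
  have hψc : IsCharacter G ψ := isCharacter_of_isIrrCharacter hψ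
  have hcf : IsClassFunction G ψ := isClassFunction_of_isCharacter hψc
  obtain ⟨d, e, hde, hd, hsum⟩ := exists_codeg hψ
  -- the value on `Z#` is an integer
  obtain ⟨n, hn⟩ : ∃ n : ℤ, ψ z = n := by
    have hZcard : 1 < Nat.card Z := (Subgroup.one_lt_card_iff_ne_bot Z).mpr hZ1
    obtain ⟨m, hm⟩ := classInner_isCharacter_nat (isCharacter_restrict Z hψc)
      (isCharacter_of_isIrrCharacter (isIrrCharacter_one (G := Z)))
    have h1 : ∑ y : Z, ψ y = Nat.card Z * m := by
      have := sum_mul_conj_eq (fun y : Z => ψ y) (fun _ => (1 : ℂ))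
      simp only [map_one, mul_one] at this
      rw [this, hm]
    have h2 : ∑ y : Z, ψ y = ψ 1 + ((Nat.card Z : ℂ) - 1) * ψ z := by
      rw [← Finset.add_sum_erase Finset.univ (fun y : Z => ψ y) (Finset.mem_univ (1 : Z))]
      congr 1
      have h3 : ∀ y ∈ Finset.univ.erase (1 : Z), ψ (y : G) = ψ z := by
        intro y hy
        have hy1 : (y : G) ≠ 1 := fun h => (Finset.mem_erase.mp hy).1 (Subtype.ext h)
        exact hconst _ y.2 _ hz hy1 hz1
      rw [Finset.sum_congr rfl h3, Finset.sum_const, Finset.card_erase_of_mem (Finset.mem_univ _),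
        Finset.card_univ, nsmul_eq_mul, ← Nat.card_eq_fintype_card]
      have : ((Nat.card Z - 1 : ℕ) : ℂ) = (Nat.card Z : ℂ) - 1 := by
        rw [Nat.cast_sub hZcard.le, Nat.cast_one]
      rw [this]
    have hne : ((Nat.card Z : ℂ) - 1) ≠ 0 := by
      intro h0
      have h00 : (Nat.card Z : ℂ) = 1 := sub_eq_zero.mp h0
      have : (Nat.card Z : ℕ) = 1 := by exact_mod_cast h00
      omega
    have h4 : ψ z = (((Nat.card Z * m - d : ℤ) : ℚ) / ((Nat.card Z - 1 : ℤ) : ℚ) : ℚ) := by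
      push_cast
      rw [eq_div_iff hne]
      have := h1.symm.trans h2
      rw [hd] at this
      linear_combination -this
    have hint : IsIntegral ℤ (ψ z) := isIntegral_of_isCharacter hψc z
    rw [h4] at hint
    obtain ⟨y, hy⟩ := exists_int_of_isIntegral_ratCast _ hint
    refine ⟨y, ?_⟩
    rw [h4, ← hy]
    push_cast
    rfl
  refine ⟨n, d, hn, by rw [hd]; push_cast; rfl, ?_⟩
  -- the counting
  have hzS : z ∈ S := hZP hz
  have hzinv : z⁻¹ ∈ Z := Z.inv_mem hz
  have hzinv1 : z⁻¹ ≠ 1 := fun h => hz1 (inv_eq_one.mp h)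
  set F : G → ℂ := fun t => ψ (z * t * z * t⁻¹) - ψ (z * t * z⁻¹ * t⁻¹) with hFdef
  have hTI' : ∀ t : G, t ∉ L → ∀ x ∈ S, t⁻¹ * x * t ∈ S → x = 1 := by
    intro t ht x hx hxt
    have ht' : t⁻¹ ∉ L := fun h => ht (by simpa using L.inv_mem h)
    have := hTI t⁻¹ ht' x hx
    rw [inv_inv] at this
    exact this hxt
  have hkey : ∀ x ∈ S, ∀ y ∈ S, ∀ w ∈ Z, ∀ t : G,
      ψ (z * (x * t * y⁻¹) * w * (x * t * y⁻¹)⁻¹) = ψ (z * t * w * t⁻¹) := by
    intro x hx y hy w hw t
    have e1 : z * x = x * z := hZc z hz x hx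
    have e2 : w * y = y * w := hZc w hw y hy
    have e3 : z * (x * t * y⁻¹) * w * (x * t * y⁻¹)⁻¹ = x * (z * t * w * t⁻¹) * x⁻¹ := by
      have e4 : y⁻¹ * w * y = w := by
        calc y⁻¹ * w * y = y⁻¹ * (w * y) := by group
          _ = w := by rw [e2]; group
      calc z * (x * t * y⁻¹) * w * (x * t * y⁻¹)⁻¹
          = (z * x) * t * (y⁻¹ * w * y) * t⁻¹ * x⁻¹ := by group
        _ = (x * z) * t * w * t⁻¹ * x⁻¹ := by rw [e1, e4]
        _ = x * (z * t * w * t⁻¹) * x⁻¹ := by group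
    rw [e3]
    exact hcf _ x
  have hFinv : ∀ x ∈ S, ∀ y ∈ S, ∀ t : G, F (x * t * y⁻¹) = F t := by
    intro x hx y hy t
    show ψ (z * (x * t * y⁻¹) * z * (x * t * y⁻¹)⁻¹) - ψ (z * (x * t * y⁻¹) * z⁻¹ * (x * t * y⁻¹)⁻¹)
      = ψ (z * t * z * t⁻¹) - ψ (z * t * z⁻¹ * t⁻¹)
    rw [hkey x hx y hy z hz t, hkey x hx y hy z⁻¹ hzinv t]
  have hFint : ∀ t, IsIntegral ℤ (F t) := fun t =>
    (isIntegral_of_isCharacter hψc _).sub (isIntegral_of_isCharacter hψc _)
  have hcompl := pDiv_sum_compl_of_TI S L hPL hTI' F hFinv hFint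
  -- total sum
  have htot : ∑ t : G, F t = 0 := by
    show ∑ t : G, (ψ (z * t * z * t⁻¹) - ψ (z * t * z⁻¹ * t⁻¹)) = 0
    rw [Finset.sum_sub_distrib, hsum z z, hsum z z⁻¹, hconst z⁻¹ hzinv z hz hzinv1 hz1, sub_self]
  -- sum over `L`
  have hLval : ∀ t ∈ L, F t = if z * t = t * z then ((n : ℂ) - d) else 0 := by
    intro t ht
    have h1 : ψ (z * t * z * t⁻¹) = n := by
      rw [← hn]
      have hmem : z * t * z * t⁻¹ ∈ Z := by
        have : z * t * z * t⁻¹ = z * (t * z * t⁻¹) := by group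
        rw [this]
        exact Z.mul_mem hz (hZn t ht z hz)
      have hne : z * t * z * t⁻¹ ≠ 1 := by
        intro h
        have : t * z * t⁻¹ = z⁻¹ := by
          calc t * z * t⁻¹ = z⁻¹ * (z * t * z * t⁻¹) := by group
            _ = z⁻¹ := by rw [h, mul_one]
        exact not_conj_inv_of_odd L hodd t z ht (hPL hzS) hz1 this
      exact hconst _ hmem _ hz hne hz1
    by_cases hc : z * t = t * z
    · rw [if_pos hc]
      have h2 : z * t * z⁻¹ * t⁻¹ = 1 := by rw [hc]; group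
      show ψ (z * t * z * t⁻¹) - ψ (z * t * z⁻¹ * t⁻¹) = (n : ℂ) - d
      rw [h1, h2, hd]
    · rw [if_neg hc]
      have hmem : z * t * z⁻¹ * t⁻¹ ∈ Z := by
        have : z * t * z⁻¹ * t⁻¹ = z * (t * z⁻¹ * t⁻¹) := by group
        rw [this]
        exact Z.mul_mem hz (hZn t ht z⁻¹ hzinv)
      have hne : z * t * z⁻¹ * t⁻¹ ≠ 1 := by
        intro h
        apply hc
        calc z * t = z * t * z⁻¹ * t⁻¹ * (t * z) := by group
          _ = t * z := by rw [h, one_mul]
      show ψ (z * t * z * t⁻¹) - ψ (z * t * z⁻¹ * t⁻¹) = 0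
      rw [h1, hconst _ hmem _ hz hne hz1, hn, sub_self]
  set D : Subgroup G := L ⊓ Subgroup.centralizer ({z} : Set G) with hD
  have hLsum : ∑ t ∈ Finset.univ.filter (fun t => t ∈ L), F t = (Nat.card D : ℂ) * ((n : ℂ) - d) := by
    rw [Finset.sum_congr rfl (fun t ht => hLval t (Finset.mem_filter.mp ht).2),
      ← Finset.sum_filter, Finset.sum_const, nsmul_eq_mul]
    congr 2
    rw [Nat.card_eq_fintype_card, Finset.filter_filter, ← Fintype.card_subtype]
    apply Fintype.card_congr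
    refine Equiv.subtypeEquivRight ?_
    intro t
    rw [hD, Subgroup.mem_inf, Subgroup.mem_centralizer_iff]
    constructor
    · rintro ⟨h1, h2⟩
      exact ⟨h1, fun h hh => by rw [Set.mem_singleton_iff.mp hh]; exact h2⟩
    · rintro ⟨h1, h2⟩
      exact ⟨h1, h2 z rfl⟩
  have hsplit : ∑ t : G, F t = ∑ t ∈ Finset.univ.filter (fun t => t ∈ L), F t +
      ∑ t ∈ Finset.univ.filter (fun t => t ∉ L), F t :=
    (Finset.sum_filter_add_sum_filter_not Finset.univ (fun t => t ∈ L) F).symm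
  rw [htot, hLsum] at hsplit
  have hval : ∑ t ∈ Finset.univ.filter (fun t => t ∉ L), F t =
      (((Nat.card D : ℤ) * ((d : ℤ) - n) : ℤ) : ℂ) := by
    push_cast
    linear_combination -hsplit
  rw [hval] at hcompl
  have hdvd : ((Nat.card S * Nat.card S : ℕ) : ℤ) ∣ (Nat.card D : ℤ) * ((d : ℤ) - n) :=
    PDiv.dvd_int (Nat.mul_pos Nat.card_pos Nat.card_pos) hcompl
  -- `|D| = |P| c'` with `p ∤ c'`
  have hSD : S ≤ D := by
    intro x hx
    rw [hD, Subgroup.mem_inf, Subgroup.mem_centralizer_iff]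
    refine ⟨hPL hx, fun h hh => ?_⟩
    rw [Set.mem_singleton_iff.mp hh]
    exact hZc z hz x hx
  obtain ⟨c', hc'⟩ : Nat.card S ∣ Nat.card D := Subgroup.card_dvd_of_le hSD
  have hpc' : ¬ p ∣ c' := by
    intro hpc
    have h1 : Nat.card D ∣ Nat.card G := Subgroup.card_subgroup_dvd_card D
    have h2 : Nat.card S * S.index = Nat.card G := Subgroup.card_mul_index S
    have h3 : c' ∣ S.index := by
      obtain ⟨j, hj⟩ := h1
      rw [hc', ← h2] at hj
      have hSpos : 0 < Nat.card S := Nat.card_pos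
      have : S.index = c' * j := by
        have h4 : Nat.card S * S.index = Nat.card S * (c' * j) := by rw [hj]; ring
        exact Nat.eq_of_mul_eq_mul_left hSpos h4
      exact ⟨j, this⟩
    exact P.not_dvd_index (hpc.trans h3)
  have hcop : Int.gcd (Nat.card S : ℤ) (c' : ℤ) = 1 := by
    rw [Int.gcd_natCast_natCast]
    obtain ⟨k, hk⟩ := IsPGroup.iff_card.mp P.isPGroup'
    have hk' : Nat.card S = p ^ k := hk
    rw [hk']
    exact Nat.Coprime.pow_left k ((Nat.Prime.coprime_iff_not_dvd hp).mpr hpc')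
  have hdvd2 : (Nat.card S : ℤ) ∣ (c' : ℤ) * ((d : ℤ) - n) := by
    rw [hc'] at hdvd
    push_cast at hdvd
    have hS0 : (Nat.card S : ℤ) ≠ 0 := by
      have : 0 < Nat.card S := Nat.card_pos
      exact_mod_cast this.ne'
    have h5 : (Nat.card S : ℤ) * (Nat.card S : ℤ) ∣ (Nat.card S : ℤ) * ((c' : ℤ) * ((d : ℤ) - n)) := by
      rw [← mul_assoc]
      exact hdvd
    exact (mul_dvd_mul_iff_left hS0).mp h5
  exact Int.dvd_of_dvd_mul_right_of_gcd_one hdvd2 hcop

end TICount

end Cfsg.Agent.H4
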