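import Mathlib
import Cfsg.Agent.H77.TqDefs
import Cfsg.Agent.H49.Basic
import Cfsg.Agent.H49.SimpleForms
import Cfsg.Agent.H53.TenFIN
import Cfsg.Agent.S0288

set_option autoImplicit false

/-!
# Piece `S5978-MINELEVEN` for helper77

For `i = ord_r(q)` even with `i ≤ 2 m + 2`, the group `Ω⁻_{2m+2}(q)` has an element of order `r` with
`rank (x - 1) = i`: an element of order `r` of `O⁻_i(q)`, extended by the identity on the remaining
hyperbolic pairs.
-/

namespace Cfsg.Agent.H4.Tq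

open Cfsg.Agent.H77.Tq
open scoped Matrix

universe u

section Blocks

variable {F : Type u} [Field F]

/-- The rank of a block matrix with one non-zero diagonal block. -/
theorem rank_fromBlocks_zero {A B : Type*} [Fintype A] [Fintype B] [DecidableEq A] [DecidableEq B]
    (N : Matrix A A F) :
    (Matrix.fromBlocks N (0 : Matrix A B F) (0 : Matrix B A F) (0 : Matrix B B F)).rank = N.rank := by
  apply le_antisymm
  · have h : Matrix.fromBlocks N (0 : Matrix A B F) (0 : Matrix B A F) (0 : Matrix B B F) =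
        Matrix.fromRows (1 : Matrix A A F) (0 : Matrix B A F) * N *
          Matrix.fromCols (1 : Matrix A A F) (0 : Matrix A B F) := by
      rw [Matrix.fromRows_mul, Matrix.one_mul, Matrix.zero_mul, Matrix.fromRows_mul_fromCols]
      simp
    rw [h]
    exact (Matrix.rank_mul_le_left _ _).trans (Matrix.rank_mul_le_right _ _)
  · have h : N = (Matrix.fromBlocks N (0 : Matrix A B F) (0 : Matrix B A F)
        (0 : Matrix B B F)).submatrix Sum.inl Sum.inl := by
      ext i j; rfl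
    conv_lhs => rw [h]
    exact Matrix.rank_submatrix_le _ _ _

/-- A matrix of rank zero is zero. -/
theorem eq_zero_of_rank_eq_zero {A : Type*} [Fintype A] [DecidableEq A] (N : Matrix A A F)
    (h : N.rank = 0) : N = 0 := by
  have h1 : LinearMap.range N.mulVecLin = ⊥ := by
    apply Submodule.finrank_eq_zero.mp
    exact h
  have h2 : N.mulVecLin = 0 := LinearMap.range_eq_bot.mp h1
  ext i j
  have h3 := congrArg (fun f : (A → F) →ₗ[F] (A → F) => f (Pi.single j 1) i) h2
  simpa using h3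

/-- A shuffle of summands. -/
def shuf (A T D : Type*) : ((A ⊕ A) ⊕ T) ⊕ (D ⊕ D) ≃ ((A ⊕ D) ⊕ (A ⊕ D)) ⊕ T where
  toFun := fun s => match s with
    | Sum.inl (Sum.inl (Sum.inl a)) => Sum.inl (Sum.inl (Sum.inl a))
    | Sum.inl (Sum.inl (Sum.inr a)) => Sum.inl (Sum.inr (Sum.inl a))
    | Sum.inl (Sum.inr t) => Sum.inr t
    | Sum.inr (Sum.inl d) => Sum.inl (Sum.inl (Sum.inr d))
    | Sum.inr (Sum.inr d) => Sum.inl (Sum.inr (Sum.inr d))
  invFun := fun s => match s with
    | Sum.inl (Sum.inl (Sum.inl a)) => Sum.inl (Sum.inl (Sum.inl a))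
    | Sum.inl (Sum.inl (Sum.inr d)) => Sum.inr (Sum.inl d)
    | Sum.inl (Sum.inr (Sum.inl a)) => Sum.inl (Sum.inl (Sum.inr a))
    | Sum.inl (Sum.inr (Sum.inr d)) => Sum.inr (Sum.inr d)
    | Sum.inr t => Sum.inl (Sum.inr t)
  left_inv := by rintro (((a | a) | t) | (d | d)) <;> rfl
  right_inv := by rintro (((a | d) | (a | d)) | t) <;> rfl

/-- The index set of the minus-type space of dimension `2 (k + d) + 2` splits into that of dimension
`2 k + 2` and `d` further hyperbolic pairs. -/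
def emb (k d : ℕ) : MI k ⊕ (Fin d ⊕ Fin d) ≃ MI (k + d) :=
  (shuf (Fin k) (Fin 2) (Fin d)).trans
    (Equiv.sumCongr (Equiv.sumCongr finSumFinEquiv finSumFinEquiv) (Equiv.refl (Fin 2)))

theorem emb_xl (k d : ℕ) (i : Fin k) :
    emb k d (Sum.inl (Sum.inl (Sum.inl i))) = Sum.inl (Sum.inl (Fin.castAdd d i)) := rfl

theorem emb_yl (k d : ℕ) (i : Fin k) :
    emb k d (Sum.inl (Sum.inl (Sum.inr i))) = Sum.inl (Sum.inr (Fin.castAdd d i)) := rfl

theorem emb_z (k d : ℕ) (c : Fin 2) : emb k d (Sum.inl (Sum.inr c)) = Sum.inr c := rfl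

theorem emb_xr (k d : ℕ) (j : Fin d) :
    emb k d (Sum.inr (Sum.inl j)) = Sum.inl (Sum.inl (Fin.natAdd k j)) := rfl

theorem emb_yr (k d : ℕ) (j : Fin d) :
    emb k d (Sum.inr (Sum.inr j)) = Sum.inl (Sum.inr (Fin.natAdd k j)) := rfl

/-- The minus-type form in the split coordinates. -/
theorem qMinus_emb (k d : ℕ) (a b : F) (u : MI (k + d) → F) :
    Cfsg.quadFormMinus (k + d) F a b u =
      Cfsg.quadFormMinus k F a b (fun t => u (emb k d (Sum.inl t))) +
        ∑ j : Fin d, u (emb k d (Sum.inr (Sum.inl j))) * u (emb k d (Sum.inr (Sum.inr j))) := by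
  unfold Cfsg.quadFormMinus
  rw [Fin.sum_univ_add]
  simp only [emb_xl, emb_yl, emb_z, emb_xr, emb_yr]
  ring

/-- Extension of a matrix by the identity on the further hyperbolic pairs. -/
noncomputable def PhiM (k d : ℕ) :
    Matrix (MI k) (MI k) F →* Matrix (MI (k + d)) (MI (k + d)) F where
  toFun A := Matrix.reindexAlgEquiv F F (emb k d)
    (Matrix.fromBlocks A (0 : Matrix (MI k) (Fin d ⊕ Fin d) F) (0 : Matrix (Fin d ⊕ Fin d) (MI k) F) 1)
  map_one' := by rw [Matrix.fromBlocks_one, map_one]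
  map_mul' A B := by
    rw [← map_mul, Matrix.fromBlocks_multiply]
    simp

theorem PhiM_apply (k d : ℕ) (A : Matrix (MI k) (MI k) F) :
    PhiM k d A = Matrix.reindexAlgEquiv F F (emb k d)
      (Matrix.fromBlocks A (0 : Matrix (MI k) (Fin d ⊕ Fin d) F)
        (0 : Matrix (Fin d ⊕ Fin d) (MI k) F) 1) := rfl

theorem PhiM_mulVec (k d : ℕ) (A : Matrix (MI k) (MI k) F) (u : MI (k + d) → F)
    (s : MI k ⊕ (Fin d ⊕ Fin d)) :
    (PhiM k d A *ᵥ u) (emb k d s) =
      (Matrix.fromBlocks A (0 : Matrix (MI k) (Fin d ⊕ Fin d) F)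
        (0 : Matrix (Fin d ⊕ Fin d) (MI k) F) 1 *ᵥ (fun t => u (emb k d t))) s := by
  rw [PhiM_apply, Matrix.coe_reindexAlgEquiv, Matrix.reindex_apply, Matrix.submatrix_mulVec_equiv]
  simp only [Function.comp_apply, Equiv.symm_symm, Equiv.symm_apply_apply]
  rfl

theorem PhiM_mulVec_inl (k d : ℕ) (A : Matrix (MI k) (MI k) F) (u : MI (k + d) → F) (t : MI k) :
    (PhiM k d A *ᵥ u) (emb k d (Sum.inl t)) = (A *ᵥ (fun s => u (emb k d (Sum.inl s)))) t := by
  rw [PhiM_mulVec]
  simp [Matrix.mulVec, dotProduct, Fintype.sum_sum_type]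

theorem PhiM_mulVec_inr (k d : ℕ) (A : Matrix (MI k) (MI k) F) (u : MI (k + d) → F)
    (j : Fin d ⊕ Fin d) :
    (PhiM k d A *ᵥ u) (emb k d (Sum.inr j)) = u (emb k d (Sum.inr j)) := by
  rw [PhiM_mulVec]
  simp [Matrix.mulVec, dotProduct, Fintype.sum_sum_type, Matrix.one_apply]

/-- The extension of an isometry is an isometry. -/
theorem PhiM_isometry (k d : ℕ) (a b : F) (A : Matrix (MI k) (MI k) F)
    (hA : ∀ v : MI k → F, Cfsg.quadFormMinus k F a b (A *ᵥ v) = Cfsg.quadFormMinus k F a b v)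
    (u : MI (k + d) → F) :
    Cfsg.quadFormMinus (k + d) F a b (PhiM k d A *ᵥ u) = Cfsg.quadFormMinus (k + d) F a b u := by
  rw [qMinus_emb, qMinus_emb k d a b u]
  have h1 : (fun t => (PhiM k d A *ᵥ u) (emb k d (Sum.inl t))) =
      A *ᵥ (fun s => u (emb k d (Sum.inl s))) := by
    funext t
    exact PhiM_mulVec_inl k d A u t
  rw [h1, hA]
  simp only [PhiM_mulVec_inr]

/-- `rank (Φ A - 1) = rank (A - 1)`. -/
theorem PhiM_sub_one_rank (k d : ℕ) (A : Matrix (MI k) (MI k) F) :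
    (PhiM k d A - 1).rank = (A - 1).rank := by
  have h1 : PhiM k d A - 1 = Matrix.reindexAlgEquiv F F (emb k d)
      (Matrix.fromBlocks (A - 1) (0 : Matrix (MI k) (Fin d ⊕ Fin d) F)
        (0 : Matrix (Fin d ⊕ Fin d) (MI k) F) 0) := by
    have h2 : (1 : Matrix (MI (k + d)) (MI (k + d)) F) = PhiM k d 1 := (map_one _).symm
    rw [h2, PhiM_apply, PhiM_apply, ← map_sub]
    congr 1
    ext (i | i) (j | j) <;> simp [Matrix.one_apply]
  rw [h1, Matrix.coe_reindexAlgEquiv, Matrix.rank_reindex, rank_fromBlocks_zero]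

end Blocks

section Main

/-- If `q` has order `2 (k + 1)` modulo the prime `r` then `r ∣ q ^ (k + 1) + 1`. -/
theorem dvd_pow_add_one (q r k : ℕ) (hr : r.Prime) (hi : orderOf (q : ZMod r) = 2 * (k + 1)) :
    r ∣ q ^ (k + 1) + 1 := by
  have hrF : Fact r.Prime := ⟨hr⟩
  have h1 : (q : ZMod r) ^ (2 * (k + 1)) = 1 := by rw [← hi]; exact pow_orderOf_eq_one _
  have h2 : ((q : ZMod r) ^ (k + 1) - 1) * ((q : ZMod r) ^ (k + 1) + 1) = 0 := by
    have h0 : (q : ZMod r) ^ (2 * (k + 1)) = ((q : ZMod r) ^ (k + 1)) ^ 2 := by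
      rw [← pow_mul, mul_comm]
    rw [h0] at h1
    linear_combination h1
  rcases mul_eq_zero.mp h2 with h | h
  · exfalso
    have h3 : (q : ZMod r) ^ (k + 1) = 1 := sub_eq_zero.mp h
    have h4 := orderOf_dvd_of_pow_eq_one h3
    rw [hi] at h4
    have h5 := Nat.le_of_dvd (by omega) h4
    omega
  · rw [← ZMod.natCast_eq_zero_iff]
    push_cast
    exact h

/-- S5978-MINELEVEN. -/
theorem minElEven (hOdd : StOddMem.{u}) : StMinElEven.{u} := by
  intro F _ _ p hp _ m a b h2 hab r hr hr2 hrp hev hle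
  classical
  have hrF : Fact r.Prime := ⟨hr⟩
  -- `q` is a unit modulo `r`, so its order is positive
  obtain ⟨f, -, hf⟩ := FiniteField.card F p
  have hq0 : ((Fintype.card F : ℕ) : ZMod r) ≠ 0 := by
    rw [Ne, ZMod.natCast_eq_zero_iff, hf]
    intro hd
    exact hrp ((Nat.prime_dvd_prime_iff_eq hr hp.out).mp (hr.dvd_of_dvd_pow hd))
  have hpos : 0 < orderOf ((Fintype.card F : ℕ) : ZMod r) := by
    rw [orderOf_pos_iff, isOfFinOrder_iff_pow_eq_one]
    exact ⟨r - 1, by have := hr.two_le; omega, ZMod.pow_card_sub_one_eq_one hq0⟩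
  obtain ⟨k, hk⟩ : ∃ k, orderOf ((Fintype.card F : ℕ) : ZMod r) = 2 * (k + 1) := by
    obtain ⟨c, hc⟩ := hev
    exact ⟨c - 1, by omega⟩
  obtain ⟨d, rfl⟩ : ∃ d, m = k + d := ⟨m - k, by omega⟩
  -- Cauchy in the isometry group of dimension `2 k + 2`
  have hcard := Cfsg.Agent.S0288.key (F := F) rfl a b hab k
  have hdvd : r ∣ Nat.card ↥(Cfsg.isometryGroup F (Cfsg.quadFormMinus k F a b)) := by
    rw [hcard]
    exact Dvd.dvd.mul_right (Dvd.dvd.mul_left (dvd_pow_add_one _ r k hr hk) _) _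
  obtain ⟨x₀, hx₀⟩ := exists_prime_orderOf_dvd_card' r hdvd
  have hx₀r : ((x₀ : GL (MI k) F)) ^ r = 1 := by
    have h1 : x₀ ^ r = 1 := by rw [← hx₀]; exact pow_orderOf_eq_one x₀
    have h3 := congrArg
      (fun g : ↥(Cfsg.isometryGroup F (Cfsg.quadFormMinus k F a b)) => (g : GL (MI k) F)) h1
    simpa using h3
  obtain ⟨A, hA⟩ : ∃ A : Matrix (MI k) (MI k) F, A = ((x₀ : GL (MI k) F) : Matrix (MI k) (MI k) F) :=
    ⟨_, rfl⟩
  have hAr : A ^ r = 1 := by
    have h3 := congrArg (fun g : GL (MI k) F => (g : Matrix (MI k) (MI k) F)) hx₀r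
    rw [hA]
    simpa using h3
  have hA1 : A ≠ 1 := by
    intro h
    have h1 : x₀ = 1 := by
      apply Subtype.ext
      apply Units.ext
      rw [← hA, h]
      rfl
    rw [h1, orderOf_one] at hx₀
    exact hr.one_lt.ne hx₀
  have hAiso : ∀ v : MI k → F,
      Cfsg.quadFormMinus k F a b (A *ᵥ v) = Cfsg.quadFormMinus k F a b v := by
    rw [hA]
    exact Cfsg.Agent.H49.mem_isometryGroup_iff.mp x₀.2
  -- the rank of `A - 1`
  have hrF' : (r : F) ≠ 0 := by
    intro h
    have h1 := (CharP.cast_eq_zero_iff F p r).mp h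
    exact hrp ((Nat.prime_dvd_prime_iff_eq hp.out hr).mp h1).symm
  have hrank : (A - 1).rank = 2 * (k + 1) := by
    have hY : (Matrix.reindexAlgEquiv F F (Fintype.equivFin (MI k)) A) ^ r = 1 := by
      rw [← map_pow, hAr, map_one]
    have h1 := Cfsg.Agent.H53.Ten.order_dvd_rank_sub_one r hr hrF' _ hY
    have h3 : Matrix.reindexAlgEquiv F F (Fintype.equivFin (MI k)) A - 1 =
        Matrix.reindexAlgEquiv F F (Fintype.equivFin (MI k)) (A - 1) := by
      rw [map_sub, map_one]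
    rw [h3, Matrix.coe_reindexAlgEquiv, Matrix.rank_reindex, hk] at h1
    have h4 : (A - 1).rank ≤ 2 * (k + 1) := by
      have h5 := Matrix.rank_le_card_width (A - 1)
      have hc : Fintype.card (MI k) = 2 * (k + 1) := by
        simp only [Fintype.card_sum, Fintype.card_fin]
        ring
      omega
    have h5 : (A - 1).rank ≠ 0 := by
      intro h
      exact hA1 (sub_eq_zero.mp (eq_zero_of_rank_eq_zero _ h))
    have h6 := Nat.le_of_dvd (Nat.pos_of_ne_zero h5) h1
    omega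
  -- the element
  obtain ⟨x, hx⟩ : ∃ x : GL (MI (k + d)) F, x = Units.map (PhiM k d) (x₀ : GL (MI k) F) := ⟨_, rfl⟩
  have hxcoe : (x : Matrix (MI (k + d)) (MI (k + d)) F) = PhiM k d A := by
    rw [hx, hA]
    rfl
  have hxr : x ^ r = 1 := by
    rw [hx, ← map_pow, hx₀r, map_one]
  have hxiso : x ∈ Cfsg.isometryGroup F (Cfsg.quadFormMinus (k + d) F a b) := by
    rw [Cfsg.Agent.H49.mem_isometryGroup_iff]
    intro u
    rw [hxcoe]
    exact PhiM_isometry k d a b A hAiso u
  have hxrank : ((x : Matrix (MI (k + d)) (MI (k + d)) F) - 1).rank = 2 * (k + 1) := by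
    rw [hxcoe, PhiM_sub_one_rank, hrank]
  refine ⟨x, ?_, hxr, ?_, ?_⟩
  · exact hOdd F (MI (k + d)) (Cfsg.Agent.H49.QMin (k + d) F a b) h2
      (Cfsg.Agent.H49.QMin_nondeg (k + d) a b (Cfsg.Agent.H49.disc_ne_zero_of_aniso a b hab)) x r hxiso
      (hr.odd_of_ne_two hr2) hxr
  · intro z hz
    have h1 := (Cfsg.Agent.H49.mem_isometryGroup_iff.mp hxiso) (Pi.single (Sum.inr 0) 1)
    rw [hz] at h1
    have h3 : z * z = 1 := by
      simpa [Cfsg.quadFormMinus, Matrix.smul_mulVec, pow_two] using h1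
    have h4 : z ^ r = 1 := by
      have h5 : (x : Matrix (MI (k + d)) (MI (k + d)) F) ^ r = 1 := by
        have h6 := congrArg (fun g : GL (MI (k + d)) F => (g : Matrix (MI (k + d)) (MI (k + d)) F)) hxr
        simpa using h6
      rw [hz, smul_pow, one_pow] at h5
      have h7 := congrFun (congrFun h5 (Sum.inr 0)) (Sum.inr 0)
      simpa using h7
    have hz1 : z = 1 := by
      rcases mul_self_eq_one_iff.mp h3 with h | h
      · exact h
      · exfalso
        rw [h, (hr.odd_of_ne_two hr2).neg_one_pow] at h4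
        apply h2
        linear_combination -h4
    rw [hz, hz1, one_smul, sub_self, Matrix.rank_zero] at hxrank
    omega
  · rw [hxrank]
    unfold Cfsg.Agent.H42.Spd.cc
    rw [if_pos hev, hk]

end Main

section check

example (hOdd : StOddMem.{u}) : StMinElEven.{u} := minElEven hOdd

end check

end Cfsg.Agent.H4.Tq
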