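import Mathlib
import Cfsg.Agent.H95.OhDefs
import Cfsg.Agent.H45.OrthRev
import Cfsg.Agent.H49.Basic

/-!
# S5992/S5993 piece UNIPEX (helper4)

An element of order `p` of `Ω_{2d+1}(q)`, `q` odd, with `(x - 1) ^ 3 = 0` and at most one Jordan
block of odd size.  In coordinates `(x₀; X; Y)`, `Q = x₀² + X·Y`:
`x (x₀, X, Y) = (x₀ + u·Y, X - 2 x₀ u - (u·Y) u + S Y, Y)` with `S` skew-symmetric.
-/

set_option autoImplicit false

namespace Cfsg.Agent.H4.Oh

open Cfsg.Agent.H45 Cfsg.Agent.H42.Spd Cfsg.Agent.H42.Ti Cfsg.Agent.H14.Ot Cfsg.Agent.H95.Oh Module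
open scoped Matrix

universe u

section Constr

variable {F : Type u} [Field F] {d : ℕ}

/-- The `Y`-coordinates of a vector. -/
def yOf (v : Unit ⊕ (Fin d ⊕ Fin d) → F) : Fin d → F := fun i => v (Sum.inr (Sum.inr i))

theorem yOf_add (v w : Unit ⊕ (Fin d ⊕ Fin d) → F) : yOf (v + w) = yOf v + yOf w := rfl

theorem yOf_smul (c : F) (v : Unit ⊕ (Fin d ⊕ Fin d) → F) : yOf (c • v) = c • yOf v := rfl

/-- The nilpotent part `N` of the element. -/
def nMap (S : Matrix (Fin d) (Fin d) F) (u : Fin d → F) :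
    (Unit ⊕ (Fin d ⊕ Fin d) → F) →ₗ[F] (Unit ⊕ (Fin d ⊕ Fin d) → F) where
  toFun v := Sum.elim (fun _ => u ⬝ᵥ yOf v)
    (Sum.elim (fun i => -2 * v (Sum.inl ()) * u i - (u ⬝ᵥ yOf v) * u i + (S *ᵥ yOf v) i)
      (fun _ => 0))
  map_add' := by
    intro v w
    funext k
    rcases k with ⟨⟩ | i | i
    · simp [yOf_add, dotProduct_add]
    · simp [yOf_add, dotProduct_add, Matrix.mulVec_add]
      ring
    · simp
  map_smul' := by
    intro c v
    funext k
    rcases k with ⟨⟩ | i | i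
    · simp [yOf_smul, dotProduct_smul]
    · simp [yOf_smul, dotProduct_smul, Matrix.mulVec_smul]
      ring
    · simp

variable (S : Matrix (Fin d) (Fin d) F) (u : Fin d → F)

theorem nMap_inl (v : Unit ⊕ (Fin d ⊕ Fin d) → F) : nMap S u v (Sum.inl ()) = u ⬝ᵥ yOf v := rfl

theorem nMap_X (v : Unit ⊕ (Fin d ⊕ Fin d) → F) (i : Fin d) :
    nMap S u v (Sum.inr (Sum.inl i)) =
      -2 * v (Sum.inl ()) * u i - (u ⬝ᵥ yOf v) * u i + (S *ᵥ yOf v) i := rfl

theorem nMap_Y (v : Unit ⊕ (Fin d ⊕ Fin d) → F) (i : Fin d) :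
    nMap S u v (Sum.inr (Sum.inr i)) = 0 := rfl

theorem yOf_nMap (v : Unit ⊕ (Fin d ⊕ Fin d) → F) : yOf (nMap S u v) = 0 := rfl

/-- `N²`. -/
theorem nMap_sq (v : Unit ⊕ (Fin d ⊕ Fin d) → F) :
    nMap S u (nMap S u v) =
      Sum.elim (fun _ => 0) (Sum.elim (fun i => -2 * (u ⬝ᵥ yOf v) * u i) (fun _ => 0)) := by
  funext k
  rcases k with ⟨⟩ | i | i
  · rw [nMap_inl, yOf_nMap, dotProduct_zero]
    rfl
  · rw [nMap_X, yOf_nMap, dotProduct_zero, Matrix.mulVec_zero, nMap_inl]
    simp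
  · rfl

theorem nMap_cube_apply (v : Unit ⊕ (Fin d ⊕ Fin d) → F) :
    nMap S u (nMap S u (nMap S u v)) = 0 := by
  rw [nMap_sq, yOf_nMap, dotProduct_zero]
  funext k
  rcases k with ⟨⟩ | i | i <;> simp

theorem nMap_cube : nMap S u ^ 3 = 0 := by
  apply LinearMap.ext
  intro v
  rw [pow_succ, pow_two, Module.End.mul_apply, Module.End.mul_apply]
  exact nMap_cube_apply S u v

/-- `1 + N` preserves the quadratic form when `S` is skew-symmetric. -/
theorem nMap_isometry (h2 : (2 : F) ≠ 0) (hS : Sᵀ = -S) (v : Unit ⊕ (Fin d ⊕ Fin d) → F) :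
    Cfsg.quadFormOdd d F (v + nMap S u v) = Cfsg.quadFormOdd d F v := by
  have hskew : (S *ᵥ yOf v) ⬝ᵥ yOf v = 0 := by
    have h1 : (S *ᵥ yOf v) ⬝ᵥ yOf v = -((S *ᵥ yOf v) ⬝ᵥ yOf v) := by
      conv_lhs => rw [dotProduct_comm, Matrix.dotProduct_mulVec, ← Matrix.mulVec_transpose, hS,
        Matrix.neg_mulVec, neg_dotProduct]
    have h3 : (2 : F) * ((S *ᵥ yOf v) ⬝ᵥ yOf v) = 0 := by linear_combination h1
    rcases mul_eq_zero.mp h3 with h | h
    · exact absurd h h2
    · exact h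
  obtain ⟨l, hl⟩ : ∃ l : F, l = u ⬝ᵥ yOf v := ⟨_, rfl⟩
  unfold Cfsg.quadFormOdd
  have hsum : ∑ i : Fin d, (v + nMap S u v) (Sum.inr (Sum.inl i)) *
      (v + nMap S u v) (Sum.inr (Sum.inr i)) =
      ∑ i : Fin d, v (Sum.inr (Sum.inl i)) * v (Sum.inr (Sum.inr i)) +
        (-2 * v (Sum.inl ()) - l) * (u ⬝ᵥ yOf v) + (S *ᵥ yOf v) ⬝ᵥ yOf v := by
    simp only [dotProduct, Finset.mul_sum, ← Finset.sum_add_distrib]
    apply Finset.sum_congr rfl
    intro i _
    rw [Pi.add_apply, Pi.add_apply, nMap_X, nMap_Y, ← hl]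
    simp only [yOf]
    ring
  rw [hsum, hskew, Pi.add_apply, nMap_inl, ← hl]
  ring

end Constr

section Elt

variable {F : Type u} [Field F] {d : ℕ}

/-- The element `1 + N` of `Ω_{2d+1}(q)`. -/
theorem exists_unip (p : ℕ) [Fact p.Prime] [CharP F p] (hp2 : p ≠ 2) (h2 : (2 : F) ≠ 0)
    (S : Matrix (Fin d) (Fin d) F) (u : Fin d → F) (hS : Sᵀ = -S) (hN : nMap S u ≠ 0) :
    ∃ x : Matrix.GeneralLinearGroup (Unit ⊕ (Fin d ⊕ Fin d)) F,
      x ∈ Cfsg.Geo.omegaGL (Cfsg.quadFormOdd d F) ∧ orderOf x = p ∧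
      Matrix.toLin' (x : Matrix (Unit ⊕ (Fin d ⊕ Fin d)) (Unit ⊕ (Fin d ⊕ Fin d)) F) - 1 =
        nMap S u := by
  classical
  have hp3 : 3 ≤ p := by
    have := (Fact.out : p.Prime).two_le
    omega
  obtain ⟨N, hNdef⟩ : ∃ N : Module.End F (Unit ⊕ (Fin d ⊕ Fin d) → F), N = nMap S u := ⟨_, rfl⟩
  have hN3 : N ^ 3 = 0 := by rw [hNdef]; exact nMap_cube S u
  have hinv1 : (1 + N) * (1 - N + N ^ 2) = 1 := by
    have h0 : (1 + N) * (1 - N + N ^ 2) = 1 + N ^ 3 := by
      rw [pow_succ N 2, pow_two]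
      simp only [mul_add, add_mul, mul_sub, one_mul, mul_one, mul_assoc]
      abel
    rw [h0, hN3, add_zero]
  have hinv2 : (1 - N + N ^ 2) * (1 + N) = 1 := by
    have h0 : (1 - N + N ^ 2) * (1 + N) = 1 + N ^ 3 := by
      rw [pow_succ N 2, pow_two]
      simp only [mul_add, add_mul, sub_mul, one_mul, mul_one, mul_assoc]
      abel
    rw [h0, hN3, add_zero]
  obtain ⟨x, hx⟩ : ∃ x : Matrix.GeneralLinearGroup (Unit ⊕ (Fin d ⊕ Fin d)) F,
      (x : Matrix (Unit ⊕ (Fin d ⊕ Fin d)) (Unit ⊕ (Fin d ⊕ Fin d)) F) =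
        LinearMap.toMatrix' (1 + N) := by
    refine ⟨⟨LinearMap.toMatrix' (1 + N), LinearMap.toMatrix' (1 - N + N ^ 2), ?_, ?_⟩, rfl⟩
    · rw [← LinearMap.toMatrix'_mul, hinv1, LinearMap.toMatrix'_one]
    · rw [← LinearMap.toMatrix'_mul, hinv2, LinearMap.toMatrix'_one]
  have hlin : Matrix.toLin' (x : Matrix (Unit ⊕ (Fin d ⊕ Fin d)) (Unit ⊕ (Fin d ⊕ Fin d)) F) =
      1 + N := by
    rw [hx, Matrix.toLin'_toMatrix']
  -- `x ^ p = 1`
  have hxp : x ^ p = 1 := by
    apply Units.ext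
    rw [Units.val_pow_eq_pow_val, hx, Units.val_one]
    have h1 : LinearMap.toMatrix' (1 + N) =
        1 + LinearMap.toMatrix' N := by
      rw [map_add, LinearMap.toMatrix'_one]
    have h3 : (LinearMap.toMatrix' N) ^ 3 = 0 := by
      rw [pow_succ, pow_two, ← LinearMap.toMatrix'_mul, ← LinearMap.toMatrix'_mul, ← pow_two,
        ← pow_succ, hN3, map_zero]
    rw [h1, add_pow_char_of_commute p (Commute.one_left _), one_pow,
      pow_eq_zero_of_le hp3 h3, add_zero]
  have hx1 : x ≠ 1 := by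
    intro h
    apply hN
    rw [← hNdef]
    have h1 := hlin
    rw [h, Units.val_one, Matrix.toLin'_one] at h1
    have h5 : (1 : Module.End F (Unit ⊕ (Fin d ⊕ Fin d) → F)) + N = 1 := h1.symm
    exact add_eq_left.mp h5
  have hord : orderOf x = p := orderOf_eq_prime hxp hx1
  -- isometry
  have hiso : x ∈ Cfsg.isometryGroup F (⇑(Cfsg.Agent.H7.qOdd d F)) := by
    rw [Cfsg.Agent.H7.qOdd_coe, Cfsg.Agent.H49.mem_isometryGroup_iff]
    intro v
    have h1 : (x : Matrix (Unit ⊕ (Fin d ⊕ Fin d)) (Unit ⊕ (Fin d ⊕ Fin d)) F) *ᵥ v =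
        v + nMap S u v := by
      rw [← Matrix.toLin'_apply, hlin, hNdef]
      rfl
    rw [h1]
    exact nMap_isometry S u h2 hS v
  refine ⟨x, ?_, hord, ?_⟩
  · have hodd : Odd (orderOf (⟨x, hiso⟩ : ↥(Cfsg.isometryGroup F (⇑(Cfsg.Agent.H7.qOdd d F))))) := by
      rw [Subgroup.orderOf_mk, hord]
      exact (Fact.out : p.Prime).odd_of_ne_two hp2
    have hc := mem_commutator_of_odd (Cfsg.Agent.H7.qOdd d F) h2 (Cfsg.Agent.H7.qOdd_nondeg d h2)
      ⟨x, hiso⟩ hodd
    have hmem : x ∈ Cfsg.Geo.omegaGL (⇑(Cfsg.Agent.H7.qOdd d F)) :=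
      Subgroup.mem_map.mpr ⟨⟨x, hiso⟩, hc, rfl⟩
    rw [Cfsg.Agent.H7.qOdd_coe] at hmem
    exact hmem
  · rw [hlin, hNdef]
    abel

end Elt

section Concrete

variable {F : Type u} [Field F] {d : ℕ}

/-- The matrix with ones at the positions `(2 l, 2 l + 1)`. -/
def aMat (F : Type u) [Field F] (d : ℕ) : Matrix (Fin d) (Fin d) F :=
  Matrix.of fun i j => if Even i.val ∧ j.val = i.val + 1 then 1 else 0

theorem aMat_mulVec (Y : Fin d → F) (i : Fin d) :
    (aMat F d *ᵥ Y) i = if h : Even i.val ∧ i.val + 1 < d then Y ⟨i.val + 1, h.2⟩ else 0 := by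
  rw [Matrix.mulVec, dotProduct]
  split_ifs with h
  · rw [Finset.sum_eq_single ⟨i.val + 1, h.2⟩]
    · simp [aMat, h.1]
    · intro j _ hj
      have hne : j.val ≠ i.val + 1 := fun e => hj (Fin.ext e)
      simp [aMat, hne]
    · intro h'
      exact absurd (Finset.mem_univ _) h'
  · apply Finset.sum_eq_zero
    intro j _
    have hne : ¬ (Even i.val ∧ j.val = i.val + 1) := by
      rintro ⟨h1, h2⟩
      exact h ⟨h1, by have := j.isLt; omega⟩
    simp [aMat, hne]

theorem aMatT_mulVec (Y : Fin d → F) (i : Fin d) :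
    ((aMat F d)ᵀ *ᵥ Y) i =
      if Odd i.val then Y ⟨i.val - 1, by have := i.isLt; omega⟩ else 0 := by
  rw [Matrix.mulVec, dotProduct]
  split_ifs with h
  · have hi : 1 ≤ i.val := by rcases h with ⟨k, hk⟩; omega
    have he : Even (i.val - 1) := by rcases h with ⟨k, hk⟩; exact ⟨k, by omega⟩
    have e1 : i.val = i.val - 1 + 1 := by omega
    rw [Finset.sum_eq_single ⟨i.val - 1, by have := i.isLt; omega⟩]
    · have hc : Even (i.val - 1) ∧ i.val = i.val - 1 + 1 := ⟨he, e1⟩
      simp only [Matrix.transpose_apply, aMat, Matrix.of_apply]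
      rw [if_pos hc, one_mul]
    · intro j _ hj
      have hne : ¬ (Even j.val ∧ i.val = j.val + 1) := by
        rintro ⟨-, h2⟩
        exact hj (Fin.ext (by simp only []; omega))
      simp only [Matrix.transpose_apply, aMat, Matrix.of_apply]
      rw [if_neg hne, zero_mul]
    · intro h'
      exact absurd (Finset.mem_univ _) h'
  · apply Finset.sum_eq_zero
    intro j _
    have hne : ¬ (Even j.val ∧ i.val = j.val + 1) := by
      rintro ⟨h1, h2⟩
      apply h
      rw [h2]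
      exact h1.add_one
    simp only [Matrix.transpose_apply, aMat, Matrix.of_apply]
    rw [if_neg hne, zero_mul]

/-- The skew-symmetric matrix pairing the coordinates `2 l` and `2 l + 1`. -/
def sMat (F : Type u) [Field F] (d : ℕ) : Matrix (Fin d) (Fin d) F := aMat F d - (aMat F d)ᵀ

theorem sMat_skew : (sMat F d)ᵀ = -sMat F d := by
  unfold sMat
  rw [Matrix.transpose_sub, Matrix.transpose_transpose, neg_sub]

theorem sMat_even (Y : Fin d → F) (i j : Fin d) (hi : Even i.val) (hj : j.val = i.val + 1) :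
    (sMat F d *ᵥ Y) i = Y j := by
  unfold sMat
  rw [Matrix.sub_mulVec, Pi.sub_apply, aMat_mulVec, aMatT_mulVec,
    dif_pos ⟨hi, by have := j.isLt; omega⟩, if_neg (Nat.not_odd_iff_even.mpr hi), sub_zero]
  congr 1
  exact Fin.ext hj.symm

theorem sMat_last (Y : Fin d → F) (i : Fin d) (hi : Even i.val) (hd : i.val + 1 = d) :
    (sMat F d *ᵥ Y) i = 0 := by
  unfold sMat
  rw [Matrix.sub_mulVec, Pi.sub_apply, aMat_mulVec, aMatT_mulVec,
    dif_neg (fun h => by omega), if_neg (Nat.not_odd_iff_even.mpr hi), sub_zero]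

theorem sMat_odd (Y : Fin d → F) (i j : Fin d) (hi : Odd i.val) (hj : j.val + 1 = i.val) :
    (sMat F d *ᵥ Y) i = -Y j := by
  unfold sMat
  rw [Matrix.sub_mulVec, Pi.sub_apply, aMat_mulVec, aMatT_mulVec,
    dif_neg (fun h => (Nat.not_even_iff_odd.mpr hi) h.1), if_pos hi, zero_sub]
  congr 2
  exact Fin.ext (by simp only []; omega)

/-- The kernel of `sMat`. -/
theorem sMat_ker (Y : Fin d → F) (hY : sMat F d *ᵥ Y = 0) (j : Fin d)
    (hj : ¬ (Even j.val ∧ j.val + 1 = d)) : Y j = 0 := by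
  rcases Nat.even_or_odd j.val with he | ho
  · have hlt : j.val + 1 < d := by
      have := j.isLt
      by_contra hcon
      exact hj ⟨he, by omega⟩
    have h1 := congrFun hY ⟨j.val + 1, hlt⟩
    rw [sMat_odd Y ⟨j.val + 1, hlt⟩ j he.add_one rfl] at h1
    exact neg_eq_zero.mp h1
  · have hj1 : 1 ≤ j.val := by rcases ho with ⟨k, hk⟩; omega
    have he : Even (j.val - 1) := by rcases ho with ⟨k, hk⟩; exact ⟨k, by omega⟩
    have h1 := congrFun hY ⟨j.val - 1, by have := j.isLt; omega⟩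
    rw [sMat_even Y ⟨j.val - 1, by have := j.isLt; omega⟩ j he (by simp only []; omega)] at h1
    exact h1

end Concrete


section Main

variable {F : Type u} [Field F] {d : ℕ}

/-- The kernel of a coordinate projection. -/
theorem finrank_ker_funLeft {κ : Type} [Fintype κ] (f : κ → Unit ⊕ (Fin d ⊕ Fin d))
    (hf : Function.Injective f) :
    Module.finrank F ↥(LinearMap.ker (LinearMap.funLeft F F f)) + Fintype.card κ = 2 * d + 1 := by
  have h1 := LinearMap.finrank_range_add_finrank_ker (LinearMap.funLeft F F f)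
  have hsurj : Function.Surjective (LinearMap.funLeft F F f) :=
    LinearMap.funLeft_surjective_of_injective F F f hf
  rw [LinearMap.range_eq_top.mpr hsurj, finrank_top, Module.finrank_fintype_fun_eq_card,
    Module.finrank_fintype_fun_eq_card] at h1
  simp only [Fintype.card_sum, Fintype.card_unit, Fintype.card_fin] at h1
  omega

theorem finrank_std (F : Type u) [Field F] (d : ℕ) :
    Module.finrank F (Unit ⊕ (Fin d ⊕ Fin d) → F) = 2 * d + 1 := by
  rw [Module.finrank_fintype_fun_eq_card]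
  simp only [Fintype.card_sum, Fintype.card_unit, Fintype.card_fin]
  omega

/-- **S5992-UNIPEX.** -/
theorem unipEx : StUnipEx.{u} := by
  intro F _ _ p _ _ d hp2 hd
  classical
  have h2 : (2 : F) ≠ 0 := by
    intro h
    have h' : ((2 : ℕ) : F) = 0 := by exact_mod_cast h
    rw [CharP.cast_eq_zero_iff F p] at h'
    exact hp2 ((Nat.prime_dvd_prime_iff_eq (Fact.out : p.Prime) Nat.prime_two).mp h')
  have hfin := finrank_std F d
  rcases Nat.even_or_odd d with hev | hodd
  · -- `d` even: `u = 0`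
    have hker1 : LinearMap.ker (nMap (sMat F d) 0) ≤ LinearMap.ker (LinearMap.funLeft F F
        (fun i : Fin d => (Sum.inr (Sum.inr i) : Unit ⊕ (Fin d ⊕ Fin d)))) := by
      intro v hv
      rw [LinearMap.mem_ker] at hv ⊢
      have hY : sMat F d *ᵥ yOf v = 0 := by
        funext i
        have h1 := congrFun hv (Sum.inr (Sum.inl i))
        rw [nMap_X] at h1
        simpa using h1
      funext j
      exact sMat_ker (yOf v) hY j (by
        rintro ⟨h1, h3⟩
        rw [← h3] at hev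
        exact (Nat.not_even_iff_odd.mpr h1.add_one) hev)
    have hk1 : Module.finrank F ↥(LinearMap.ker (nMap (sMat F d) 0)) ≤ d + 1 := by
      have h1 := Submodule.finrank_mono hker1
      have h3 := finrank_ker_funLeft (F := F)
        (fun i : Fin d => (Sum.inr (Sum.inr i) : Unit ⊕ (Fin d ⊕ Fin d)))
        (fun a b hab => Sum.inr_injective (Sum.inr_injective hab))
      rw [Fintype.card_fin] at h3
      omega
    have hk2 : LinearMap.ker ((nMap (sMat F d) (0 : Fin d → F)) ^ 2) = ⊤ := by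
      rw [eq_top_iff]
      intro v _
      rw [LinearMap.mem_ker, pow_two, Module.End.mul_apply, nMap_sq]
      funext k
      rcases k with ⟨⟩ | i | i <;> simp
    have hN : nMap (sMat F d) (0 : Fin d → F) ≠ 0 := by
      intro h0
      rw [h0, LinearMap.ker_zero, finrank_top, hfin] at hk1
      omega
    obtain ⟨x, hxΩ, hxord, hxN⟩ := exists_unip p hp2 h2 (sMat F d) 0 sMat_skew hN
    refine ⟨x, hxΩ, hxord, ?_, ?_⟩
    · rw [hxN]
      exact nMap_cube _ _
    · rw [hxN, hk2, finrank_top, hfin]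
      omega
  · -- `d` odd: `u = e_{d-1}`
    have hdpos : d - 1 < d := by omega
    obtain ⟨u, hu⟩ : ∃ u : Fin d → F, u = Pi.single (⟨d - 1, hdpos⟩ : Fin d) 1 := ⟨_, rfl⟩
    have hudot : ∀ Y : Fin d → F, u ⬝ᵥ Y = Y ⟨d - 1, hdpos⟩ := by
      intro Y
      rw [hu, single_one_dotProduct]
    have hud : u ⟨d - 1, hdpos⟩ = 1 := by
      rw [hu, Pi.single_eq_same]
    have hevd : Even (d - 1) := by
      rcases hodd with ⟨k, hk⟩
      exact ⟨k, by omega⟩
    have hker1 : LinearMap.ker (nMap (sMat F d) u) ≤ LinearMap.ker (LinearMap.funLeft F F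
        (Sum.elim (fun _ : Unit => (Sum.inl () : Unit ⊕ (Fin d ⊕ Fin d)))
          (fun i : Fin d => (Sum.inr (Sum.inr i) : Unit ⊕ (Fin d ⊕ Fin d))))) := by
      intro v hv
      rw [LinearMap.mem_ker] at hv ⊢
      have hY0 : yOf v ⟨d - 1, hdpos⟩ = 0 := by
        have h1 := congrFun hv (Sum.inl ())
        rw [nMap_inl, hudot] at h1
        exact h1
      have hx0 : v (Sum.inl ()) = 0 := by
        have h1 := congrFun hv (Sum.inr (Sum.inl ⟨d - 1, hdpos⟩))
        rw [nMap_X, hudot, hY0, hud, sMat_last (yOf v) ⟨d - 1, hdpos⟩ hevd (by simp only []; omega)]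
          at h1
        have h3 : (2 : F) * v (Sum.inl ()) = 0 := by
          have h4 : -2 * v (Sum.inl ()) * 1 - 0 * 1 + 0 = (0 : F) := h1
          linear_combination -h4
        rcases mul_eq_zero.mp h3 with h | h
        · exact absurd h h2
        · exact h
      have hY : sMat F d *ᵥ yOf v = 0 := by
        funext i
        have h1 := congrFun hv (Sum.inr (Sum.inl i))
        rw [nMap_X, hudot, hY0, hx0] at h1
        simpa using h1
      funext k
      rcases k with ⟨⟩ | j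
      · exact hx0
      · by_cases hj : Even j.val ∧ j.val + 1 = d
        · have hje : j = ⟨d - 1, hdpos⟩ := Fin.ext (by simp only []; omega)
          rw [hje]
          exact hY0
        · exact sMat_ker (yOf v) hY j hj
    have hk1 : Module.finrank F ↥(LinearMap.ker (nMap (sMat F d) u)) ≤ d := by
      have h1 := Submodule.finrank_mono hker1
      have h3 := finrank_ker_funLeft (F := F)
        (Sum.elim (fun _ : Unit => (Sum.inl () : Unit ⊕ (Fin d ⊕ Fin d)))
          (fun i : Fin d => (Sum.inr (Sum.inr i) : Unit ⊕ (Fin d ⊕ Fin d))))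
        (by
          rintro (a | a) (b | b) hab
          · rfl
          · exact absurd hab (by simp)
          · exact absurd hab (by simp)
          · exact congrArg Sum.inr (Sum.inr_injective (Sum.inr_injective hab)))
      rw [Fintype.card_sum, Fintype.card_unit, Fintype.card_fin] at h3
      omega
    have hk2 : 2 * d ≤ Module.finrank F ↥(LinearMap.ker ((nMap (sMat F d) u) ^ 2)) := by
      obtain ⟨φ, hφ⟩ : ∃ φ : (Unit ⊕ (Fin d ⊕ Fin d) → F) →ₗ[F] F,
          φ = (LinearMap.proj (Sum.inl ())) ∘ₗ nMap (sMat F d) u := ⟨_, rfl⟩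
      have hle : LinearMap.ker φ ≤ LinearMap.ker ((nMap (sMat F d) u) ^ 2) := by
        intro v hv
        rw [LinearMap.mem_ker] at hv ⊢
        have h1 : u ⬝ᵥ yOf v = 0 := by
          rw [hφ] at hv
          exact hv
        rw [pow_two, Module.End.mul_apply, nMap_sq, h1]
        funext k
        rcases k with ⟨⟩ | i | i <;> simp
      have h1 := Submodule.finrank_mono hle
      have h3 := LinearMap.finrank_range_add_finrank_ker φ
      have h4 : Module.finrank F ↥(LinearMap.range φ) ≤ 1 := by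
        have := Submodule.finrank_le (LinearMap.range φ)
        rwa [Module.finrank_self] at this
      rw [hfin] at h3
      omega
    have hN : nMap (sMat F d) u ≠ 0 := by
      intro h0
      rw [h0, LinearMap.ker_zero, finrank_top, hfin] at hk1
      omega
    obtain ⟨x, hxΩ, hxord, hxN⟩ := exists_unip p hp2 h2 (sMat F d) u sMat_skew hN
    refine ⟨x, hxΩ, hxord, ?_, ?_⟩
    · rw [hxN]
      exact nMap_cube _ _
    · rw [hxN]
      omega

end Main

section check

example : StUnipEx.{u} := unipEx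

end check

end Cfsg.Agent.H4.Oh
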