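import Mathlib
import Cfsg.Agent.H99.ElKUM
import Cfsg.Agent.H99.Decomp

/-!
# S5958-KUM: decompositions stabilised by a Kummer-type operator (helper4, for helper99)

If `T ^ r = z` with `z` not an `r`-th power then `V` has a basis `T ^ i w_k` (`i < r`), on which
`T` acts monomially; grouping the basis vectors gives a decomposition into `t` subspaces of
dimension `a` permuted by `T`, whenever `finrank V = a * t`.
-/

set_option autoImplicit false

namespace Cfsg.Agent.H4.Dec

open Module

/-- The monomial basis of a Kummer-type operator. -/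
theorem exists_kummer_basis {F : Type*} [Field F] {V : Type*} [AddCommGroup V] [Module F V]
    [FiniteDimensional F V] (T : Module.End F V) (r : ℕ) (hr : r.Prime) (z : F)
    (hz : ∀ y : F, y ^ r ≠ z) (hT : T ^ r = z • 1)
    (κ : Type) [Fintype κ] (hκ : r * Fintype.card κ = Module.finrank F V) :
    ∃ (ρ : Equiv.Perm (Fin r)) (c : Fin r → F) (b : Fin r × κ → V), (∀ i, c i ≠ 0) ∧
      LinearIndependent F b ∧ Submodule.span F (Set.range b) = ⊤ ∧
      ∀ i k, T (b (i, k)) = c i • b (ρ i, k) := by
  classical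
  obtain ⟨r', rfl⟩ : ∃ r', r = r' + 1 := ⟨r - 1, by have := hr.pos; omega⟩
  have hz0 : z ≠ 0 := by
    intro h0
    exact hz 0 (by rw [h0, zero_pow (Nat.succ_ne_zero r')])
  obtain ⟨B, hBmono, hB⟩ := Cfsg.Agent.H99.Kum.kummer_exists_chain T (r' + 1) hr z hz hT
  have hdiv := fun W hW => Cfsg.Agent.H99.Kum.kummer_dvd_finrank T (r' + 1) hr z hz hT W hW
  have hpow : ∀ (W : Submodule F V), (∀ v ∈ W, T v ∈ W) →
      ∀ (i : ℕ) (v : V), v ∈ W → (T ^ i) v ∈ W := by
    intro W hW i
    induction i with
    | zero => intro v hv; simpa using hv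
    | succ i ih => intro v hv; rw [pow_succ', Module.End.mul_apply]; exact hW _ (ih v hv)
  have hTr : ∀ v : V, (T ^ (r' + 1)) v = z • v := by
    intro v
    rw [hT]
    simp
  have hle_n : ∀ s, s ≤ Fintype.card κ → (r' + 1) * s ≤ Module.finrank F V := by
    intro s hs
    rw [← hκ]
    exact Nat.mul_le_mul_left _ hs
  have hw : ∀ s : ℕ, s < Fintype.card κ → ∃ w : V, w ∈ B (s + 1) ∧ w ∉ B s := by
    intro s hs
    by_contra hcon
    have hle : B (s + 1) ≤ B s := fun v hv => by_contra fun h => hcon ⟨v, hv, h⟩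
    have h1 := Submodule.finrank_mono hle
    rw [(hB (s + 1) (hle_n _ hs)).2, (hB s (hle_n _ hs.le)).2] at h1
    have h2 : s + 1 ≤ s := le_of_mul_le_mul_left h1 (Nat.succ_pos r')
    omega
  choose! w hw1 hw2 using hw
  let C : ℕ → Submodule F V := fun s =>
    Submodule.span F (Set.range fun i : Fin (r' + 1) => (T ^ (i : ℕ)) (w s))
  have hwC : ∀ s, w s ∈ C s := fun s => Submodule.subset_span ⟨0, by simp⟩
  have hCinv : ∀ s, ∀ v ∈ C s, T v ∈ C s := by
    intro s v hv
    refine Submodule.span_induction (p := fun v _ => T v ∈ C s) ?_ ?_ ?_ ?_ hv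
    · rintro _ ⟨i, rfl⟩
      show T ((T ^ (i : ℕ)) (w s)) ∈ C s
      rw [← Module.End.mul_apply, ← pow_succ']
      by_cases hi : (i : ℕ) + 1 < r' + 1
      · exact Submodule.subset_span ⟨⟨(i : ℕ) + 1, hi⟩, rfl⟩
      · have hi' : (i : ℕ) + 1 = r' + 1 := by have := i.2; omega
        rw [hi', hTr]
        exact Submodule.smul_mem _ _ (hwC s)
    · rw [map_zero]; exact Submodule.zero_mem _
    · intro x y _ _ hx hy
      rw [map_add]; exact Submodule.add_mem _ hx hy
    · intro a x _ hx
      rw [map_smul]; exact Submodule.smul_mem _ _ hx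
  have hsupinv : ∀ A A' : Submodule F V, (∀ v ∈ A, T v ∈ A) → (∀ v ∈ A', T v ∈ A') →
      ∀ v ∈ A ⊔ A', T v ∈ A ⊔ A' := by
    intro A A' hA hA' v hv
    obtain ⟨x, hx, y, hy, rfl⟩ := Submodule.mem_sup.1 hv
    rw [map_add]
    exact Submodule.add_mem_sup (hA x hx) (hA' y hy)
  have hstep : ∀ s, s < Fintype.card κ → B (s + 1) = B s ⊔ C s := by
    intro s hs
    have hs1 := hB (s + 1) (hle_n _ hs)
    have hs0 := hB s (hle_n _ hs.le)
    have hCle : C s ≤ B (s + 1) := by
      rw [Submodule.span_le]
      rintro _ ⟨i, rfl⟩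
      exact hpow _ hs1.1 _ _ (hw1 s hs)
    have hle : B s ⊔ C s ≤ B (s + 1) :=
      sup_le (hBmono s (s + 1) (Nat.le_succ s) (hle_n _ hs)) hCle
    have hlt : B s < B s ⊔ C s := by
      refine lt_of_le_of_ne le_sup_left ?_
      intro heq
      apply hw2 s hs
      rw [heq]
      exact Submodule.mem_sup_right (hwC s)
    have hf1 := Submodule.finrank_lt_finrank_of_lt hlt
    have hf2 := Submodule.finrank_mono hle
    obtain ⟨m, hm⟩ := hdiv (B s ⊔ C s) (hsupinv _ _ hs0.1 (hCinv s))
    rw [hs0.2, hm] at hf1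
    rw [hs1.2, hm] at hf2
    have hm' : m = s + 1 := by
      have h1 : s < m := lt_of_mul_lt_mul_left hf1 (Nat.zero_le _)
      have h2 : m ≤ s + 1 := le_of_mul_le_mul_left hf2 (Nat.succ_pos r')
      omega
    exact (Submodule.eq_of_le_of_finrank_eq hle (by rw [hm, hm', hs1.2])).symm
  have hBle : ∀ s, s ≤ Fintype.card κ → B s ≤ ⨆ s' ∈ Finset.range s, C s' := by
    intro s
    induction s with
    | zero =>
      intro _
      have h0 := (hB 0 (by simp)).2
      rw [mul_zero] at h0
      rw [Submodule.finrank_eq_zero.1 h0]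
      exact bot_le
    | succ s ih =>
      intro hs
      rw [hstep s hs]
      refine sup_le ((ih (by omega)).trans ?_) ?_
      · refine iSup₂_le fun s' hs' => ?_
        exact le_biSup C (Finset.mem_range.2 (by have := Finset.mem_range.1 hs'; omega))
      · exact le_biSup C (Finset.self_mem_range_succ s)
  have hBtop : B (Fintype.card κ) = ⊤ := by
    apply Submodule.eq_top_of_finrank_eq
    rw [(hB _ (hle_n _ le_rfl)).2, hκ]
  let e : κ ≃ Fin (Fintype.card κ) := Fintype.equivFin κ
  let b : Fin (r' + 1) × κ → V := fun p => (T ^ (p.1 : ℕ)) (w (e p.2))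
  have hspan : Submodule.span F (Set.range b) = ⊤ := by
    rw [eq_top_iff, ← hBtop]
    refine (hBle _ le_rfl).trans (iSup₂_le ?_)
    intro s' hs'
    rw [Submodule.span_le]
    rintro _ ⟨i, rfl⟩
    exact Submodule.subset_span ⟨(i, e.symm ⟨s', Finset.mem_range.1 hs'⟩), by simp [b]⟩
  have hli : LinearIndependent F b := by
    apply linearIndependent_of_top_le_span_of_card_eq_finrank (le_of_eq hspan.symm)
    rw [Fintype.card_prod, Fintype.card_fin, hκ]
  refine ⟨finRotate (r' + 1), fun i => if i = Fin.last r' then z else 1, b, ?_, hli, hspan, ?_⟩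
  · intro i
    show (if i = Fin.last r' then z else 1) ≠ 0
    by_cases hi : i = Fin.last r'
    · rw [if_pos hi]; exact hz0
    · rw [if_neg hi]; exact one_ne_zero
  · intro i k
    show T ((T ^ (i : ℕ)) (w (e k))) =
      (if i = Fin.last r' then z else 1) •
        (T ^ ((finRotate (r' + 1) i : Fin (r' + 1)) : ℕ)) (w (e k))
    rw [← Module.End.mul_apply, ← pow_succ']
    by_cases hi : i = Fin.last r'
    · rw [if_pos hi, hi, finRotate_last, Fin.val_last, hTr]
      simp
    · rw [if_neg hi, coe_finRotate_of_ne_last hi, one_smul]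

/-- Transport of a decomposition along an equivalence of index types. -/
theorem transport_decomposition {F : Type*} [Field F] {V : Type*} [AddCommGroup V]
    [Module F V] (T : Module.End F V) {J : Type*} (a t : ℕ) (e : Fin t ≃ J)
    (E : J → Submodule F V) (σJ : Equiv.Perm J)
    (h1 : ∀ j, Module.finrank F (E j) = a) (h2 : iSupIndep E) (h3 : (⨆ j, E j) = ⊤)
    (h4 : ∀ j, (E j).map T = E (σJ j)) :
    ∃ D : Fin t → Submodule F V, (∀ j, Module.finrank F (D j) = a) ∧ iSupIndep D ∧
      (⨆ j, D j) = ⊤ ∧ ∃ σ : Equiv.Perm (Fin t), ∀ j, (D j).map T = D (σ j) := by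
  refine ⟨fun j => E (e j), fun j => h1 _, h2.comp e.injective, ?_,
    (e.trans σJ).trans e.symm, fun j => ?_⟩
  · rw [← h3]
    exact e.surjective.iSup_comp E
  · simp [h4]

/-- **S5958-KUM.** -/
theorem exists_kummer_decomposition {F : Type*} [Field F] {V : Type*} [AddCommGroup V]
    [Module F V] [FiniteDimensional F V] (T : Module.End F V) (r : ℕ) (hr : r.Prime) (z : F)
    (hz : ∀ y : F, y ^ r ≠ z) (hT : T ^ r = z • 1) (a t : ℕ) (ha : 0 < a)
    (hV : Module.finrank F V = a * t) :
    ∃ D : Fin t → Submodule F V, (∀ j, Module.finrank F (D j) = a) ∧ iSupIndep D ∧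
      (⨆ j, D j) = ⊤ ∧ ∃ σ : Equiv.Perm (Fin t), ∀ j, (D j).map T = D (σ j) := by
  classical
  have hdvd : r ∣ a * t := by
    have h := Cfsg.Agent.H99.Kum.kummer_dvd_finrank T r hr z hz hT ⊤ (fun _ _ => Submodule.mem_top)
    rwa [finrank_top, hV] at h
  rcases (Nat.Prime.dvd_mul hr).1 hdvd with hra | hrt
  · -- `r ∣ a`: blocks `Fin r × ({j} × Fin a')`, all stable
    obtain ⟨a', rfl⟩ := hra
    obtain ⟨ρ, c, b, hc, hli, hspan, hTb⟩ := exists_kummer_basis T r hr z hz hT (Fin t × Fin a')
      (by rw [Fintype.card_prod, Fintype.card_fin, Fintype.card_fin, hV]; ring)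
    obtain ⟨k1, k2, k3, k4⟩ := Cfsg.Agent.H99.decomposition_of_blocks b hli hspan T
      (fun p => (ρ p.1, p.2)) (fun p => c p.1) (fun p => hc p.1) (fun p => hTb p.1 p.2)
      (fun j : Fin t => (Finset.univ : Finset (Fin r)) ×ˢ
        (({j} : Finset (Fin t)) ×ˢ (Finset.univ : Finset (Fin a'))))
      id (r * a')
      (by
        intro j
        simp [Finset.card_product])
      (by
        intro j j' hjj'
        rw [Finset.disjoint_left]
        intro p hp hp'
        simp only [Finset.mem_product, Finset.mem_univ, Finset.mem_singleton, true_and,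
          and_true] at hp hp'
        exact hjj' (hp.symm.trans hp'))
      (by
        intro p
        exact ⟨p.2.1, by simp⟩)
      (by
        intro j
        ext p
        simp only [Finset.mem_image, Finset.mem_product, Finset.mem_univ, Finset.mem_singleton,
          true_and, and_true, id]
        constructor
        · rintro ⟨q, hq, rfl⟩
          exact hq
        · intro hp
          exact ⟨(ρ.symm p.1, p.2), hp, by simp⟩)
    exact transport_decomposition T (r * a') t (Equiv.refl _) _ (Equiv.refl _) k1 k2 k3 k4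
  · -- `r ∣ t`: blocks `{i} × ({j'} × Fin a)`, permuted cyclically
    obtain ⟨t', rfl⟩ := hrt
    obtain ⟨ρ, c, b, hc, hli, hspan, hTb⟩ := exists_kummer_basis T r hr z hz hT (Fin t' × Fin a)
      (by rw [Fintype.card_prod, Fintype.card_fin, Fintype.card_fin, hV]; ring)
    obtain ⟨k1, k2, k3, k4⟩ := Cfsg.Agent.H99.decomposition_of_blocks b hli hspan T
      (fun p => (ρ p.1, p.2)) (fun p => c p.1) (fun p => hc p.1) (fun p => hTb p.1 p.2)
      (fun j : Fin r × Fin t' => (({j.1} : Finset (Fin r))) ×ˢ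
        (({j.2} : Finset (Fin t')) ×ˢ (Finset.univ : Finset (Fin a))))
      (fun j => (ρ j.1, j.2)) a
      (by
        intro j
        simp)
      (by
        intro j j' hjj'
        rw [Finset.disjoint_left]
        intro p hp hp'
        simp only [Finset.mem_product, Finset.mem_univ, Finset.mem_singleton, and_true] at hp hp'
        exact hjj' (Prod.ext (hp.1.symm.trans hp'.1) (hp.2.symm.trans hp'.2)))
      (by
        intro p
        exact ⟨(p.1, p.2.1), by simp⟩)
      (by
        intro j
        ext p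
        simp only [Finset.mem_image, Finset.mem_product, Finset.mem_univ, Finset.mem_singleton,
          and_true]
        constructor
        · rintro ⟨q, hq, rfl⟩
          exact ⟨by rw [hq.1], hq.2⟩
        · intro hp
          exact ⟨(j.1, p.2), ⟨rfl, hp.2⟩, Prod.ext hp.1.symm rfl⟩)
    exact transport_decomposition T a (r * t') finProdFinEquiv.symm _
      (ρ.prodCongr (Equiv.refl _)) k1 k2 k3 (fun j => by rw [k4 j]; rfl)

end Cfsg.Agent.H4.Dec

section check
example {F : Type*} [Field F] {V : Type*} [AddCommGroup V]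
    [Module F V] [FiniteDimensional F V] (T : Module.End F V) (r : ℕ) (hr : r.Prime) (z : F)
    (hz : ∀ y : F, y ^ r ≠ z) (hT : T ^ r = z • 1) (a t : ℕ) (ha : 0 < a)
    (hV : Module.finrank F V = a * t) :
    ∃ D : Fin t → Submodule F V, (∀ j, Module.finrank F (D j) = a) ∧ iSupIndep D ∧
      (⨆ j, D j) = ⊤ ∧ ∃ σ : Equiv.Perm (Fin t), ∀ j, (D j).map T = D (σ j) :=
  Cfsg.Agent.H4.Dec.exists_kummer_decomposition T r hr z hz hT a t ha hV
end check
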