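import Mathlib

set_option autoImplicit false
set_option linter.unusedSectionVars false
set_option linter.style.haveILetI false

open scoped commutatorElement

namespace Cfsg.Agent.H4

section Alperin

variable {G : Type*} [Group G]

theorem pow_mul_of_class_two (u v c : G) (hc : v * u = u * v * c) (hcv : Commute c v) (m : ℕ) :
    v ^ m * u = u * v ^ m * c ^ m := by
  induction m with
  | zero => simp
  | succ m ih =>
    have h1 : c * v ^ m = v ^ m * c := (hcv.pow_right m).eq
    calc v ^ (m + 1) * u = v * (v ^ m * u) := by rw [pow_succ', mul_assoc]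
      _ = v * (u * v ^ m * c ^ m) := by rw [ih]
      _ = (v * u) * v ^ m * c ^ m := by simp only [mul_assoc]
      _ = u * v * c * v ^ m * c ^ m := by rw [hc]
      _ = u * v * (c * v ^ m) * c ^ m := by simp only [mul_assoc]
      _ = u * v * (v ^ m * c) * c ^ m := by rw [h1]
      _ = u * (v * v ^ m) * (c * c ^ m) := by simp only [mul_assoc]
      _ = u * v ^ (m + 1) * c ^ (m + 1) := by rw [← pow_succ', ← pow_succ']

theorem mul_pow_of_class_two (u v c : G) (hc : v * u = u * v * c) (hcu : Commute c u)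
    (hcv : Commute c v) (m : ℕ) :
    (u * v) ^ m = u ^ m * v ^ m * c ^ (m.choose 2) := by
  induction m with
  | zero => simp
  | succ m ih =>
    have h1 := pow_mul_of_class_two u v c hc hcv m
    have hchoose : (m + 1).choose 2 = m + m.choose 2 := by
      rw [Nat.choose_succ_succ', Nat.choose_one_right]
    have h2 : c ^ (m.choose 2) * (u * v) = (u * v) * c ^ (m.choose 2) :=
      ((hcu.mul_right hcv).pow_left _).eq
    have h3 : c ^ m * v = v * c ^ m := (hcv.pow_left m).eq
    calc (u * v) ^ (m + 1) = (u * v) ^ m * (u * v) := pow_succ _ _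
      _ = u ^ m * v ^ m * c ^ (m.choose 2) * (u * v) := by rw [ih]
      _ = u ^ m * v ^ m * (c ^ (m.choose 2) * (u * v)) := by simp only [mul_assoc]
      _ = u ^ m * v ^ m * ((u * v) * c ^ (m.choose 2)) := by rw [h2]
      _ = u ^ m * (v ^ m * u) * v * c ^ (m.choose 2) := by simp only [mul_assoc]
      _ = u ^ m * (u * v ^ m * c ^ m) * v * c ^ (m.choose 2) := by rw [h1]
      _ = u ^ m * u * v ^ m * (c ^ m * v) * c ^ (m.choose 2) := by simp only [mul_assoc]
      _ = u ^ m * u * v ^ m * (v * c ^ m) * c ^ (m.choose 2) := by rw [h3]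
      _ = (u ^ m * u) * (v ^ m * v) * (c ^ m * c ^ (m.choose 2)) := by simp only [mul_assoc]
      _ = u ^ (m + 1) * v ^ (m + 1) * c ^ ((m + 1).choose 2) := by
          rw [← pow_succ, ← pow_succ, ← pow_add, hchoose]

theorem prime_dvd_choose_two {p n : ℕ} (hp : p.Prime) (hn0 : 0 < n) (hn : p ^ n ≠ 2) :
    p ∣ (p ^ n).choose 2 := by
  have h2 : 2 * (p ^ n).choose 2 = p ^ n * (p ^ n - 1) := by
    rw [Nat.choose_two_right]
    exact Nat.mul_div_cancel' (Nat.even_mul_pred_self _).two_dvd
  rcases hp.eq_two_or_odd' with rfl | hodd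
  · have hn2 : 2 ≤ n := by
      by_contra h
      have : n = 1 := by omega
      subst this
      simp at hn
    obtain ⟨k, rfl⟩ : ∃ k, n = k + 2 := ⟨n - 2, by omega⟩
    have h3 : (2 ^ (k + 2)).choose 2 = 2 * (2 ^ k * (2 ^ (k + 2) - 1)) := by
      have h4 : 2 * (2 ^ (k + 2)).choose 2 = 2 * (2 * (2 ^ k * (2 ^ (k + 2) - 1))) := by
        rw [h2]
        have : 2 ^ (k + 2) = 2 * (2 * 2 ^ k) := by ring
        rw [this]
        simp only [mul_assoc]
      exact Nat.eq_of_mul_eq_mul_left (by norm_num) h4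
    rw [h3]
    exact dvd_mul_right _ _
  · have h3 : p ∣ 2 * (p ^ n).choose 2 := by
      rw [h2]
      exact Dvd.dvd.mul_right (dvd_pow_self p hn0.ne') _
    have hcop : Nat.Coprime p 2 := by
      rw [Nat.coprime_primes hp Nat.prime_two]
      rintro rfl
      exact absurd hodd (by decide)
    exact hcop.dvd_of_dvd_mul_left h3

/-- Alperin's lemma: a maximal normal abelian subgroup of exponent dividing `p ^ n` of a
`p`-group (`p ^ n ≠ 2`) contains every element of order dividing `p ^ n` of its centralizer. -/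
theorem alperin_omega [Finite G] {p : ℕ} [Fact p.Prime] (hG : IsPGroup p G) (n : ℕ)
    (hn : p ^ n ≠ 2) (A : Subgroup G) [A.Normal] (hA : IsMulCommutative A)
    (hAe : ∀ a ∈ A, a ^ p ^ n = 1)
    (hmax : ∀ B : Subgroup G, B.Normal → IsMulCommutative B → (∀ b ∈ B, b ^ p ^ n = 1) →
      A ≤ B → B = A)
    (x : G) (hx : x ∈ Subgroup.centralizer (A : Set G)) (hxn : x ^ p ^ n = 1) : x ∈ A := by
  classical
  have hp : p.Prime := Fact.out
  by_contra hxA
  rcases Nat.eq_zero_or_pos n with hn0 | hn0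
  · subst hn0
    rw [pow_zero, pow_one] at hxn
    exact hxA (hxn ▸ A.one_mem)
  have hdvd : p ∣ (p ^ n).choose 2 := prime_dvd_choose_two hp hn0 hn
  set π : G →* G ⧸ A := QuotientGroup.mk' A with hπ
  have hker : ∀ g, π g = 1 ↔ g ∈ A := fun g => QuotientGroup.eq_one_iff g
  have hAcomm : ∀ a ∈ A, ∀ b ∈ A, a * b = b * a := by
    intro a ha b hb
    have := (isMulCommutative_iff.mp hA) ⟨a, ha⟩ ⟨b, hb⟩
    exact congrArg Subtype.val this
  set C : Subgroup G := Subgroup.centralizer (A : Set G) with hCdef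
  have hCc : ∀ c ∈ C, ∀ a ∈ A, a * c = c * a := fun c hc a ha =>
    Subgroup.mem_centralizer_iff.mp hc a ha
  haveI hCn : C.Normal := Subgroup.normal_centralizer
  set N : G → Subgroup G := fun k => (Subgroup.centralizer {π k}).comap π with hNdef
  have hN : ∀ k h, h ∈ N k ↔ Commute (π h) (π k) := by
    intro k h
    simp only [hNdef, Subgroup.mem_comap, Subgroup.mem_centralizer_iff, Set.mem_singleton_iff,
      forall_eq]
    exact ⟨fun e => e.symm, fun e => e.symm⟩
  -- the set of candidates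
  set X : Set G := {k | k ∈ C ∧ k ^ p ^ n = 1 ∧ k ^ p ∈ A ∧ k ∉ A} with hX
  have hXne : X.Nonempty := by
    have hex : ∃ i, x ^ p ^ i ∈ A := ⟨n, by rw [hxn]; exact A.one_mem⟩
    have hi : x ^ p ^ (Nat.find hex) ∈ A := Nat.find_spec hex
    have hi0 : Nat.find hex ≠ 0 := by
      intro h
      rw [h, pow_zero, pow_one] at hi
      exact hxA hi
    obtain ⟨j, hj⟩ := Nat.exists_eq_succ_of_ne_zero hi0
    refine ⟨x ^ p ^ j, C.pow_mem hx _, ?_, ?_, ?_⟩
    · rw [← pow_mul, mul_comm, pow_mul, hxn, one_pow]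
    · rw [← pow_mul, ← pow_succ, ← Nat.succ_eq_add_one, ← hj]
      exact hi
    · exact Nat.find_min hex (by omega)
  obtain ⟨x0, hx0X, hx0max⟩ :=
    Set.exists_max_image X (fun k => Nat.card (N k)) (Set.toFinite X) hXne
  obtain ⟨hx0C, hx0n, hx0p, hx0A⟩ := hx0X
  by_cases htop : N x0 = ⊤
  · -- `A⟨x0⟩` is a larger normal abelian subgroup of exponent dividing `p ^ n`
    have hcomm : ∀ g : G, Commute (π g) (π x0) := fun g =>
      (hN x0 g).mp (htop ▸ Subgroup.mem_top g)
    set B : Subgroup G := (Subgroup.zpowers (π x0)).comap π with hB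
    have hBmem : ∀ b ∈ B, ∃ i : ℤ, ∃ a ∈ A, b = x0 ^ i * a := by
      intro b hb
      obtain ⟨i, hi⟩ := Subgroup.mem_zpowers_iff.mp (Subgroup.mem_comap.mp hb)
      refine ⟨i, (x0 ^ i)⁻¹ * b, ?_, by group⟩
      rw [← hker, map_mul, map_inv, map_zpow, hi, inv_mul_cancel]
    have hx0a : ∀ (i : ℤ), ∀ a ∈ A, Commute (x0 ^ i) a := fun i a ha =>
      (Commute.zpow_left (hCc x0 hx0C a ha).symm i)
    have hBn : B.Normal := by
      constructor
      intro b hb g
      rw [hB, Subgroup.mem_comap] at hb ⊢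
      obtain ⟨i, hi⟩ := Subgroup.mem_zpowers_iff.mp hb
      rw [map_mul, map_mul, map_inv, ← hi]
      have : π g * π x0 ^ i * (π g)⁻¹ = π x0 ^ i := by
        rw [((hcomm g).zpow_right i).eq, mul_inv_cancel_right]
      rw [this]
      exact Subgroup.zpow_mem_zpowers _ _
    have hBc : IsMulCommutative B := by
      rw [isMulCommutative_iff]
      rintro ⟨b, hb⟩ ⟨b', hb'⟩
      apply Subtype.ext
      obtain ⟨i, a, ha, rfl⟩ := hBmem b hb
      obtain ⟨j, a', ha', rfl⟩ := hBmem b' hb'
      change x0 ^ i * a * (x0 ^ j * a') = x0 ^ j * a' * (x0 ^ i * a)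
      have e1 := (hx0a j a ha).eq
      have e2 := (hx0a i a' ha').eq
      have e3 := hAcomm a ha a' ha'
      have e4 : x0 ^ i * x0 ^ j = x0 ^ j * x0 ^ i := by rw [← zpow_add, ← zpow_add, add_comm]
      calc x0 ^ i * a * (x0 ^ j * a') = x0 ^ i * (a * x0 ^ j) * a' := by simp only [mul_assoc]
        _ = x0 ^ i * (x0 ^ j * a) * a' := by rw [e1]
        _ = (x0 ^ i * x0 ^ j) * (a * a') := by simp only [mul_assoc]
        _ = (x0 ^ j * x0 ^ i) * (a' * a) := by rw [e4, e3]
        _ = x0 ^ j * (x0 ^ i * a') * a := by simp only [mul_assoc]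
        _ = x0 ^ j * (a' * x0 ^ i) * a := by rw [e2]
        _ = x0 ^ j * a' * (x0 ^ i * a) := by simp only [mul_assoc]
    have hBe : ∀ b ∈ B, b ^ p ^ n = 1 := by
      intro b hb
      obtain ⟨i, a, ha, rfl⟩ := hBmem b hb
      rw [(hx0a i a ha).mul_pow, hAe a ha, mul_one, ← zpow_natCast, ← zpow_mul, mul_comm,
        zpow_mul, zpow_natCast, hx0n, one_zpow]
    have hAB : A ≤ B := by
      intro a ha
      rw [hB, Subgroup.mem_comap, (hker a).mpr ha]
      exact Subgroup.one_mem _
    have hBA := hmax B hBn hBc hBe hAB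
    apply hx0A
    rw [← hBA, hB, Subgroup.mem_comap]
    exact Subgroup.mem_zpowers _
  · -- a contradiction to the maximal choice of `x0`
    haveI : Group.IsNilpotent G := hG.isNilpotent
    have hlt : N x0 < ⊤ := lt_top_iff_ne_top.mpr htop
    obtain ⟨g, hgN, hgn⟩ := SetLike.exists_of_lt (Group.normalizerCondition_of_isNilpotent _ hlt)
    set K : G → Prop := fun k => k ∈ C ∧ k ^ p ^ n = 1 ∧ k ^ p ∈ A ∧ N x0 ≤ N k ∧ k ∈ N x0 with hK
    have hK0 : K x0 := ⟨hx0C, hx0n, hx0p, le_rfl, (hN x0 x0).mpr (Commute.refl _)⟩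
    have hKstep : ∀ k, K k → K (k⁻¹ * g⁻¹ * k * g) := by
      rintro k ⟨hkC, hkn, hkp, hkN, hkx⟩
      set k' := g⁻¹ * k * g with hk'
      have hk'C : k' ∈ C := by
        have := hCn.conj_mem k hkC g⁻¹
        simpa [hk'] using this
      have hk'pow : ∀ m : ℕ, k' ^ m = g⁻¹ * k ^ m * g := by
        intro m
        have := conj_pow (i := m) (a := g⁻¹) (b := k)
        simpa [hk'] using this
      have hk'p : k' ^ p ∈ A := by
        rw [hk'pow]
        have := (inferInstance : A.Normal).conj_mem _ hkp g⁻¹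
        simpa using this
      have hNk' : N x0 ≤ N k' := by
        intro h hh
        rw [hN]
        have h1 : g * h * g⁻¹ ∈ N x0 := (Subgroup.mem_normalizer_iff.mp hgN h).mp hh
        have h2 : Commute (π (g * h * g⁻¹)) (π k) := (hN k _).mp (hkN h1)
        have h3 := (Commute.conj_iff (π g)⁻¹).mpr h2
        simpa [hk', map_mul, map_inv, mul_assoc] using h3
      have hy_eq : k⁻¹ * g⁻¹ * k * g = k⁻¹ * k' := by simp [hk', mul_assoc]
      rw [hy_eq]
      have hkk' : Commute (π k) (π k') := (hN k' k).mp (hNk' hkx)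
      refine ⟨C.mul_mem (C.inv_mem hkC) hk'C, ?_, ?_, ?_, ?_⟩
      · set c := k'⁻¹ * k * k' * k⁻¹ with hc
        have hcA : c ∈ A := by
          rw [← hker]
          simp only [hc, map_mul, map_inv]
          rw [mul_assoc ((π k')⁻¹), hkk'.eq, ← mul_assoc, inv_mul_cancel, one_mul,
            mul_inv_cancel]
        have hcu : Commute c k⁻¹ := hCc _ (C.inv_mem hkC) c hcA
        have hcv : Commute c k' := hCc _ hk'C c hcA
        have hvu : k' * k⁻¹ = k⁻¹ * k' * c := by simp [hc, mul_assoc]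
        have hcp : c ^ p = 1 := by
          have h1 := pow_mul_of_class_two k⁻¹ k' c hvu hcv p
          have h2 : k' ^ p * k⁻¹ = k⁻¹ * k' ^ p := hCc _ (C.inv_mem hkC) _ hk'p
          rw [h2] at h1
          exact left_eq_mul.mp h1
        have hcpn : c ^ (p ^ n).choose 2 = 1 := by
          obtain ⟨t, ht⟩ := hdvd
          rw [ht, pow_mul, hcp, one_pow]
        rw [mul_pow_of_class_two k⁻¹ k' c hvu hcu hcv, hcpn, mul_one, inv_pow, hkn, inv_one,
          one_mul, hk'pow, hkn]
        simp
      · rw [← hker, map_pow, map_mul, map_inv, (hkk'.inv_left).mul_pow]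
        have h1 : π k ^ p = 1 := by rw [← map_pow]; exact (hker _).mpr hkp
        have h2 : π k' ^ p = 1 := by rw [← map_pow]; exact (hker _).mpr hk'p
        rw [inv_pow, h1, h2, inv_one, one_mul]
      · intro h hh
        rw [hN, map_mul, map_inv]
        exact ((hN k h).mp (hkN hh)).inv_right.mul_right ((hN k' h).mp (hNk' hh))
      · refine (N x0).mul_mem ((N x0).inv_mem hkx) ?_
        have hg' : g⁻¹ ∈ Subgroup.normalizer (N x0 : Set G) := inv_mem hgN
        have := (Subgroup.mem_normalizer_iff.mp hg' k).mp hkx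
        simpa [hk'] using this
    -- the iteration
    set f : G → G := fun k => k⁻¹ * g⁻¹ * k * g with hf
    have hKiter : ∀ j : ℕ, K (f^[j] x0) := by
      intro j
      induction j with
      | zero => exact hK0
      | succ j ih =>
        rw [Function.iterate_succ_apply']
        exact hKstep _ ih
    have hlcs : ∀ j : ℕ, f^[j] x0 ∈ Subgroup.lowerCentralSeries (⊤ : Subgroup G) j := by
      intro j
      induction j with
      | zero => exact Subgroup.mem_top _
      | succ j ih =>
        rw [Function.iterate_succ_apply', Subgroup.lowerCentralSeries_succ]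
        have : f (f^[j] x0) = ⁅(f^[j] x0)⁻¹, g⁻¹⁆ := by
          simp [hf, commutatorElement_def]
        rw [this]
        exact Subgroup.commutator_mem_commutator (inv_mem ih) (Subgroup.mem_top _)
    obtain ⟨j0, hj0⟩ := Subgroup.nilpotent_iff_lowerCentralSeries.mp (inferInstance : Group.IsNilpotent G)
    have hj0A : f^[j0] x0 ∈ A := by
      have := hlcs j0
      rw [hj0, Subgroup.mem_bot] at this
      rw [this]
      exact A.one_mem
    -- find the last index where the iterate is outside `A`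
    have hexj : ∃ j, f^[j] x0 ∈ A := ⟨j0, hj0A⟩
    have hj1 : f^[Nat.find hexj] x0 ∈ A := Nat.find_spec hexj
    have hj10 : Nat.find hexj ≠ 0 := by
      intro h
      rw [h] at hj1
      exact hx0A hj1
    obtain ⟨j, hj⟩ := Nat.exists_eq_succ_of_ne_zero hj10
    have hjA : f^[j] x0 ∉ A := Nat.find_min hexj (by omega)
    rw [hj, Function.iterate_succ_apply'] at hj1
    set y := f^[j] x0 with hy
    obtain ⟨hyC, hyn, hyp, hyN, hyx⟩ := hKiter j
    have hyX : y ∈ X := ⟨hyC, hyn, hyp, hjA⟩
    have hle := hx0max y hyX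
    -- `g ∈ N y`
    have hgy : g ∈ N y := by
      have h1 : g⁻¹ ∈ N y := by
        rw [hN]
        have h2 : π (y⁻¹ * g⁻¹ * y * g) = 1 := (hker _).mpr hj1
        rw [map_mul, map_mul, map_mul, map_inv, map_inv] at h2
        rw [map_inv]
        have h3 : (π g)⁻¹ * π y = π y * (π g)⁻¹ := by
          have h4 : π y * ((π y)⁻¹ * (π g)⁻¹ * π y * π g) * (π g)⁻¹ = π y * 1 * (π g)⁻¹ := by
            rw [h2]
          simpa [mul_assoc] using h4
        exact h3
      simpa using (N y).inv_mem h1
    have hlt2 : N x0 < N y := lt_of_le_of_ne hyN (fun h => hgn (h ▸ hgy))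
    have hcard : Nat.card (N x0) < Nat.card (N y) := by
      have := Set.ncard_lt_ncard (SetLike.coe_ssubset_coe.mpr hlt2) (Set.toFinite _)
      rw [← Nat.card_coe_set_eq, ← Nat.card_coe_set_eq] at this
      exact this
    have hle' : Nat.card (N y) ≤ Nat.card (N x0) := hle
    omega

end Alperin

end Cfsg.Agent.H4
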