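import Mathlib
import Cfsg.Prelude.Def_Characters
import Cfsg.Prelude.Def_Blocks
import Cfsg.Agent.H4.Blich1

/-!
# Blichfeldt's theorem: abelian Hall subgroups for the primes greater than `n + 1` in a
linear group of degree `n` (S4465)
-/

set_option autoImplicit false
set_option linter.unusedSectionVars false
set_option linter.style.haveILetI false

namespace Cfsg.Agent.H4

universe u

section Blich2

variable {G : Type u} [Group G]

/-- `G` has a faithful character of degree at most `n`. -/
def FaithN (n : ℕ) (G : Type u) [Group G] : Prop :=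
  ∃ χ : G → ℂ, IsCharacter G χ ∧ (∀ g : G, χ g = χ 1 → g = 1) ∧ charDegree χ ≤ n

theorem faithN_subgroup {n : ℕ} (h : FaithN n G) (H : Subgroup G) : FaithN n H := by
  obtain ⟨χ, hχ, hf, hd⟩ := h
  exact ⟨fun h => χ h, isCharacter_restrict H hχ, fun g hg => Subtype.ext (hf g hg), hd⟩

/-- The conclusion of the inductive form of Blichfeldt's theorem. -/
def BlichProp (n : ℕ) (G : Type u) [Group G] : Prop :=
  ∃ A : Subgroup G, (∀ x ∈ A, ∀ y ∈ A, x * y = y * x) ∧
    ∀ r : ℕ, r.Prime → n + 1 < r → ¬ r ∣ A.index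

/-- The induction hypothesis, phrased for the proper subgroups of `G`. -/
def BlichIH (n : ℕ) (G : Type u) [Group G] : Prop :=
  ∀ H : Subgroup G, H ≠ ⊤ → ∃ A : Subgroup G, A ≤ H ∧ (∀ x ∈ A, ∀ y ∈ A, x * y = y * x) ∧
    ∀ r : ℕ, r.Prime → n + 1 < r → ¬ r ∣ A.relIndex H

/-- (F) -/
theorem faithN_abelian_sup [Finite G] {n : ℕ} (h : FaithN n G) (r : ℕ) (hr : r.Prime)
    (hbig : n + 1 < r) (B : Subgroup G) [B.Normal] (hB : ∀ a ∈ B, ∀ b ∈ B, a * b = b * a)
    (R : Subgroup G) (hR : IsPGroup r R) :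
    ∀ x ∈ B ⊔ R, ∀ y ∈ B ⊔ R, x * y = y * x := by
  haveI := Fact.mk hr
  obtain ⟨χ, hχ, hf, hd⟩ := faithN_subgroup h (B ⊔ R)
  obtain ⟨a, ha⟩ := IsPGroup.iff_card.mp hR
  have hdvd : B.relIndex (B ⊔ R) ∣ r ^ a := by
    rw [Subgroup.relIndex_sup_left, ← ha]
    exact Subgroup.relIndex_dvd_card B R
  obtain ⟨k, -, hk⟩ := (Nat.dvd_prime_pow hr).mp hdvd
  have key := comm_of_faithful_of_index_pow hχ hf r k hr (by omega) (B.subgroupOf (B ⊔ R))
    (fun a ha b hb => Subtype.ext (hB a (Subgroup.mem_subgroupOf.mp ha) b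
      (Subgroup.mem_subgroupOf.mp hb))) hk
  intro x hx y hy
  exact congrArg Subtype.val (key ⟨x, hx⟩ ⟨y, hy⟩)

theorem faithN_sylow_abelian [Finite G] {n : ℕ} (h : FaithN n G) (r : ℕ) [Fact r.Prime]
    (hbig : n + 1 < r) (R : Sylow r G) :
    ∀ x ∈ (R : Subgroup G), ∀ y ∈ (R : Subgroup G), x * y = y * x := by
  have := faithN_abelian_sup h r Fact.out hbig ⊥ (fun a ha b hb => by
    rw [Subgroup.mem_bot] at ha hb; rw [ha, hb]) (R : Subgroup G) R.2
  rwa [bot_sup_eq] at this

theorem exists_sylow_le [Finite G] (A : Subgroup G) (s : ℕ) [Fact s.Prime] (h : ¬ s ∣ A.index) :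
    ∃ S : Sylow s G, (S : Subgroup G) ≤ A := by
  obtain ⟨S0⟩ : Nonempty (Sylow s A) := inferInstance
  have hp : IsPGroup s ((S0 : Subgroup A).map A.subtype) := S0.2.map A.subtype
  have hidx : ¬ s ∣ ((S0 : Subgroup A).map A.subtype).index := by
    rw [Subgroup.index_map_subtype]
    intro hd
    rcases (Nat.Prime.dvd_mul Fact.out).mp hd with h1 | h1
    · exact S0.not_dvd_index h1
    · exact h h1
  refine ⟨hp.toSylow hidx, ?_⟩
  rw [IsPGroup.toSylow_coe]
  exact Subgroup.map_subtype_le _

theorem sylow_centralizer_index_dvd [Finite G] (p : ℕ) [Fact p.Prime] (P Q : Sylow p G) :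
    (Subgroup.centralizer ((Q : Subgroup G) : Set G)).index ∣
      (Subgroup.centralizer ((P : Subgroup G) : Set G)).index := by
  obtain ⟨g, rfl⟩ := MulAction.exists_smul_eq G P Q
  have h1 := Subgroup.map_centralizer_le_centralizer_image ((P : Subgroup G) : Set G)
    (MulAut.conj g).toMonoidHom
  have h2 : ((MulAut.conj g).toMonoidHom '' ((P : Subgroup G) : Set G)) =
      (((g • P : Sylow p G) : Subgroup G) : Set G) := by
    rw [Sylow.coe_subgroup_smul]
    rfl
  rw [h2] at h1
  have h3 := Subgroup.index_dvd_of_le h1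
  have h4 : ((Subgroup.centralizer ((P : Subgroup G) : Set G)).map
      (MulAut.conj g).toMonoidHom).index =
      (Subgroup.centralizer ((P : Subgroup G) : Set G)).index :=
    Subgroup.index_map_equiv _ (MulAut.conj g)
  rwa [h4] at h3

/-- Reduction to a proper subgroup of index prime to all big primes. -/
theorem blich_of_proper {n : ℕ} (IH : BlichIH n G)
    (H : Subgroup G) (hH : H ≠ ⊤) (hidx : ∀ r : ℕ, r.Prime → n + 1 < r → ¬ r ∣ H.index) :
    BlichProp n G := by
  obtain ⟨A, hAH, hA, hrel⟩ := IH H hH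
  refine ⟨A, hA, fun r hr hbig hdvd => ?_⟩
  rw [← Subgroup.relIndex_mul_index hAH] at hdvd
  rcases (Nat.Prime.dvd_mul hr).mp hdvd with h | h
  · exact hrel r hr hbig h
  · exact hidx r hr hbig h

/-- (CEN) -/
theorem blich_cen [Finite G] {n : ℕ} (IH : BlichIH n G) (r : ℕ) [Fact r.Prime] (R : Sylow r G)
    (hR : (R : Subgroup G) ≠ ⊥)
    (hc : ∀ s : ℕ, s.Prime → n + 1 < s →
      ¬ s ∣ (Subgroup.centralizer ((R : Subgroup G) : Set G)).index) :
    BlichProp n G := by
  by_cases htop : Subgroup.centralizer ((R : Subgroup G) : Set G) = ⊤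
  · have hcen : ∀ x ∈ (R : Subgroup G), x ∈ Subgroup.center G := fun x hx =>
      (Subgroup.centralizer_eq_top_iff_subset.mp htop) hx
    haveI : (R : Subgroup G).Normal := ⟨fun x hx g => by
      have := Subgroup.mem_center_iff.mp (hcen x hx) g
      rw [this, mul_inv_cancel_right]; exact hx⟩
    obtain ⟨K, hK⟩ := Subgroup.exists_right_complement'_of_coprime (Sylow.card_coprime_index R)
    have hKtop : K ≠ ⊤ := by
      rintro rfl
      exact hR (Subgroup.isComplement'_top_right.mp hK)
    obtain ⟨A, hAK, hA, hrel⟩ := IH K hKtop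
    refine ⟨A ⊔ (R : Subgroup G), ?_, ?_⟩
    · intro x hx y hy
      obtain ⟨a, ha, b, hb, rfl⟩ := Subgroup.mem_sup_of_normal_right.mp hx
      obtain ⟨a', ha', b', hb', rfl⟩ := Subgroup.mem_sup_of_normal_right.mp hy
      have hb1 : ∀ g : G, Commute b g := fun g =>
        (Subgroup.mem_center_iff.mp (hcen b hb) g).symm
      have hb2 : ∀ g : G, Commute g b' := fun g => Subgroup.mem_center_iff.mp (hcen b' hb') g
      have haa : Commute a a' := hA a ha a' ha'
      exact ((haa.mul_left (hb1 a')).mul_right ((hb2 a).mul_left (hb1 b')))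
    · intro s hs hbig hdvd
      by_cases hsr : s = r
      · subst hsr
        exact R.not_dvd_index (dvd_trans hdvd (Subgroup.index_dvd_of_le le_sup_right))
      · have h1 : s ∣ A.index := dvd_trans hdvd (Subgroup.index_dvd_of_le le_sup_left)
        rw [← Subgroup.relIndex_mul_index hAK] at h1
        rcases (Nat.Prime.dvd_mul hs).mp h1 with h | h
        · exact hrel s hs hbig h
        · rw [hK.index_eq_card] at h
          obtain ⟨a, ha⟩ := IsPGroup.iff_card.mp R.2
          rw [ha] at h
          exact hsr ((Nat.prime_dvd_prime_iff_eq hs Fact.out).mp (hs.dvd_of_dvd_pow h))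
  · exact blich_of_proper IH _ htop hc

/-- Case (1): a central element of big prime order. -/
theorem blich_central [Finite G] {n : ℕ} (hG : FaithN n G) (IH : BlichIH n G) (z : G)
    (hz : z ∈ Subgroup.center G) (r : ℕ) [Fact r.Prime] (hbig : n + 1 < r)
    (hzr : orderOf z = r) : BlichProp n G := by
  have hr : r.Prime := Fact.out
  have hzp : IsPGroup r (Subgroup.zpowers z) :=
    IsPGroup.of_card (n := 1) (by rw [Nat.card_zpowers, hzr, pow_one])
  obtain ⟨R, hzR⟩ := hzp.exists_le_sylow
  have hzmem : z ∈ (R : Subgroup G) := hzR (Subgroup.mem_zpowers z)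
  have hRab := faithN_sylow_abelian hG r hbig R
  have hRbot : (R : Subgroup G) ≠ ⊥ := by
    intro h
    rw [h, Subgroup.mem_bot] at hzmem
    rw [hzmem, orderOf_one] at hzr
    exact hr.ne_one hzr.symm
  letI : CommGroup (R : Subgroup G) :=
    { (inferInstance : Group (R : Subgroup G)) with
      mul_comm := fun a b => Subtype.ext (hRab a a.2 b b.2) }
  let V : G →* (R : Subgroup G) := MonoidHom.transfer (MonoidHom.id (R : Subgroup G))
  have hVz : V z ≠ 1 := by
    have key : ∀ (k : ℕ) (g₀ : G), g₀⁻¹ * z ^ k * g₀ ∈ (R : Subgroup G) →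
        g₀⁻¹ * z ^ k * g₀ = z ^ k := by
      intro k g₀ _
      have := Subgroup.mem_center_iff.mp (Subgroup.pow_mem _ hz k) g₀
      rw [mul_assoc, ← this, inv_mul_cancel_left]
    have h1 : V z = _ := MonoidHom.transfer_eq_pow (MonoidHom.id (R : Subgroup G)) z key
    intro h2
    rw [h1] at h2
    have h3 : z ^ (R : Subgroup G).index = 1 := congrArg Subtype.val h2
    have h4 := orderOf_dvd_of_pow_eq_one h3
    rw [hzr] at h4
    exact R.not_dvd_index h4
  have hNtop : V.ker ≠ ⊤ := by
    intro h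
    apply hVz
    have : z ∈ V.ker := h ▸ Subgroup.mem_top z
    exact MonoidHom.mem_ker.mp this
  obtain ⟨a, ha⟩ := IsPGroup.iff_card.mp R.2
  have hNidx : ∃ b, V.ker.index = r ^ b := by
    have h1 : V.ker.index ∣ r ^ a := by
      rw [Subgroup.index_ker, ← ha]
      exact Subgroup.card_subgroup_dvd_card V.range
    obtain ⟨b, -, hb⟩ := (Nat.dvd_prime_pow hr).mp h1
    exact ⟨b, hb⟩
  obtain ⟨b, hb⟩ := hNidx
  obtain ⟨A, hAN, hA, hrel⟩ := IH V.ker hNtop
  have hAidx : ∀ s : ℕ, s.Prime → n + 1 < s → s ≠ r → ¬ s ∣ A.index := by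
    intro s hs hsbig hsr hd
    rw [← Subgroup.relIndex_mul_index hAN] at hd
    rcases (Nat.Prime.dvd_mul hs).mp hd with h | h
    · exact hrel s hs hsbig h
    · rw [hb] at h
      exact hsr ((Nat.prime_dvd_prime_iff_eq hs hr).mp (hs.dvd_of_dvd_pow h))
  by_cases hex : ∃ s : ℕ, s.Prime ∧ n + 1 < s ∧ s ≠ r ∧ ∃ S : Sylow s G,
      (S : Subgroup G) ≤ A ∧ Subgroup.normalizer ((S : Subgroup G) : Set G) ≠ ⊤
  · obtain ⟨s, hs, hsbig, hsr, S, hSA, hSn⟩ := hex
    haveI := Fact.mk hs
    apply blich_of_proper IH _ hSn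
    intro s' hs' hs'big hd
    have hfr : Subgroup.normalizer ((S : Subgroup G) : Set G) ⊔ V.ker = ⊤ :=
      Sylow.normalizer_sup_eq_top' S (hSA.trans hAN)
    have e1 : (Subgroup.normalizer ((S : Subgroup G) : Set G) ⊓ V.ker).relIndex
        (Subgroup.normalizer ((S : Subgroup G) : Set G)) *
        (Subgroup.normalizer ((S : Subgroup G) : Set G)).index =
        (Subgroup.normalizer ((S : Subgroup G) : Set G) ⊓ V.ker).index :=
      Subgroup.relIndex_mul_index inf_le_left
    have e2 : (Subgroup.normalizer ((S : Subgroup G) : Set G) ⊓ V.ker).relIndex V.ker *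
        V.ker.index = (Subgroup.normalizer ((S : Subgroup G) : Set G) ⊓ V.ker).index :=
      Subgroup.relIndex_mul_index inf_le_right
    have e3 : (Subgroup.normalizer ((S : Subgroup G) : Set G) ⊓ V.ker).relIndex
        (Subgroup.normalizer ((S : Subgroup G) : Set G)) = V.ker.index := by
      rw [Subgroup.inf_relIndex_left, ← Subgroup.relIndex_sup_right, hfr,
        Subgroup.relIndex_top_right]
    rw [e3, ← e2, mul_comm] at e1
    have hN0 : 0 < V.ker.index := Nat.pos_of_ne_zero Subgroup.index_ne_zero_of_finite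
    have h2 : (Subgroup.normalizer ((S : Subgroup G) : Set G)).index =
        (Subgroup.normalizer ((S : Subgroup G) : Set G) ⊓ V.ker).relIndex V.ker :=
      Nat.eq_of_mul_eq_mul_right hN0 e1
    have hAM : A ≤ Subgroup.normalizer ((S : Subgroup G) : Set G) := by
      intro g hg
      rw [Subgroup.mem_normalizer_iff]
      intro x
      constructor
      · intro hx
        have : g * x * g⁻¹ = x := by rw [hA g hg x (hSA hx), mul_inv_cancel_right]
        rw [this]; exact hx
      · intro hx
        have h5 : g * x * g⁻¹ ∈ A := hSA hx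
        have hxA : x ∈ A := by
          have := A.mul_mem (A.mul_mem (A.inv_mem hg) h5) hg
          simpa [mul_assoc] using this
        have : g * x * g⁻¹ = x := by rw [hA g hg x hxA, mul_inv_cancel_right]
        rwa [this] at hx
    have h3 : (Subgroup.normalizer ((S : Subgroup G) : Set G) ⊓ V.ker).relIndex V.ker ∣
        A.relIndex V.ker := Subgroup.relIndex_dvd_of_le_left V.ker (le_inf hAM hAN)
    rw [h2] at hd
    exact hrel s' hs' hs'big (dvd_trans hd h3)
  · push Not at hex
    apply blich_cen IH r R hRbot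
    intro s hs hsbig hd
    by_cases hsr : s = r
    · subst hsr
      have hle : (R : Subgroup G) ≤ Subgroup.centralizer ((R : Subgroup G) : Set G) := by
        intro g hg
        rw [Subgroup.mem_centralizer_iff]
        intro h hh
        exact hRab h hh g hg
      exact R.not_dvd_index (dvd_trans hd (Subgroup.index_dvd_of_le hle))
    · haveI := Fact.mk hs
      obtain ⟨S, hSA⟩ := exists_sylow_le A s (hAidx s hs hsbig hsr)
      have hSn : Subgroup.normalizer ((S : Subgroup G) : Set G) = ⊤ := hex s hs hsbig hsr S hSA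
      haveI : (S : Subgroup G).Normal := Subgroup.normalizer_eq_top_iff.mp hSn
      have hab := faithN_abelian_sup hG r hr hbig (S : Subgroup G)
        (fun a ha b hb => hA a (hSA ha) b (hSA hb)) (R : Subgroup G) R.2
      have hle : (S : Subgroup G) ≤ Subgroup.centralizer ((R : Subgroup G) : Set G) := by
        intro g hg
        rw [Subgroup.mem_centralizer_iff]
        intro h hh
        exact hab h (Subgroup.mem_sup_right hh) g (Subgroup.mem_sup_left hg)
      exact S.not_dvd_index (dvd_trans hd (Subgroup.index_dvd_of_le hle))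

/-- Case (2): no central element of big prime order. -/
theorem blich_noncentral [Finite G] {n : ℕ} (hG : FaithN n G) (IH : BlichIH n G)
    (hnc : ∀ z ∈ Subgroup.center G, ∀ r : ℕ, r.Prime → n + 1 < r → orderOf z ≠ r)
    (p : ℕ) [Fact p.Prime] (hbig : n + 1 < p) (hpG : p ∣ Nat.card G) : BlichProp n G := by
  have hp : p.Prime := Fact.out
  obtain ⟨P⟩ : Nonempty (Sylow p G) := inferInstance
  have hPab := faithN_sylow_abelian hG p hbig P
  have hPbot : (P : Subgroup G) ≠ ⊥ := by
    intro h
    have h1 := P.dvd_card_of_dvd_card hpG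
    rw [h, Subgroup.card_bot] at h1
    exact hp.one_lt.ne' (Nat.dvd_one.mp h1)
  apply blich_cen IH p P hPbot
  intro q hq hqbig hd
  by_cases hqp : q = p
  · subst hqp
    have hle : (P : Subgroup G) ≤ Subgroup.centralizer ((P : Subgroup G) : Set G) := by
      intro g hg
      rw [Subgroup.mem_centralizer_iff]
      intro h hh
      exact hPab h hh g hg
    exact P.not_dvd_index (dvd_trans hd (Subgroup.index_dvd_of_le hle))
  · have hqG : q ∣ Nat.card G := dvd_trans hd (Subgroup.index_dvd_card _)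
    haveI := Fact.mk hq
    obtain ⟨χ, hχ, hf, hdeg⟩ := hG
    obtain ⟨x, y, hx, hy, hxy⟩ := exists_commuting_of_faithful hχ hf p q hp hq (by omega)
      (by omega) hpG hqG
    have hG' : FaithN n G := ⟨χ, hχ, hf, hdeg⟩
    have hC1 : Subgroup.centralizer ({x} : Set G) ≠ ⊤ := by
      intro h
      have hxc : x ∈ Subgroup.center G :=
        (Subgroup.centralizer_eq_top_iff_subset.mp h) (Set.mem_singleton x)
      exact hnc x hxc p hp hbig hx
    have hxp : IsPGroup p (Subgroup.zpowers x) :=
      IsPGroup.of_card (n := 1) (by rw [Nat.card_zpowers, hx, pow_one])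
    obtain ⟨P0, hxP0⟩ := hxp.exists_le_sylow
    have hP0ab := faithN_sylow_abelian hG' p hbig P0
    have hP0C1 : (P0 : Subgroup G) ≤ Subgroup.centralizer ({x} : Set G) := by
      intro g hg
      rw [Subgroup.mem_centralizer_iff]
      intro h hh
      rw [Set.mem_singleton_iff] at hh
      subst hh
      exact hP0ab h (hxP0 (Subgroup.mem_zpowers h)) g hg
    have hpC1 : ¬ p ∣ (Subgroup.centralizer ({x} : Set G)).index := fun h =>
      P0.not_dvd_index (dvd_trans h (Subgroup.index_dvd_of_le hP0C1))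
    have hyC1 : y ∈ Subgroup.centralizer ({x} : Set G) := by
      rw [Subgroup.mem_centralizer_iff]
      intro h hh
      rw [Set.mem_singleton_iff] at hh
      subst hh
      exact hxy
    obtain ⟨A1, hA1C, hA1, hrel1⟩ := IH _ hC1
    have hpA1 : ¬ p ∣ A1.index := by
      intro h
      rw [← Subgroup.relIndex_mul_index hA1C] at h
      rcases (Nat.Prime.dvd_mul hp).mp h with h | h
      · exact hrel1 p hp hbig h
      · exact hpC1 h
    obtain ⟨P1, hP1⟩ := exists_sylow_le A1 p hpA1
    have hqA1 : q ∣ Nat.card A1 := by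
      have h1 : q ∣ Nat.card (Subgroup.centralizer ({x} : Set G)) := by
        rw [← hy]; exact Subgroup.orderOf_dvd_natCard _ hyC1
      have h2 : Nat.card (A1.subgroupOf (Subgroup.centralizer ({x} : Set G))) *
          A1.relIndex (Subgroup.centralizer ({x} : Set G)) =
          Nat.card (Subgroup.centralizer ({x} : Set G)) := Subgroup.card_mul_index _
      rw [← h2, Nat.card_congr (Subgroup.subgroupOfEquivOfLe hA1C).toEquiv] at h1
      rcases (Nat.Prime.dvd_mul hq).mp h1 with h | h
      · exact h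
      · exact absurd h (hrel1 q hq hqbig)
    obtain ⟨y1', hy1'⟩ := exists_prime_orderOf_dvd_card' (G := A1) q hqA1
    have hy1 : orderOf (y1' : G) = q := by rw [Subgroup.orderOf_coe, hy1']
    have hC2 : Subgroup.centralizer ({(y1' : G)} : Set G) ≠ ⊤ := by
      intro h
      have hc : (y1' : G) ∈ Subgroup.center G :=
        (Subgroup.centralizer_eq_top_iff_subset.mp h) (Set.mem_singleton _)
      exact hnc _ hc q hq hqbig hy1
    have hP1C2 : (P1 : Subgroup G) ≤ Subgroup.centralizer ({(y1' : G)} : Set G) := by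
      intro g hg
      rw [Subgroup.mem_centralizer_iff]
      intro h hh
      rw [Set.mem_singleton_iff] at hh
      subst hh
      exact hA1 _ y1'.2 g (hP1 hg)
    have hpC2 : ¬ p ∣ (Subgroup.centralizer ({(y1' : G)} : Set G)).index := fun h =>
      P1.not_dvd_index (dvd_trans h (Subgroup.index_dvd_of_le hP1C2))
    have hyq : IsPGroup q (Subgroup.zpowers (y1' : G)) :=
      IsPGroup.of_card (n := 1) (by rw [Nat.card_zpowers, hy1, pow_one])
    obtain ⟨Q0, hyQ0⟩ := hyq.exists_le_sylow
    have hQ0ab := faithN_sylow_abelian hG' q hqbig Q0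
    have hQ0C2 : (Q0 : Subgroup G) ≤ Subgroup.centralizer ({(y1' : G)} : Set G) := by
      intro g hg
      rw [Subgroup.mem_centralizer_iff]
      intro h hh
      rw [Set.mem_singleton_iff] at hh
      subst hh
      exact hQ0ab _ (hyQ0 (Subgroup.mem_zpowers _)) g hg
    have hqC2 : ¬ q ∣ (Subgroup.centralizer ({(y1' : G)} : Set G)).index := fun h =>
      Q0.not_dvd_index (dvd_trans h (Subgroup.index_dvd_of_le hQ0C2))
    obtain ⟨A2, hA2C, hA2, hrel2⟩ := IH _ hC2
    have hpA2 : ¬ p ∣ A2.index := by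
      intro h
      rw [← Subgroup.relIndex_mul_index hA2C] at h
      rcases (Nat.Prime.dvd_mul hp).mp h with h | h
      · exact hrel2 p hp hbig h
      · exact hpC2 h
    have hqA2 : ¬ q ∣ A2.index := by
      intro h
      rw [← Subgroup.relIndex_mul_index hA2C] at h
      rcases (Nat.Prime.dvd_mul hq).mp h with h | h
      · exact hrel2 q hq hqbig h
      · exact hqC2 h
    obtain ⟨P2, hP2⟩ := exists_sylow_le A2 p hpA2
    have hA2cen : A2 ≤ Subgroup.centralizer ((P2 : Subgroup G) : Set G) := by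
      intro g hg
      rw [Subgroup.mem_centralizer_iff]
      intro h hh
      exact hA2 h (hP2 hh) g hg
    have h5 : q ∣ (Subgroup.centralizer ((P2 : Subgroup G) : Set G)).index :=
      dvd_trans hd (sylow_centralizer_index_dvd p P2 P)
    exact hqA2 (dvd_trans h5 (Subgroup.index_dvd_of_le hA2cen))

theorem blich_step [Finite G] {n : ℕ} (hG : FaithN n G) (IH : BlichIH n G) : BlichProp n G := by
  by_cases h0 : ∃ r : ℕ, r.Prime ∧ n + 1 < r ∧ r ∣ Nat.card G
  · obtain ⟨p, hp, hbig, hpG⟩ := h0
    haveI := Fact.mk hp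
    by_cases hc : ∃ z ∈ Subgroup.center G, ∃ r : ℕ, r.Prime ∧ n + 1 < r ∧ orderOf z = r
    · obtain ⟨z, hz, r, hr, hrbig, hzr⟩ := hc
      haveI := Fact.mk hr
      exact blich_central hG IH z hz r hrbig hzr
    · push Not at hc
      exact blich_noncentral hG IH (fun z hz r hr hrbig => hc z hz r hr hrbig) p hbig hpG
  · refine ⟨⊥, fun x hx y hy => ?_, fun r hr hbig hd => h0 ⟨r, hr, hbig, ?_⟩⟩
    · rw [Subgroup.mem_bot] at hx hy; rw [hx, hy]
    · rwa [Subgroup.index_bot] at hd

theorem blich_aux (n : ℕ) : ∀ (N : ℕ) (G : Type u) [Group G] [Finite G], Nat.card G = N →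
    FaithN n G → BlichProp n G := by
  intro N
  induction N using Nat.strong_induction_on with
  | _ N ih =>
    intro G _ _ hN hG
    apply blich_step hG
    intro H hH
    have hlt : Nat.card H < N := by
      rw [← hN]
      exact lt_of_le_of_ne (Subgroup.card_le_card_group H)
        (fun h => hH (Subgroup.eq_top_of_card_eq H h))
    obtain ⟨A, hA, hidx⟩ := ih (Nat.card H) hlt H rfl (faithN_subgroup hG H)
    refine ⟨A.map H.subtype, Subgroup.map_subtype_le A, ?_, ?_⟩
    · rintro x ⟨a, ha, rfl⟩ y ⟨b, hb, rfl⟩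
      exact congrArg Subtype.val (hA a ha b hb)
    · intro r hr hbig hd
      apply hidx r hr hbig
      have e : (A.map H.subtype).subgroupOf H = A :=
        Subgroup.comap_map_eq_self_of_injective H.subtype_injective A
      rwa [Subgroup.relIndex, e] at hd

/-- Blichfeldt's theorem: a finite group with a faithful character of degree `n` has an
abelian Hall subgroup for the set of primes greater than `n + 1`. -/
theorem blichfeldt [Finite G] (χ : G → ℂ) (hχ : IsCharacter G χ)
    (hfaith : ∀ g : G, χ g = χ 1 → g = 1) (n : ℕ) (hn : charDegree χ = n) :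
    ∃ A : Subgroup G, (∀ x ∈ A, ∀ y ∈ A, x * y = y * x) ∧
      (∀ q : ℕ, q.Prime → q ∣ Nat.card A → n + 1 < q) ∧
      ∀ q : ℕ, q.Prime → q ∣ A.index → q ≤ n + 1 := by
  obtain ⟨A0, hA0, hidx⟩ := blich_aux n (Nat.card G) G rfl ⟨χ, hχ, hfaith, hn.le⟩
  let A : Subgroup G :=
    { carrier := {a | a ∈ A0 ∧ ∀ q : ℕ, q.Prime → q ∣ orderOf a → n + 1 < q}
      mul_mem' := by
        rintro a b ⟨ha, ha'⟩ ⟨hb, hb'⟩
        refine ⟨A0.mul_mem ha hb, fun q hq hd => ?_⟩
        have h1 : orderOf (a * b) ∣ Nat.lcm (orderOf a) (orderOf b) :=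
          Commute.orderOf_mul_dvd_lcm (hA0 a ha b hb)
        have h2 := dvd_trans (dvd_trans hd h1) (Nat.lcm_dvd_mul _ _)
        rcases (Nat.Prime.dvd_mul hq).mp h2 with h | h
        · exact ha' q hq h
        · exact hb' q hq h
      one_mem' := ⟨A0.one_mem, fun q hq hd => by
        rw [orderOf_one] at hd; exact absurd (Nat.dvd_one.mp hd) hq.ne_one⟩
      inv_mem' := by
        rintro a ⟨ha, ha'⟩
        exact ⟨A0.inv_mem ha, fun q hq hd => ha' q hq (by rwa [orderOf_inv] at hd)⟩ }
  have hAle : A ≤ A0 := fun a ha => ha.1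
  refine ⟨A, fun x hx y hy => hA0 x hx.1 y hy.1, ?_, ?_⟩
  · intro q hq hd
    haveI := Fact.mk hq
    obtain ⟨a, ha⟩ := exists_prime_orderOf_dvd_card' (G := A) q hd
    have h1 : orderOf (a : G) = q := by rw [Subgroup.orderOf_coe, ha]
    exact a.2.2 q hq (by rw [h1])
  · intro q hq hd
    by_contra hlt
    push Not at hlt
    haveI := Fact.mk hq
    rw [← Subgroup.relIndex_mul_index hAle] at hd
    rcases (Nat.Prime.dvd_mul hq).mp hd with h | h
    · obtain ⟨Q⟩ : Nonempty (Sylow q A0) := inferInstance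
      have hle : (Q : Subgroup A0) ≤ A.subgroupOf A0 := by
        intro g hg
        rw [Subgroup.mem_subgroupOf]
        refine ⟨g.2, fun q' hq' hd' => ?_⟩
        obtain ⟨k, hk⟩ := (IsPGroup.iff_orderOf.mp Q.2) ⟨g, hg⟩
        rw [Subgroup.orderOf_mk, ← Subgroup.orderOf_coe] at hk
        rw [hk] at hd'
        have := (Nat.prime_dvd_prime_iff_eq hq' hq).mp (hq'.dvd_of_dvd_pow hd')
        rw [this]; exact hlt
      exact Q.not_dvd_index (dvd_trans h (Subgroup.index_dvd_of_le hle))
    · exact hidx q hq hlt h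

end Blich2

end Cfsg.Agent.H4
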