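import Mathlib
import Cfsg.Agent.H2.BrDefs
import Cfsg.Agent.H78.Klein1
import Cfsg.Agent.H81.Reg
import Cfsg.Agent.H37.NoSimplePaqb
import Cfsg.Agent.S0494

/-!
Piece S4501-ASM1: the assembly for simple groups of order `4 p^a q^b`, `a ≤ 2`.
-/

set_option autoImplicit false

namespace Cfsg.Agent.H4.Br

open Cfsg Cfsg.Agent.H2.Br Cfsg.Agent.H78.Klein

universe u

theorem part1 (hF : StmtFaith.{u}) (hK : StmtKlein.{u}) (hA : StmtArith4) (hC : StmtCent4.{u})
    (hI : StmtFpfInv.{u}) (hD : StmtDeg3Cent.{u}) (h4 : StmtDeg4.{u}) (hKK : StmtKillK.{u}) :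
    StmtPart1.{u} := by
  intro G _ _ _ hnab p q a b hp hq hpq ha hcard
  have hnp : ¬ (Nat.card G).Prime := by
    intro hprime
    have hfact : Fact (Nat.card G).Prime := ⟨hprime⟩
    have hc : IsCyclic G := isCyclic_of_prime_card rfl
    obtain ⟨x, y, hxy⟩ := hnab
    obtain ⟨g, hg⟩ := hc.exists_generator
    obtain ⟨m, rfl⟩ := Subgroup.mem_zpowers_iff.mp (hg x)
    obtain ⟨n, rfl⟩ := Subgroup.mem_zpowers_iff.mp (hg y)
    exact hxy (by rw [← zpow_add, ← zpow_add, add_comm])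
  -- Burnside
  have hp2 : p ≠ 2 := by
    rintro rfl
    exact Cfsg.Agent.H37.NS.no_simple_of_paqb 2 q (a + 2) b hp hq (by rw [hcard]; ring) hnp
  have hq2 : q ≠ 2 := by
    rintro rfl
    exact Cfsg.Agent.H37.NS.no_simple_of_paqb p 2 a (b + 2) hp hq (by rw [hcard]; ring) hnp
  have hodd : Odd (p ^ a * q ^ b) := (hp.odd_of_ne_two hp2).pow.mul (hq.odd_of_ne_two hq2).pow
  have hcard4 : Nat.card G = 4 * (p ^ a * q ^ b) := by rw [hcard]; ring
  have hyp : Hyp G (p ^ a * q ^ b) := by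
    refine ⟨hodd, hcard4, ?_⟩
    rintro ⟨N, hN, hNc⟩
    rcases hN.eq_bot_or_eq_top with h | h
    · rw [h, Subgroup.card_bot] at hNc
      rw [← hNc] at hcard4
      exact Cfsg.Agent.H37.NS.no_simple_of_paqb 2 3 2 0 Nat.prime_two Nat.prime_three
        (by rw [hcard4]; norm_num) hnp
    · rw [h, Subgroup.card_top, hcard4] at hNc
      obtain ⟨m, hm⟩ := hodd
      omega
  have hfact2 : Fact (Nat.Prime 2) := ⟨Nat.prime_two⟩
  obtain ⟨P⟩ : Nonempty (Sylow 2 G) := inferInstance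
  have hPc := sylow_card _ hodd hcard4 P
  -- two commuting involutions
  have hPne : (P : Subgroup G) ≠ ⊥ := by
    intro h
    rw [h, Subgroup.card_bot] at hPc
    omega
  obtain ⟨⟨J, hJP⟩, hJ1⟩ := (Subgroup.ne_bot_iff_exists_ne_one).mp hPne
  have hJ1' : J ≠ 1 := fun h => hJ1 (Subtype.ext h)
  have hJ : orderOf J = 2 := orderOf_eq_two_of_mem_sylow hyp P J hJP hJ1'
  obtain ⟨R, hRc, hR⟩ := exists_R hyp P J hJ hJP
  obtain ⟨t, htR⟩ := Finset.card_pos.mp (by rw [hRc]; norm_num : 0 < R.card)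
  obtain ⟨htP, ht1, htJ⟩ := (hR t).mp htR
  have ht : orderOf t = 2 := orderOf_eq_two_of_mem_sylow hyp P t htP ht1
  have hcomm : J * t = t * J :=
    (Subgroup.mem_centralizer_iff.mp (sylow_comm P hPc hJP) t htP).symm
  have hJt : J ≠ t := fun h => htJ h.symm
  have htt : t * t = 1 := sq_of_orderOf_eq_two ht
  -- the principal block
  obtain ⟨ζ₂, ζ₃, ζ₄, ε, cP, hε, hζ₂, hζ₃, hζ₄, -, hζ₃J, -, h4A, h4B, h4C, hdeg, hcP0, hcP, hform⟩ :=
    hK G hnab _ hodd hcard4 J t hJ ht hJt hcomm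
  obtain ⟨χ, hχ⟩ := h4 G hnab p q a b hp hq hpq hp2 hq2 ha hcard
  have hcent : ∀ y : G, Odd (orderOf y) → y * J = J * y → y * t = t * y → y = 1 :=
    fun y h1 h2 h3 => hC G hnab _ hodd hcard4 χ hχ J t y hJ ht hJt hcomm h1 h2 h3
  have hcP4 : cP = 4 := by
    rcases hcP with h | ⟨y, hy1, hy2, hy3, hy4⟩
    · exact h
    · exact absurd (hcent y hy2 hy3 hy4) hy1
  have hAd := Cfsg.Agent.H81.irr_charDegree_dvd ζ₂
  have hBd := Cfsg.Agent.H81.irr_charDegree_dvd ζ₃
  have hCd := Cfsg.Agent.H81.irr_charDegree_dvd ζ₄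
  rw [hcard] at hAd hBd hCd
  have hcJd : Nat.card (Subgroup.centralizer ({J} : Set G)) ∣ 4 * p ^ a * q ^ b := by
    rw [← hcard]
    exact Subgroup.card_subgroup_dvd_card _
  obtain ⟨hε1, hA5, hB3, hC3⟩ := hA p q a b hp hq hpq hp2 hq2 (charDegree (ζ₂ : G → ℂ))
    (charDegree (ζ₃ : G → ℂ)) (charDegree (ζ₄ : G → ℂ))
    (Nat.card (Subgroup.centralizer ({J} : Set G))) cP ε hε hAd hBd hCd (hF G hnab ζ₂ hζ₂).1
    (hF G hnab ζ₃ hζ₃).1 (hF G hnab ζ₄ hζ₄).1 h4A h4B h4C hdeg hcJd hcP0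
    (by rw [← hcard]; exact hform)
  -- the odd part of the centralizer of `J`
  obtain ⟨K, Q, -, hKmem, hKc, -⟩ := exists_K_involution hyp J hJ
  have h60 : Nat.card G = 60 * Nat.card K ^ 3 := by
    rw [hA5, hB3, hC3, hε1, hcP4, hKc] at hform
    push_cast at hform
    have h60' : (Nat.card G : ℤ) = 60 * (Nat.card K : ℤ) ^ 3 := by linarith
    exact_mod_cast h60'
  have hKodd : Odd (Nat.card K) := by
    have h1 : 4 * Nat.card K ∣ 4 * (p ^ a * q ^ b) := by
      rw [← hKc, ← hcard4]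
      exact Subgroup.card_subgroup_dvd_card _
    exact Odd.of_dvd_nat hodd ((Nat.mul_dvd_mul_iff_left (by norm_num)).mp h1)
  have htinv : t⁻¹ = t := inv_eq_of_mul_eq_one_right htt
  have hinv : ∀ k ∈ K, t * k * t⁻¹ = k⁻¹ := by
    apply hI G K t htt
    · intro k hk
      rw [hKmem] at hk ⊢
      refine ⟨?_, ?_⟩
      · have h1 : orderOf (t * k * t⁻¹) = orderOf k := by
          have h2 : t * k * t⁻¹ = MulAut.conj t k := rfl
          rw [h2, MulEquiv.orderOf_eq]
        rw [h1]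
        exact hk.1
      · rw [htinv]
        calc t * k * t * J = t * k * (t * J) := by group
          _ = t * k * (J * t) := by rw [hcomm]
          _ = t * (k * J) * t := by group
          _ = t * (J * k) * t := by rw [hk.2]
          _ = (t * J) * k * t := by group
          _ = (J * t) * k * t := by rw [hcomm]
          _ = J * (t * k * t) := by group
    · exact hKodd
    · intro k hk hfix
      rw [hKmem] at hk
      refine hcent k hk.1 hk.2 ?_
      have h1 : t * k = k * t := by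
        calc t * k = t * k * t⁻¹ * t := by group
          _ = k * t := by rw [hfix]
      exact h1.symm
  have hζ₃J' : (ζ₃ : G → ℂ) J = -1 := by
    rw [hζ₃J, hε1]
    push_cast
    rfl
  have hK1 : Nat.card K = 1 := by
    apply hKK G J K hKmem _ h60
    intro k hk hk1 g hgk
    have hk' := (hKmem k).mp hk
    exact hD G ζ₃ hB3 (hF G hnab ζ₃ hζ₃).2 J t k hJ htt hcomm hζ₃J' hk1 hk'.1 hk'.2
      (hinv k hk) g hgk
  rw [hK1] at h60
  exact Cfsg.Agent.S0494.result (by rw [h60]; norm_num)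

end Cfsg.Agent.H4.Br
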