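import Mathlib
import Cfsg.Agent.H2.BrDefs
import Cfsg.Agent.H81.Reg
import Cfsg.Agent.H37.NoSimplePaqb
import Cfsg.Agent.S0494
import Cfsg.Agent.S0495

/-!
Piece S4501-ASM2: the assembly for simple groups of order `3 p^a q^b`, `a ≤ 2`.
-/

set_option autoImplicit false

namespace Cfsg.Agent.H4.Br

open Cfsg Cfsg.Agent.H2.Br

universe u

theorem exc3Data_swap {G : Type u} [Group G] {z : G} {χa χb : IrrCharacter G} {sa sb : ℤ}
    (h : Exc3Data G z χa χb sa sb) : Exc3Data G z χb χa sb sa := by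
  obtain ⟨h1, h2, h3, h4, h5, h6, h7, h8, h9, h10, h11⟩ := h
  refine ⟨h2, h1, fun e => h3 e.symm, h5, h4, h7, h6, h9, h8,
    fun χ hχ hb ha => h10 χ hχ ha hb, fun g hg => ?_⟩
  rw [← h11 g hg]
  ring

theorem part2 (hP1 : StmtPart1.{u}) (hF : StmtFaith.{u}) (hE : StmtExc3.{u})
    (hFo : StmtFormula3.{u}) (hA : StmtArith3) (hS : StmtSmallP.{u}) (hCI : StmtCentralInv.{u})
    (hN : StmtNoSix.{u}) (hZ : StmtZ3.{u}) (hT : StmtTwoOdd.{u}) : StmtPart2.{u} := by
  intro G _ _ _ hnab p q a b hp hq hpq ha hcard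
  have hnp : ¬ (Nat.card G).Prime := by
    intro hprime
    have hfact : Fact (Nat.card G).Prime := ⟨hprime⟩
    have hc : IsCyclic G := isCyclic_of_prime_card rfl
    obtain ⟨x, y, hxy⟩ := hnab
    obtain ⟨g, hg⟩ := hc.exists_generator
    obtain ⟨m, rfl⟩ := Subgroup.mem_zpowers_iff.mp (hg x)
    obtain ⟨n, rfl⟩ := Subgroup.mem_zpowers_iff.mp (hg y)
    exact hxy (by rw [← zpow_add, ← zpow_add, add_comm])
  -- Burnside
  have hp3 : p ≠ 3 := by
    rintro rfl
    exact Cfsg.Agent.H37.NS.no_simple_of_paqb 3 q (a + 1) b hp hq (by rw [hcard]; ring) hnp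
  have hq3 : q ≠ 3 := by
    rintro rfl
    exact Cfsg.Agent.H37.NS.no_simple_of_paqb p 3 a (b + 1) hp hq (by rw [hcard]; ring) hnp
  have ha0 : a ≠ 0 := by
    rintro rfl
    exact Cfsg.Agent.H37.NS.no_simple_of_paqb 3 q 1 b Nat.prime_three hq
      (by rw [hcard]; ring) hnp
  have hb0 : b ≠ 0 := by
    rintro rfl
    exact Cfsg.Agent.H37.NS.no_simple_of_paqb 3 p 1 a Nat.prime_three hp
      (by rw [hcard]; ring) hnp
  obtain ⟨z, hz, hCz, hreal, h2⟩ := hZ G hnab p q a b hp hq hpq hp3 hq3 hcard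
  have hpq2 : p = 2 ∨ q = 2 := by
    have h2' := h2
    rw [hcard] at h2'
    rcases (Nat.Prime.dvd_mul Nat.prime_two).mp h2' with h | h
    · rcases (Nat.Prime.dvd_mul Nat.prime_two).mp h with h' | h'
      · exact absurd h' (by norm_num)
      · left
        exact ((Nat.prime_dvd_prime_iff_eq Nat.prime_two hp).mp
          (Nat.prime_two.dvd_of_dvd_pow h')).symm
    · right
      exact ((Nat.prime_dvd_prime_iff_eq Nat.prime_two hq).mp
        (Nat.prime_two.dvd_of_dvd_pow h)).symm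
  rcases hpq2 with rfl | rfl
  · -- `p = 2`
    have hq2 : q ≠ 2 := fun h => hpq h.symm
    have ha12 : a = 1 ∨ a = 2 := by omega
    rcases ha12 with rfl | rfl
    · exfalso
      have h4 := hT G hnab h2
      rw [hcard] at h4
      have hodd : Odd (q ^ b) := (hq.odd_of_ne_two hq2).pow
      obtain ⟨m, hm⟩ := hodd
      rw [hm] at h4
      omega
    · left
      exact hP1 G hnab 3 q 1 b Nat.prime_three hq (fun h => hq3 h.symm) (by norm_num)
        (by rw [hcard]; ring)
  · -- `q = 2`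
    have hp2 : p ≠ 2 := hpq
    have hlt := hS G hnab p a b hp hp2 hp3 (Nat.one_le_iff_ne_zero.mpr ha0) ha hcard
    obtain ⟨χa, χb, sa, sb, hdata⟩ := hE G z hz hCz hreal
    obtain ⟨J, hJ, hJc⟩ := hCI G h2
    have h9 : ¬ 9 ∣ Nat.card G := by
      rw [hcard]
      intro h
      have h3 : 3 ∣ p ^ a * 2 ^ b := by
        have h' : 3 * 3 ∣ 3 * (p ^ a * 2 ^ b) := by
          rw [← mul_assoc]
          exact h
        exact (Nat.mul_dvd_mul_iff_left (by norm_num)).mp h'
      rcases (Nat.Prime.dvd_mul Nat.prime_three).mp h3 with h' | h'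
      · exact hp3 ((Nat.prime_dvd_prime_iff_eq Nat.prime_three hp).mp
          (Nat.prime_three.dvd_of_dvd_pow h')).symm
      · have h'' := (Nat.prime_dvd_prime_iff_eq Nat.prime_three Nat.prime_two).mp
          (Nat.prime_three.dvd_of_dvd_pow h')
        omega
    have hno3 := hN G z J hz hCz h9 hJ
    obtain ⟨u, -, hu1, hu2, hform1⟩ := hFo G hnab z J hz hCz hreal hJ χa χb sa sb hdata
    obtain ⟨w, -, hw1, hw2, hform2⟩ :=
      hFo G hnab z J hz hCz hreal hJ χb χa sb sa (exc3Data_swap hdata)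
    obtain ⟨ha1, hb1, -, hsa, hsb, -, -, h3a, h3b, -, hrel⟩ := hdata
    have hA1 := (hF G hnab χa ha1).1
    have hB1 := (hF G hnab χb hb1).1
    have hAd := Cfsg.Agent.H81.irr_charDegree_dvd χa
    have hBd := Cfsg.Agent.H81.irr_charDegree_dvd χb
    rw [hcard] at hAd hBd
    have hz1 : ¬ IsConj (1 : G) z := by
      intro h
      have h' : z = 1 := isConj_one_right.mp h
      rw [h', orderOf_one] at hz
      omega
    have hrel1 := hrel 1 hz1
    rw [(Cfsg.Agent.H81.irr_charDegree χa).1, (Cfsg.Agent.H81.irr_charDegree χb).1] at hrel1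
    have hrelZ : 1 + sa * (charDegree (χa : G → ℂ) : ℤ) + sb * (charDegree (χb : G → ℂ) : ℤ)
        = 0 := by
      exact_mod_cast hrel1
    have hn3A : ¬ 3 ∣ charDegree (χa : G → ℂ) := by
      intro h
      obtain ⟨m, hm⟩ := h
      obtain ⟨k, hk⟩ := h3a
      rcases hsa with rfl | rfl <;> omega
    have hn3B : ¬ 3 ∣ charDegree (χb : G → ℂ) := by
      intro h
      obtain ⟨m, hm⟩ := h
      obtain ⟨k, hk⟩ := h3b
      rcases hsb with rfl | rfl <;> omega
    have hc0d : Nat.card (Subgroup.centralizer ({J} : Set G)) ∣ 3 * p ^ a * 2 ^ b := by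
      rw [← hcard]
      exact Subgroup.card_subgroup_dvd_card _
    have h2b : 2 ^ b ∣ Nat.card (Subgroup.centralizer ({J} : Set G)) :=
      hJc b (by rw [hcard]; exact Dvd.intro_left _ rfl)
    have hfin := hA p a b hp hp2 hp3 hlt ha (charDegree (χa : G → ℂ)) (charDegree (χb : G → ℂ))
      (Nat.card (Subgroup.centralizer ({J} : Set G))) sa sb u w hsa hsb hAd hBd hA1 hB1 hn3A hn3B
      hrelZ hc0d h2b hno3 hu1 hu2 hw1 hw2 (by rw [← hcard]; exact hform1)
      (by rw [← hcard, hform2]; ring)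
    rcases hfin with h60 | h168
    · left
      exact Cfsg.Agent.S0494.result (by rw [hcard]; exact h60)
    · right
      have hfact : Fact (Nat.Prime 7) := ⟨by norm_num⟩
      exact Cfsg.Agent.S0495.result (by rw [hcard]; exact h168) (ZMod.card 7)

end Cfsg.Agent.H4.Br
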