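import Mathlib
import Cfsg.Prelude.Def_Characters
import Cfsg.Agent.H4.Brauer

set_option autoImplicit false
set_option linter.unusedSectionVars false
set_option linter.style.haveILetI false

namespace Cfsg.Agent.H4

open Module Representation

universe u v w

open scoped ComplexConjugate commutatorElement

section BrauerExtra

variable {G : Type u} [Group G]

theorem neg_list_sum' [Fintype G] (l : List ((E : Subgroup G) × ((E → ℂ) × ℤ))) :
    -(l.map fun t => (t.2.2 : ℂ) • indFun t.1 t.2.1).sum =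
      ((l.map fun t : (E : Subgroup G) × ((E → ℂ) × ℤ) => (⟨t.1, t.2.1, -t.2.2⟩ :
        (E : Subgroup G) × ((E → ℂ) × ℤ))).map
        fun t => (t.2.2 : ℂ) • indFun t.1 t.2.1).sum := by
  induction l with
  | nil => simp
  | cons t l ih =>
    rw [List.map_cons, List.sum_cons, neg_add, ih, List.map_cons, List.map_cons, List.sum_cons]
    congr 1
    simp

theorem exists_list_of_mem_BSpan [Fintype G] {p : ℕ} (f : G → ℂ) (hf : f ∈ BSpan p G) :
    ∃ l : List ((E : Subgroup G) × ((E → ℂ) × ℤ)),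
      (∀ t ∈ l, IsElementary p t.1 ∧ IsCharacter t.1 t.2.1) ∧
      f = (l.map fun t => (t.2.2 : ℂ) • indFun t.1 t.2.1).sum := by
  unfold BSpan at hf
  induction hf using AddSubgroup.closure_induction with
  | mem f hf =>
    obtain ⟨E, lam, hE, rfl⟩ := hf
    refine ⟨[⟨E, (fun e => ((lam e : ℂˣ) : ℂ)), 1⟩], ?_, ?_⟩
    · intro t ht; rw [List.mem_singleton] at ht; subst ht
      exact ⟨hE, isCharacter_of_hom lam⟩
    · simp
  | zero => exact ⟨[], by simp, by simp⟩
  | add a b _ _ iha ihb =>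
    obtain ⟨l₁, h₁, rfl⟩ := iha
    obtain ⟨l₂, h₂, rfl⟩ := ihb
    refine ⟨l₁ ++ l₂, ?_, ?_⟩
    · intro t ht
      rcases List.mem_append.mp ht with h | h
      exacts [h₁ t h, h₂ t h]
    · rw [List.map_append, List.sum_append]
  | neg a _ iha =>
    obtain ⟨l, h, rfl⟩ := iha
    refine ⟨l.map (fun t => ⟨t.1, t.2.1, -t.2.2⟩), ?_, neg_list_sum' l⟩
    intro t ht
    obtain ⟨t', ht', rfl⟩ := List.mem_map.mp ht
    exact h t' ht'

/-- Local form of Brauer's induction theorem, list form. -/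
theorem brauer_local [Fintype G] (p : ℕ) (hp : p.Prime) :
    ∃ (m : ℤ) (l : List ((E : Subgroup G) × ((E → ℂ) × ℤ))), ¬ (p : ℤ) ∣ m ∧
      (∀ t ∈ l, IsElementary p t.1 ∧ IsCharacter t.1 t.2.1) ∧
      (fun _ : G => (m : ℂ)) = (l.map fun t => (t.2.2 : ℂ) • indFun t.1 t.2.1).sum := by
  obtain ⟨m, hm, h⟩ := exists_smul_mem_BSpan hp (fun _ : G => (1 : ℂ))
    (isCharacter_of_isIrrCharacter isIrrCharacter_one)
  obtain ⟨l, hl, hsum⟩ := exists_list_of_mem_BSpan _ h
  refine ⟨m, l, hm, hl, ?_⟩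
  rw [← hsum]
  funext g
  simp

/-- Irreducible characters of finite nilpotent groups are monomial. -/
theorem monomial_of_nilpotent : ∀ (n : ℕ) (G : Type u) [Group G] [Fintype G]
    [Group.IsNilpotent G], Nat.card G = n → ∀ χ : G → ℂ, IsIrrCharacter G χ →
    ∃ (H : Subgroup G) (lam : H →* ℂˣ), χ = indFun H (fun h => ((lam h : ℂˣ) : ℂ)) := by
  intro n
  induction n using Nat.strong_induction_on with
  | _ n ih =>
    intro G _ _ _ hn χ hχ
    by_cases h1 : χ 1 = 1
    · obtain ⟨lamχ, hlamχ⟩ := exists_hom_of_linear (isCharacter_of_isIrrCharacter hχ) h1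
      refine ⟨⊤, lamχ.comp (⊤ : Subgroup G).subtype, ?_⟩
      have := indFun_top χ (irr_isClassFunction ⟨χ, hχ⟩)
      rw [← this, hlamχ]
      rfl
    · obtain ⟨m, ρ, hρ, rfl⟩ := hχ
      haveI := hρ
      have hpos := finrank_pos_of_irreducible ρ
      have hdim : 1 < finrank ℂ (Fin m → ℂ) := by
        rw [Representation.char_one] at h1
        have : finrank ℂ (Fin m → ℂ) ≠ 1 := fun h => h1 (by rw [h]; simp)
        omega
      obtain ⟨T, ψ, hT, hψ, hχeq⟩ := exists_induced_of_nilpotent ρ hdim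
      haveI : Fintype T := Fintype.ofFinite T
      have hcard : Nat.card T < n := by
        rw [← hn]
        exact lt_of_le_of_ne (Subgroup.card_le_card_group T)
          (fun h => hT (Subgroup.eq_top_of_card_eq T h))
      obtain ⟨H', lam', hψeq⟩ := ih (Nat.card T) hcard T rfl ψ hψ
      refine ⟨H'.map T.subtype,
        lam'.comp (H'.equivMapOfInjective T.subtype T.subtype_injective).symm.toMonoidHom, ?_⟩
      rw [hχeq, hψeq, indFun_indFun]
      rfl

end BrauerExtra

end Cfsg.Agent.H4
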