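import Mathlib
import Cfsg.Prelude.Def_Characters
import Cfsg.Agent.H4.IrrCount

set_option autoImplicit false
set_option linter.unusedSectionVars false
set_option linter.style.haveILetI false

namespace Cfsg.Agent.H4

open Module Representation Polynomial

universe u v w

open scoped ComplexConjugate

section BB

variable {G : Type u} [Group G]

/-- The Burnside–Brauer theorem. -/
theorem burnside_brauer [Fintype G] {V : Type v} [AddCommGroup V] [Module ℂ V]
    [FiniteDimensional ℂ V] (ρ : Representation ℂ G V) (hfaithful : Function.Injective ρ)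
    (ψ : G → ℂ) (hψ : IsIrrCharacter G ψ) :
    ∃ i : ℕ, i < Nat.card (Set.range ρ.character) ∧
      classInner (fun g => ρ.character g ^ i) ψ ≠ 0 := by
  classical
  by_contra hcon
  push Not at hcon
  set S : Finset ℂ := Finset.univ.image ρ.character with hS
  have hcard : Nat.card (Set.range ρ.character) = S.card := by
    have : Set.range ρ.character = (S : Set ℂ) := by
      rw [hS]; simp
    rw [this, Nat.card_coe_set_eq, Set.ncard_coe_finset]
  have hN : (Nat.card G : ℂ) ≠ 0 := (neZero_card_complex G).out
  have hzero : ∀ i : ℕ, i < S.card → ∑ g : G, ρ.character g ^ i * conj (ψ g) = 0 := by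
    intro i hi
    have h := hcon i (by rw [hcard]; exact hi)
    unfold classInner at h
    exact (mul_eq_zero.mp h).resolve_left (inv_ne_zero hN)
  set P : ℂ[X] := ∏ a ∈ S.erase (ρ.character 1), (X - C a) with hP
  have h1S : ρ.character 1 ∈ S := Finset.mem_image_of_mem _ (Finset.mem_univ _)
  have hdeg : P.natDegree < S.card := by
    rw [hP, Polynomial.natDegree_finsetProd_X_sub_C_eq_card, Finset.card_erase_of_mem h1S]
    exact Nat.sub_lt (Finset.card_pos.mpr ⟨_, h1S⟩) one_pos
  have hsum0 : ∑ g : G, P.eval (ρ.character g) * conj (ψ g) = 0 := by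
    simp only [Polynomial.eval_eq_sum_range, Finset.sum_mul]
    rw [Finset.sum_comm]
    refine Finset.sum_eq_zero fun i hi => ?_
    simp only [mul_assoc]
    rw [← Finset.mul_sum, hzero i (lt_of_le_of_lt (Nat.lt_succ_iff.mp (Finset.mem_range.mp hi)) hdeg),
      mul_zero]
  have hsum1 : ∑ g : G, P.eval (ρ.character g) * conj (ψ g) =
      P.eval (ρ.character 1) * conj (ψ 1) := by
    refine Finset.sum_eq_single 1 (fun g _ hg => ?_) (fun h => absurd (Finset.mem_univ _) h)
    have hne : ρ.character g ≠ ρ.character 1 := by
      intro h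
      rw [Representation.char_one] at h
      have h2 := (character_eq_finrank_iff ρ g).mp h
      apply hg
      apply hfaithful
      rw [h2, map_one]; rfl
    have hmem : ρ.character g ∈ S.erase (ρ.character 1) :=
      Finset.mem_erase.mpr ⟨hne, Finset.mem_image_of_mem _ (Finset.mem_univ _)⟩
    rw [hP, Polynomial.eval_prod, Finset.prod_eq_zero hmem (by simp), zero_mul]
  rw [hsum1] at hsum0
  rcases mul_eq_zero.mp hsum0 with h | h
  · rw [hP, Polynomial.eval_prod, Finset.prod_eq_zero_iff] at h
    obtain ⟨a, ha, h0⟩ := h
    simp only [eval_sub, eval_X, eval_C, sub_eq_zero] at h0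
    exact (Finset.mem_erase.mp ha).1 h0.symm
  · have := irr_one_ne_zero (⟨ψ, hψ⟩ : IrrCharacter G)
    exact this ((map_eq_zero _).mp h)

end BB

end Cfsg.Agent.H4
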