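import Cfsg.Agent.H87.CrDefs

/-!
Core of piece CR-NORM of S5141 (Craven's theorem): from a map fixing `P` elementwise to a map
fixing `N_T(P)` elementwise, after passing to a `p`-power iterate.  The pieces CR-STEP and
CR-BAR (`bar_iter`) enter as hypotheses.
-/

set_option autoImplicit false

namespace Cfsg.Agent.H4.Cr

open Cfsg Cfsg.FusionSystem Cfsg.Agent.H86 Cfsg.Agent.H87 Cfsg.Agent.H87.Cr

variable {Ω : Type*} [Group Ω] {S T : Subgroup Ω}

theorem fix_normalizer_core [Finite S] {p : ℕ} [Fact p.Prime] (hS : IsPGroup p S)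
    {F : FusionSystem S} {E : FusionSystem T} (hE : E.IsWeaklyNormalIn F p)
    {P : Subgroup Ω} (hP : E.IsCentric P) {b : Ω → Ω} (h : Fix F T P b)
    (hStep : ∀ {k : Ω → Ω}, Mor F (P ⊔ centralizerIn S T) k → (∀ x ∈ P, k x = x) →
      ∃ k₁, Mor F (normalizerIn T P ⊔ centralizerIn S T) k₁ ∧
        (∀ y ∈ P ⊔ centralizerIn S T, k₁ y = k y) ∧ ∀ n ∈ normalizerIn T P, n⁻¹ * k₁ n ∈ P)
    (hIter : ∀ {k : Ω → Ω}, Bar F T (normalizerIn T P) k b →
      ∀ n : ℕ, Bar F T (normalizerIn T P) (k^[n]) (b^[n])) :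
    ∃ j : ℕ, Fix F T (normalizerIn T P) (b^[p ^ j]) := by
  obtain ⟨k, ⟨hk, -, hkc⟩, hkfix⟩ := h
  obtain ⟨k₁, hk₁, hk₁k, hk₁n⟩ := hStep hk hkfix
  have hPT : P ≤ T := hP.1
  have hTS : T ≤ S := hE.2.2.2.1.1
  have hPN : P ≤ normalizerIn T P := Cfsg.Agent.H86.le_normalizerIn hPT
  have hbar : Bar F T (normalizerIn T P) k₁ b := by
    refine ⟨hk₁, fun x hx => ?_, fun c hc => ?_⟩
    · have h1 : k₁ x = x * (x⁻¹ * k₁ x) := by group
      rw [h1]
      exact mul_mem hx (hPN (hk₁n x hx))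
    · rw [hk₁k c (Subgroup.mem_sup_right hc)]
      exact hkc c hc
  have hfin : Finite P := finite_of_le (hPT.trans hTS)
  have hPp : IsPGroup p P := hS.to_le (hPT.trans hTS)
  obtain ⟨j, hj⟩ := IsPGroup.iff_card.mp hPp
  refine ⟨j, k₁^[p ^ j], hIter hbar (p ^ j), fun x hx => ?_⟩
  have hz : x⁻¹ * k₁ x ∈ P := hk₁n x hx
  have hzfix : ∀ i : ℕ, k₁ ((x⁻¹ * k₁ x) ^ i) = (x⁻¹ * k₁ x) ^ i := by
    intro i
    have h1 : (x⁻¹ * k₁ x) ^ i ∈ P := pow_mem hz i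
    rw [hk₁k _ (Subgroup.mem_sup_left h1), hkfix _ h1]
  have hiter : ∀ i : ℕ, k₁^[i] x = x * (x⁻¹ * k₁ x) ^ i := by
    intro i
    induction i with
    | zero => simp
    | succ i ih =>
      rw [Function.iterate_succ_apply', ih,
        hk₁.map_mul (Subgroup.mem_sup_left hx) (Subgroup.mem_sup_left (hPN (pow_mem hz i))),
        hzfix, pow_succ', ← mul_assoc, mul_inv_cancel_left]
  rw [hiter, ← hj]
  have h1 : (⟨x⁻¹ * k₁ x, hz⟩ : P) ^ Nat.card P = 1 := pow_card_eq_one'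
  have h2 : (x⁻¹ * k₁ x) ^ Nat.card P = 1 := by
    have h3 := congrArg Subtype.val h1
    rw [Subgroup.coe_pow, Subgroup.coe_one] at h3
    exact h3
  rw [h2, mul_one]

end Cfsg.Agent.H4.Cr
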