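import Cfsg.Agent.H87.CrDefs
import Cfsg.Agent.H88.Subnormal

/-!
Core of piece CR-STEP of S5141 (Craven's theorem): the extension step from `P C_S(T)` to
`N_T(P) C_S(T)` for arbitrary `E`-centric `P`, by transport to a fully normalized conjugate.
The pieces CR-IMG and CR-STEPFN enter as hypotheses.
-/

set_option autoImplicit false

namespace Cfsg.Agent.H4.Cr

open Cfsg Cfsg.FusionSystem Cfsg.Agent.H86 Cfsg.Agent.H87 Cfsg.Agent.H87.Cr

variable {Ω : Type*} [Group Ω] {S T : Subgroup Ω}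

theorem fix_step_core [Finite S] {p : ℕ} [Fact p.Prime] (hS : IsPGroup p S)
    {F : FusionSystem S} {E : FusionSystem T} (hE : E.IsWeaklyNormalIn F p)
    (hImg : ∀ {P : Subgroup Ω}, E.IsCentric P → ∀ {l : Ω → Ω},
      Mor F (P ⊔ centralizerIn S T) l →
      (∀ c ∈ centralizerIn S T, ∃ x ∈ centralizerIn S T, x⁻¹ * l c ∈ imgS P l) ∧
        imgS (P ⊔ centralizerIn S T) l = imgS P l ⊔ centralizerIn S T)
    (hFn : ∀ {P : Subgroup Ω}, E.IsCentric P →
      F.IsFullyNormalized (P ⊔ centralizerIn S T) → ∀ {k : Ω → Ω},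
      Mor F (P ⊔ centralizerIn S T) k → (∀ x ∈ P, k x = x) →
      ∃ k₁, Mor F (normalizerIn T P ⊔ centralizerIn S T) k₁ ∧
        (∀ y ∈ P ⊔ centralizerIn S T, k₁ y = k y) ∧ ∀ n ∈ normalizerIn T P, n⁻¹ * k₁ n ∈ P)
    {P : Subgroup Ω} (hP : E.IsCentric P) {k : Ω → Ω}
    (hk : Mor F (P ⊔ centralizerIn S T) k) (hkP : ∀ x ∈ P, k x = x) :
    ∃ k₁, Mor F (normalizerIn T P ⊔ centralizerIn S T) k₁ ∧
      (∀ y ∈ P ⊔ centralizerIn S T, k₁ y = k y) ∧ ∀ n ∈ normalizerIn T P, n⁻¹ * k₁ n ∈ P := by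
  have hTS : T ≤ S := hE.2.2.2.1.1
  have hsc := stronglyClosed_iff.1 hE.2.2.2.1
  have hFsat : F.IsSaturated p := hE.2.1
  have hPT : P ≤ T := hP.1
  have hYS : P ⊔ centralizerIn S T ≤ S := hk.le
  have hPN : P ≤ normalizerIn T P := Cfsg.Agent.H86.le_normalizerIn hPT
  have hNT : normalizerIn T P ≤ T := inf_le_left
  -- the fully normalized conjugate
  obtain ⟨Y', hconj, hY'fn⟩ := exists_fullyNormalized_conj F hYS
  obtain ⟨ζ, hζ, -, hζimg⟩ :=
    Cfsg.Agent.H88.exists_normalizer_map_of_fullyNormalized hS hFsat hY'fn hconj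
  have hYN : P ⊔ centralizerIn S T ≤ normalizerIn S (P ⊔ centralizerIn S T) :=
    Cfsg.Agent.H86.le_normalizerIn hYS
  have hζY : Mor F (P ⊔ centralizerIn S T) ζ := hζ.restrict hYN
  have hζP : Mor F P ζ := hζY.restrict le_sup_left
  obtain ⟨himg1, himg2⟩ := hImg hP hζY
  have hPs : E.IsCentric (imgS P ζ) := centric_img hE hP hζP
  have hfn : F.IsFullyNormalized (imgS P ζ ⊔ centralizerIn S T) := by
    rw [← himg2, hζimg]
    exact hY'fn
  -- `k` stabilizes `P C_S(T)`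
  have hkY : ∀ y ∈ P ⊔ centralizerIn S T, k y ∈ P ⊔ centralizerIn S T := by
    intro y hy
    have h1 : k y ∈ imgS (P ⊔ centralizerIn S T) k := hk.mem_imgS_of_mem hy
    rw [(hImg hP hk).2, Mor.imgS_congr (hk.restrict le_sup_left) hkP, Mor.imgS_id] at h1
    exact h1
  -- the transported map
  have hks : Mor F (imgS P ζ ⊔ centralizerIn S T) (ζ ∘ (k ∘ invOn (P ⊔ centralizerIn S T) ζ)) := by
    rw [← himg2]
    exact (hζY.inv.comp hk (fun y hy => hζY.invOn_mem hy)).comp hζY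
      (fun y hy => hkY _ (hζY.invOn_mem hy))
  have hksζ : ∀ y ∈ P ⊔ centralizerIn S T,
      (ζ ∘ (k ∘ invOn (P ⊔ centralizerIn S T) ζ)) (ζ y) = ζ (k y) := by
    intro y hy
    show ζ (k (invOn (P ⊔ centralizerIn S T) ζ (ζ y))) = ζ (k y)
    rw [invOn_apply hζY.injOn hy]
  have hksfix : ∀ x ∈ imgS P ζ, (ζ ∘ (k ∘ invOn (P ⊔ centralizerIn S T) ζ)) x = x := by
    intro y hy
    obtain ⟨x, hx, rfl⟩ := hζP.mem_imgS.1 hy
    rw [hksζ x (Subgroup.mem_sup_left hx), hkP x hx]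
  obtain ⟨k₁', hk₁', hk₁'k, hk₁'n⟩ := hFn hPs hfn hks hksfix
  -- the domain of the new map lies in the domain of `ζ`
  have hcX : ∀ c ∈ centralizerIn S T, ∀ n ∈ T, n * c * n⁻¹ = c := by
    intro c hc n hn
    rw [(mem_centralizerIn_iff.1 hc).2 n hn, mul_inv_cancel_right]
  have hNnorm : ∀ n ∈ normalizerIn T P, n ∈ normalizerIn S (P ⊔ centralizerIn S T) := by
    intro n hn
    have hnT : n ∈ T := hNT hn
    have hnP : n ∈ Subgroup.normalizer (P : Set Ω) := (mem_normalizerIn_iff.1 hn).2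
    have key : ∀ m ∈ normalizerIn T P, ∀ y ∈ P ⊔ centralizerIn S T,
        m * y * m⁻¹ ∈ P ⊔ centralizerIn S T := by
      intro m hm y hy
      obtain ⟨x, hx, c, hc, rfl⟩ := mem_sup_cent hPT hy
      have h1 : m * (x * c) * m⁻¹ = (m * x * m⁻¹) * (m * c * m⁻¹) := by group
      rw [h1, hcX c hc m (hNT hm)]
      exact mul_mem (Subgroup.mem_sup_left
        (conj_mem_of_mem_normalizer (mem_normalizerIn_iff.1 hm).2 hx)) (Subgroup.mem_sup_right hc)
    rw [mem_normalizerIn_iff]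
    refine ⟨hTS hnT, mem_normalizer_of_forall_conj_mem (key n hn) (fun y hy => ?_)⟩
    have h1 := key n⁻¹ (inv_mem hn) y hy
    rw [inv_inv] at h1
    exact h1
  have hNX : normalizerIn T P ⊔ centralizerIn S T ≤ normalizerIn S (P ⊔ centralizerIn S T) :=
    sup_le hNnorm (le_sup_right.trans hYN)
  have hζNX : Mor F (normalizerIn T P ⊔ centralizerIn S T) ζ := hζ.restrict hNX
  have hζN : Mor F (normalizerIn T P) ζ := hζNX.restrict le_sup_left
  have hPsN : imgS P ζ ≤ normalizerIn T (imgS P ζ) := Cfsg.Agent.H86.le_normalizerIn hPs.1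
  -- images under `ζ`
  have hζn : ∀ n ∈ normalizerIn T P, ζ n ∈ normalizerIn T (imgS P ζ) := by
    intro n hn
    rw [mem_normalizerIn_iff]
    refine ⟨hsc.2 _ ζ hNT hζN n hn, ?_⟩
    exact hζN.mem_normalizer_imgS hPN (fun g hg => (mem_normalizerIn_iff.1 hg).2) hn
  have hζc : ∀ c ∈ centralizerIn S T, ζ c ∈ imgS P ζ ⊔ centralizerIn S T := by
    intro c hc
    obtain ⟨x, hx, hxc⟩ := himg1 c hc
    have h1 : ζ c = x * (x⁻¹ * ζ c) := by group
    rw [h1]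
    exact mul_mem (Subgroup.mem_sup_right hx) (Subgroup.mem_sup_left hxc)
  have hle : imgS P ζ ⊔ centralizerIn S T ≤ normalizerIn T (imgS P ζ) ⊔ centralizerIn S T :=
    sup_le_sup_right hPsN _
  have hA : ∀ y ∈ normalizerIn T P ⊔ centralizerIn S T,
      ζ y ∈ normalizerIn T (imgS P ζ) ⊔ centralizerIn S T := by
    intro y hy
    obtain ⟨n, hn, c, hc, rfl⟩ := mem_sup_cent hNT hy
    rw [hζNX.map_mul (Subgroup.mem_sup_left hn) (Subgroup.mem_sup_right hc)]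
    exact mul_mem (Subgroup.mem_sup_left (hζn n hn)) (hle (hζc c hc))
  -- the values of `k₁' ∘ ζ`
  have hB1 : ∀ n ∈ normalizerIn T P, ∃ q ∈ P, k₁' (ζ n) = ζ (n * q) := by
    intro n hn
    have h1 := hk₁'n (ζ n) (hζn n hn)
    obtain ⟨q, hq, hqz⟩ := hζP.mem_imgS.1 h1
    refine ⟨q, hq, ?_⟩
    rw [hζNX.map_mul (Subgroup.mem_sup_left hn) (Subgroup.mem_sup_left (hPN hq)), hqz]
    group
  have hB2 : ∀ y ∈ P ⊔ centralizerIn S T, k₁' (ζ y) = ζ (k y) := by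
    intro y hy
    have h1 : ζ y ∈ imgS P ζ ⊔ centralizerIn S T := by
      rw [← himg2]
      exact hζY.mem_imgS_of_mem hy
    rw [hk₁'k _ h1, hksζ y hy]
  have hYNX : P ⊔ centralizerIn S T ≤ normalizerIn T P ⊔ centralizerIn S T :=
    sup_le_sup_right hPN _
  have hB : ∀ y ∈ normalizerIn T P ⊔ centralizerIn S T,
      ∃ w ∈ normalizerIn T P ⊔ centralizerIn S T, k₁' (ζ y) = ζ w := by
    intro y hy
    obtain ⟨n, hn, c, hc, rfl⟩ := mem_sup_cent hNT hy
    obtain ⟨q, hq, hnq⟩ := hB1 n hn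
    have hkc : k c ∈ normalizerIn T P ⊔ centralizerIn S T :=
      hYNX (hkY c (Subgroup.mem_sup_right hc))
    have hnq' : n * q ∈ normalizerIn T P ⊔ centralizerIn S T :=
      Subgroup.mem_sup_left (mul_mem hn (hPN hq))
    refine ⟨n * q * k c, mul_mem hnq' hkc, ?_⟩
    rw [hζNX.map_mul (Subgroup.mem_sup_left hn) (Subgroup.mem_sup_right hc),
      hk₁'.map_mul (Subgroup.mem_sup_left (hζn n hn)) (hle (hζc c hc)), hnq,
      hB2 c (Subgroup.mem_sup_right hc), hζNX.map_mul hnq' hkc]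
  -- the new map
  refine ⟨invOn (normalizerIn S (P ⊔ centralizerIn S T)) ζ ∘ (k₁' ∘ ζ), ?_, ?_, ?_⟩
  · refine (hζNX.comp hk₁' hA).comp hζ.inv (fun y hy => ?_)
    obtain ⟨w, hw, hw'⟩ := hB y hy
    show k₁' (ζ y) ∈ imgS (normalizerIn S (P ⊔ centralizerIn S T)) ζ
    rw [hw']
    exact hζ.mem_imgS_of_mem (hNX hw)
  · intro y hy
    show invOn (normalizerIn S (P ⊔ centralizerIn S T)) ζ (k₁' (ζ y)) = k y
    rw [hB2 y hy, invOn_apply hζ.injOn (hYN (hkY y hy))]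
  · intro n hn
    obtain ⟨q, hq, hnq⟩ := hB1 n hn
    show n⁻¹ * invOn (normalizerIn S (P ⊔ centralizerIn S T)) ζ (k₁' (ζ n)) ∈ P
    rw [hnq, invOn_apply hζ.injOn (hNX (Subgroup.mem_sup_left (mul_mem hn (hPN hq)))),
      inv_mul_cancel_left]
    exact hq

end Cfsg.Agent.H4.Cr
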