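import Mathlib

/-!
# EL-COMPLCOUNT: counting complementary pairs of subspaces

The complements of a fixed subspace `U` correspond to the projections onto `U`, and these to
the linear maps from a fixed complement to `U`; so there are `q ^ ((n - m) * m)` of them.
-/

set_option autoImplicit false

namespace Cfsg.Agent.H4.El

/-- Projections onto `U` correspond to linear maps from a fixed complement `W₀` to `U`. -/
noncomputable def projEquivHom {F : Type*} [Field F] {V : Type*} [AddCommGroup V] [Module F V]
    (U W₀ : Submodule F V) (h : IsCompl U W₀) :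
    {f : V →ₗ[F] U // ∀ x : U, f x = x} ≃ (W₀ →ₗ[F] U) where
  toFun f := f.1.comp W₀.subtype
  invFun φ := ⟨U.projectionOnto W₀ h + φ.comp (W₀.projectionOnto U h.symm), fun x => by
    simp⟩
  left_inv f := by
    apply Subtype.ext
    apply LinearMap.ext
    intro v
    have hv := Submodule.projection_add_projection_eq_self h v
    have h1 : f.1 v = f.1 ((U.projectionOnto W₀ h v : V) + (W₀.projectionOnto U h.symm v : V)) := by
      rw [Submodule.coe_projectionOnto_apply, Submodule.coe_projectionOnto_apply, hv]
    simp only [LinearMap.add_apply, LinearMap.comp_apply, Submodule.subtype_apply]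
    rw [h1, map_add, f.2]
  right_inv φ := by
    apply LinearMap.ext
    intro w
    simp

/-- The number of complements of a subspace. -/
theorem card_compl {F : Type*} [Field F] [Fintype F] {V : Type*} [AddCommGroup V] [Module F V]
    [FiniteDimensional F V] (U : Submodule F V) :
    Nat.card {W : Submodule F V // IsCompl U W} =
      Fintype.card F ^ ((Module.finrank F V - Module.finrank F U) * Module.finrank F U) := by
  obtain ⟨W₀, h₀⟩ := Submodule.exists_isCompl U
  rw [Nat.card_congr ((Submodule.isComplEquivProj U).trans (projEquivHom U W₀ h₀)),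
    Module.natCard_eq_pow_finrank (K := F), Module.finrank_linearMap, Nat.card_eq_fintype_card]
  have := Submodule.finrank_add_eq_of_isCompl h₀
  congr 2
  omega

set_option linter.unusedVariables false in
/-- **EL-COMPLCOUNT.** -/
theorem card_compl_pairs {F : Type*} [Field F] [Fintype F] (n m : ℕ) (hm : m ≤ n) :
    ∃ k : ℕ, Nat.card {P : Submodule F (Fin n → F) × Submodule F (Fin n → F) //
        IsCompl P.1 P.2 ∧ Module.finrank F ↥P.1 = m} =
      Nat.card {W : Submodule F (Fin n → F) // Module.finrank F W = m} * Fintype.card F ^ k := by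
  classical
  refine ⟨(n - m) * m, ?_⟩
  let e : {P : Submodule F (Fin n → F) × Submodule F (Fin n → F) //
        IsCompl P.1 P.2 ∧ Module.finrank F ↥P.1 = m} ≃
      Σ U : {W : Submodule F (Fin n → F) // Module.finrank F W = m},
        {W' : Submodule F (Fin n → F) // IsCompl U.1 W'} :=
    { toFun := fun P => ⟨⟨P.1.1, P.2.2⟩, ⟨P.1.2, P.2.1⟩⟩
      invFun := fun s => ⟨(s.1.1, s.2.1), s.2.2, s.1.2⟩
      left_inv := fun P => rfl
      right_inv := fun s => rfl }
  have : Fintype {W : Submodule F (Fin n → F) // Module.finrank F W = m} := Fintype.ofFinite _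
  rw [Nat.card_congr e, Nat.card_sigma]
  have hU : ∀ U : {W : Submodule F (Fin n → F) // Module.finrank F W = m},
      Nat.card {W' : Submodule F (Fin n → F) // IsCompl U.1 W'} =
        Fintype.card F ^ ((n - m) * m) := by
    intro U
    rw [card_compl U.1, U.2, Module.finrank_fin_fun]
  rw [Finset.sum_congr rfl (fun U _ => hU U), Finset.sum_const, Finset.card_univ,
    Nat.card_eq_fintype_card, smul_eq_mul]

end Cfsg.Agent.H4.El

section check
example {F : Type*} [Field F] [Fintype F] (n m : ℕ) (hm : m ≤ n) :
    ∃ k : ℕ, Nat.card {P : Submodule F (Fin n → F) × Submodule F (Fin n → F) //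
        IsCompl P.1 P.2 ∧ Module.finrank F ↥P.1 = m} =
      Nat.card {W : Submodule F (Fin n → F) // Module.finrank F W = m} * Fintype.card F ^ k :=
  Cfsg.Agent.H4.El.card_compl_pairs n m hm
end check
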