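import Mathlib

/-!
# EL-JORDAN: cyclic decomposition of a nilpotent endomorphism, packaged

A nonzero invariant subspace `Y` of a nilpotent endomorphism `N` splits off an invariant cyclic
summand `Z` (spanned by `v, N v, …`) with an invariant complement inside `Y`; iterating gives the
multiset of block sizes, and every sub-multiset is realised by a pair of complementary invariant
subspaces.
-/

set_option autoImplicit false

namespace Cfsg.Agent.H4.El

/-- A nonzero invariant subspace of a nilpotent endomorphism splits off an invariant cyclic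
summand of dimension at most the nilpotency exponent. -/
theorem exists_cyclic_summand {F : Type*} [Field F] {V : Type*} [AddCommGroup V] [Module F V]
    [FiniteDimensional F V] (N : Module.End F V) (p : ℕ) (hN : N ^ p = 0)
    (Y : Submodule F V) (hY : ∀ v ∈ Y, N v ∈ Y) (hbot : Y ≠ ⊥) :
    ∃ Z Y' : Submodule F V, Disjoint Z Y' ∧ Z ⊔ Y' = Y ∧ (∀ v ∈ Z, N v ∈ Z) ∧
      (∀ v ∈ Y', N v ∈ Y') ∧ 0 < Module.finrank F Z ∧ Module.finrank F Z ≤ p := by
  classical
  have hex : ∃ e : ℕ, ∀ y ∈ Y, (N ^ e) y = 0 := ⟨p, fun y _ => by rw [hN]; rfl⟩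
  obtain ⟨e, he, hemin⟩ : ∃ e : ℕ, (∀ y ∈ Y, (N ^ e) y = 0) ∧
      ∀ e' < e, ¬ ∀ y ∈ Y, (N ^ e') y = 0 :=
    ⟨Nat.find hex, Nat.find_spec hex, fun e' he' => Nat.find_min hex he'⟩
  have hep : e ≤ p := by
    by_contra hlt
    exact hemin p (by omega) (fun y _ => by rw [hN]; rfl)
  obtain ⟨y₀, hy₀, hy₀0⟩ := (Submodule.ne_bot_iff Y).1 hbot
  have he0 : e ≠ 0 := by
    intro h0
    have := he y₀ hy₀
    rw [h0, pow_zero] at this
    exact hy₀0 this
  obtain ⟨e', he'⟩ := Nat.exists_eq_succ_of_ne_zero he0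
  have hmin := hemin e' (by omega)
  obtain ⟨v, hvY, hv⟩ : ∃ v ∈ Y, (N ^ e') v ≠ 0 := by
    by_contra hcon
    exact hmin (fun y hy => by_contra (fun h => hcon ⟨y, hy, h⟩))
  obtain ⟨φ, hφ⟩ : ∃ φ : Module.Dual F V, φ ((N ^ e') v) ≠ 0 := by
    by_contra hcon
    exact hv ((Module.forall_dual_apply_eq_zero_iff F _).1
      (fun φ => by_contra (fun h => hcon ⟨φ, h⟩)))
  have hpowY : ∀ (j : ℕ) (y : V), y ∈ Y → (N ^ j) y ∈ Y := by
    intro j
    induction j with
    | zero => intro y hy; simpa using hy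
    | succ j ih => intro y hy; rw [pow_succ', Module.End.mul_apply]; exact hY _ (ih y hy)
  have hkill : ∀ (j : ℕ), e ≤ j → ∀ y ∈ Y, (N ^ j) y = 0 := by
    intro j hj y hy
    obtain ⟨t, rfl⟩ := Nat.exists_eq_add_of_le hj
    rw [pow_add, Module.End.mul_apply]
    exact he _ (hpowY t y hy)
  let Ψ : (Fin e → F) →ₗ[F] V := Fintype.linearCombination F (fun j : Fin e => (N ^ (j : ℕ)) v)
  let Φ : V →ₗ[F] (Fin e → F) := LinearMap.pi (fun j : Fin e => φ ∘ₗ (N ^ (j : ℕ)))
  have hΨ : ∀ c, Ψ c = ∑ j, c j • (N ^ (j : ℕ)) v := fun c => rfl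
  have hΦ : ∀ w (j : Fin e), Φ w j = φ ((N ^ (j : ℕ)) w) := fun w j => rfl
  have hZ : LinearMap.range Ψ = Submodule.span F (Set.range fun j : Fin e => (N ^ (j : ℕ)) v) :=
    Fintype.range_linearCombination F _
  have hΦΨ : ∀ c (m : Fin e), Φ (Ψ c) m = ∑ j : Fin e, c j * φ ((N ^ ((m : ℕ) + j)) v) := by
    intro c m
    rw [hΦ, hΨ, map_sum, map_sum]
    refine Finset.sum_congr rfl (fun j _ => ?_)
    rw [map_smul, map_smul, smul_eq_mul, pow_add, Module.End.mul_apply]
  have hinj : Function.Injective (Φ ∘ₗ Ψ) := by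
    rw [← LinearMap.ker_eq_bot, LinearMap.ker_eq_bot']
    intro c hc
    have hc' : ∀ m : Fin e, ∑ j : Fin e, c j * φ ((N ^ ((m : ℕ) + j)) v) = 0 := by
      intro m
      rw [← hΦΨ]
      exact congrFun hc m
    have key : ∀ (k : ℕ) (hk : k < e), c ⟨k, hk⟩ = 0 := by
      intro k
      induction k using Nat.strong_induction_on with
      | _ k ih =>
        intro hk
        have hm : e' - k < e := by omega
        have h1 := hc' ⟨e' - k, hm⟩
        rw [Finset.sum_eq_single ⟨k, hk⟩] at h1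
        · have h2 : e' - k + k = e' := by omega
          simp only [h2] at h1
          exact (mul_eq_zero.1 h1).resolve_right hφ
        · intro j _ hj
          have hjk : (j : ℕ) ≠ k := fun h => hj (Fin.ext h)
          rcases lt_or_gt_of_ne hjk with hlt | hgt
          · have := ih j hlt j.2
            rw [this, zero_mul]
          · rw [hkill _ (by simp only; omega) v hvY, map_zero, mul_zero]
        · intro h; exact absurd (Finset.mem_univ _) h
    funext j
    exact key j j.2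
  have hsurj : Function.Surjective (Φ ∘ₗ Ψ) := LinearMap.injective_iff_surjective.1 hinj
  have hΨY : ∀ c, Ψ c ∈ Y := by
    intro c
    rw [hΨ]
    exact Submodule.sum_mem _ (fun j _ => Submodule.smul_mem _ _ (hpowY _ v hvY))
  refine ⟨LinearMap.range Ψ, Y ⊓ LinearMap.ker Φ, ?_, ?_, ?_, ?_, ?_, ?_⟩
  · rw [Submodule.disjoint_def]
    rintro z ⟨c, rfl⟩ ⟨-, hz⟩
    have h0 : (Φ ∘ₗ Ψ) c = 0 := hz
    have hc0 : c = 0 := hinj (by rw [h0, map_zero])
    rw [hc0, map_zero]
  · apply le_antisymm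
    · refine sup_le ?_ inf_le_left
      rintro z ⟨c, rfl⟩
      exact hΨY c
    · intro y hy
      obtain ⟨c, hc⟩ := hsurj (Φ y)
      have hsplit : y = Ψ c + (y - Ψ c) := by abel
      rw [hsplit]
      refine Submodule.add_mem_sup ⟨c, rfl⟩ ⟨Y.sub_mem hy (hΨY c), ?_⟩
      show Φ (y - Ψ c) = 0
      rw [map_sub, ← hc]
      exact sub_self _
  · intro z hz
    rw [hZ] at hz ⊢
    refine Submodule.span_induction (p := fun z _ => N z ∈ Submodule.span F
      (Set.range fun j : Fin e => (N ^ (j : ℕ)) v)) ?_ ?_ ?_ ?_ hz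
    · rintro _ ⟨j, rfl⟩
      show N ((N ^ (j : ℕ)) v) ∈ _
      rw [← Module.End.mul_apply, ← pow_succ']
      by_cases hj : (j : ℕ) + 1 < e
      · exact Submodule.subset_span ⟨⟨(j : ℕ) + 1, hj⟩, rfl⟩
      · rw [hkill _ (by omega) v hvY]
        exact Submodule.zero_mem _
    · rw [map_zero]; exact Submodule.zero_mem _
    · intro x y _ _ hx hy
      rw [map_add]; exact Submodule.add_mem _ hx hy
    · intro a x _ hx
      rw [map_smul]; exact Submodule.smul_mem _ _ hx
  · rintro w ⟨hwY, hw⟩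
    refine ⟨hY w hwY, ?_⟩
    have hw' : Φ w = 0 := hw
    show Φ (N w) = 0
    funext j
    rw [hΦ, ← Module.End.mul_apply, ← pow_succ]
    by_cases hj : (j : ℕ) + 1 < e
    · exact congrFun hw' ⟨(j : ℕ) + 1, hj⟩
    · rw [hkill _ (by omega) w hwY, map_zero]
      rfl
  · rw [Module.finrank_pos_iff_exists_ne_zero]
    have hvZ : v ∈ LinearMap.range Ψ := by
      rw [hZ]
      exact Submodule.subset_span ⟨⟨0, by omega⟩, by simp⟩
    refine ⟨⟨v, hvZ⟩, fun h => hv ?_⟩
    have hv0 : v = 0 := congrArg Subtype.val h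
    rw [hv0, map_zero]
  · calc Module.finrank F (LinearMap.range Ψ) ≤ Module.finrank F (Fin e → F) :=
          LinearMap.finrank_range_le Ψ
      _ = e := Module.finrank_fin_fun F
      _ ≤ p := hep

/-- The inductive form of the cyclic decomposition, for invariant subspaces. -/
theorem jordan_split_aux {F : Type*} [Field F] {V : Type*} [AddCommGroup V] [Module F V]
    [FiniteDimensional F V] (N : Module.End F V) (p : ℕ) (hN : N ^ p = 0) :
    ∀ (d : ℕ) (Y : Submodule F V), (∀ v ∈ Y, N v ∈ Y) → Module.finrank F Y = d →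
      ∃ μ : Multiset ℕ, (∀ a ∈ μ, 0 < a ∧ a ≤ p) ∧ μ.sum = d ∧
        ∀ ν : Multiset ℕ, ν ≤ μ → ∃ U W : Submodule F V, Disjoint U W ∧ U ⊔ W = Y ∧
          (∀ v ∈ U, N v ∈ U) ∧ (∀ v ∈ W, N v ∈ W) ∧ Module.finrank F U = ν.sum := by
  classical
  have hinvsup : ∀ A B : Submodule F V, (∀ v ∈ A, N v ∈ A) → (∀ v ∈ B, N v ∈ B) →
      ∀ v ∈ A ⊔ B, N v ∈ A ⊔ B := by
    intro A B hA hB v hv
    obtain ⟨a, ha, b, hb, rfl⟩ := Submodule.mem_sup.1 hv
    rw [map_add]
    exact Submodule.add_mem_sup (hA a ha) (hB b hb)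
  intro d
  induction d using Nat.strong_induction_on with
  | _ d ih =>
    intro Y hY hd
    by_cases hbot : Y = ⊥
    · subst hbot
      refine ⟨0, by simp, by rw [← hd]; simp, ?_⟩
      intro ν hν
      have hν0 : ν = 0 := Multiset.le_zero.1 hν
      subst hν0
      exact ⟨⊥, ⊥, disjoint_bot_left, by simp, by simp, by simp, by simp⟩
    · obtain ⟨Z, Y', hdisj, hsup, hZ, hY', hpos, hle⟩ := exists_cyclic_summand N p hN Y hY hbot
      have hfin : Module.finrank F Z + Module.finrank F Y' = d := by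
        have h1 := Submodule.finrank_sup_add_finrank_inf_eq Z Y'
        rw [hsup, hdisj.eq_bot, finrank_bot, add_zero, hd] at h1
        exact h1.symm
      obtain ⟨μ', hμ', hsum', hsplit⟩ := ih (Module.finrank F Y') (by omega) Y' hY' rfl
      refine ⟨Module.finrank F Z ::ₘ μ', ?_, ?_, ?_⟩
      · intro a ha
        rcases Multiset.mem_cons.1 ha with rfl | ha
        · exact ⟨hpos, hle⟩
        · exact hμ' a ha
      · rw [Multiset.sum_cons, hsum', hfin]
      · intro ν hν
        by_cases hmem : Module.finrank F Z ∈ ν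
        · have hν' : ν.erase (Module.finrank F Z) ≤ μ' := Multiset.erase_le_iff_le_cons.2 hν
          obtain ⟨U', W', hUW, hUWsup, hU', hW', hfU⟩ := hsplit _ hν'
          have hdisj' : Disjoint Z (U' ⊔ W') := by rw [hUWsup]; exact hdisj
          refine ⟨Z ⊔ U', W', hUW.disjoint_sup_left_of_disjoint_sup_right hdisj', ?_,
            hinvsup Z U' hZ hU', hW', ?_⟩
          · rw [sup_assoc, hUWsup, hsup]
          · have hZU : Disjoint Z U' := hdisj'.mono_right le_sup_left
            have h1 := Submodule.finrank_sup_add_finrank_inf_eq Z U'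
            rw [hZU.eq_bot, finrank_bot, add_zero, hfU] at h1
            rw [h1, Multiset.sum_erase hmem]
        · have hν' : ν ≤ μ' := (Multiset.le_cons_of_notMem hmem).1 hν
          obtain ⟨U', W', hUW, hUWsup, hU', hW', hfU⟩ := hsplit _ hν'
          have hdisj' : Disjoint (U' ⊔ W') Z := by rw [hUWsup]; exact hdisj.symm
          refine ⟨U', Z ⊔ W', ?_, ?_, hU', hinvsup Z W' hZ hW', hfU⟩
          · rw [sup_comm]
            exact hUW.disjoint_sup_right_of_disjoint_sup_left hdisj'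
          · rw [sup_left_comm, hUWsup, hsup]

/-- **EL-JORDAN.** -/
theorem exists_jordan_split {F : Type*} [Field F] {V : Type*} [AddCommGroup V] [Module F V]
    [FiniteDimensional F V] (N : Module.End F V) (p : ℕ) (hN : N ^ p = 0) :
    ∃ μ : Multiset ℕ, (∀ a ∈ μ, 0 < a ∧ a ≤ p) ∧ μ.sum = Module.finrank F V ∧
      ∀ ν : Multiset ℕ, ν ≤ μ → ∃ U W : Submodule F V, IsCompl U W ∧ (∀ v ∈ U, N v ∈ U) ∧
        (∀ v ∈ W, N v ∈ W) ∧ Module.finrank F U = ν.sum := by
  obtain ⟨μ, hμ, hsum, hsplit⟩ := jordan_split_aux N p hN (Module.finrank F V) ⊤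
    (fun _ _ => Submodule.mem_top) (finrank_top F V)
  refine ⟨μ, hμ, hsum, fun ν hν => ?_⟩
  obtain ⟨U, W, hUW, hsup, hU, hW, hfU⟩ := hsplit ν hν
  exact ⟨U, W, ⟨hUW, codisjoint_iff.2 hsup⟩, hU, hW, hfU⟩

end Cfsg.Agent.H4.El

section check
example {F : Type*} [Field F] {V : Type*} [AddCommGroup V] [Module F V]
    [FiniteDimensional F V] (N : Module.End F V) (p : ℕ) (hN : N ^ p = 0) :
    ∃ μ : Multiset ℕ, (∀ a ∈ μ, 0 < a ∧ a ≤ p) ∧ μ.sum = Module.finrank F V ∧
      ∀ ν : Multiset ℕ, ν ≤ μ → ∃ U W : Submodule F V, IsCompl U W ∧ (∀ v ∈ U, N v ∈ U) ∧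
        (∀ v ∈ W, N v ∈ W) ∧ Module.finrank F U = ν.sum :=
  Cfsg.Agent.H4.El.exists_jordan_split N p hN
end check
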