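import Mathlib
import Cfsg.Agent.H4.OhUnipEx
import Cfsg.Agent.H49.Plus

/-!
# S5988 piece EM-UNIP (helper4)

In `Ω⁺_{2d}(q)` (any `q`, `d ≥ 3`) there is an element `x` with `x ^ p = 1`, not scalar, all of
whose invariant nondegenerate subspaces of even dimension are of plus type: `x = [[1, S], [0, 1]]`
in coordinates `(X; Y)`, `Q = X·Y`, with `S` the alternating matrix pairing the coordinates `2 l`
and `2 l + 1`.
-/

set_option autoImplicit false

namespace Cfsg.Agent.H4.Em

open Cfsg.Agent.H45 Cfsg.Agent.H4.Oh Module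
open scoped Matrix

universe u v

section Abstract

variable {F : Type u} [Field F] {V : Type v} [AddCommGroup V] [Module F V]

/-- Rank-nullity on a subspace. -/
theorem finrank_map_add_inf_ker [FiniteDimensional F V] (f : V →ₗ[F] V) (W : Submodule F V) :
    Module.finrank F ↥(W.map f) + Module.finrank F ↥(W ⊓ LinearMap.ker f) =
      Module.finrank F ↥W := by
  have h1 := LinearMap.finrank_range_add_finrank_ker (f.domRestrict W)
  rw [LinearMap.range_domRestrict, LinearMap.ker_domRestrict,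
    ← Submodule.finrank_map_subtype_eq W ((LinearMap.ker f).comap W.subtype),
    Submodule.map_comap_subtype] at h1
  exact h1

/-- A unipotent isometry `T = 1 + N` with `N² = 0`, `Q ∘ N = 0` and `dim V ≤ 2 rank N + 2`
(with a singular fixed vector outside `range N` in the case of equality) fixes only plus-type
nondegenerate subspaces of even dimension. -/
theorem unip_plus [Finite F] [FiniteDimensional F V]
    (Q : QuadraticForm F V) (T : Module.End F V) (hT : ∀ v, Q (T v) = Q v)
    (hN2 : ∀ v, (T - 1) ((T - 1) v) = 0) (hQN : ∀ v, Q ((T - 1) v) = 0)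
    (s : V) (hs : (T - 1) s = 0) (hQs : Q s = 0)
    (hdim : Module.finrank F V ≤ 2 * Module.finrank F ↥(LinearMap.range (T - 1)) + 2)
    (hsR : s ∈ LinearMap.range (T - 1) →
      Module.finrank F V ≤ 2 * Module.finrank F ↥(LinearMap.range (T - 1)))
    (W : Submodule F V) (hWT : W.map T ≤ W)
    (hWnd : ∀ w ∈ W, w ≠ 0 → ∃ x ∈ W, QuadraticMap.polar Q x w ≠ 0)
    (hWev : Even (Module.finrank F ↥W)) :
    ∃ U : Submodule F V, U ≤ W ∧ (∀ u ∈ U, Q u = 0) ∧
      2 * Module.finrank F ↥U = Module.finrank F ↥W := by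
  classical
  obtain ⟨N, hN⟩ : ∃ N : Module.End F V, N = T - 1 := ⟨_, rfl⟩
  rw [← hN] at hN2 hQN hs hdim hsR
  have hTN : ∀ v, T v = v + N v := by
    intro v
    rw [hN, LinearMap.sub_apply, Module.End.one_apply]
    abel
  obtain ⟨B, hB⟩ : ∃ B : V →ₗ[F] V →ₗ[F] F, ∀ x y, B x y = QuadraticMap.polar Q x y :=
    ⟨QuadraticMap.polarBilin Q, fun x y => rfl⟩
  have hQadd : ∀ x y, Q (x + y) = Q x + Q y + B x y := by
    intro x y
    rw [hB, QuadraticMap.polar]
    ring
  have hTB : ∀ x y, B (T x) (T y) = B x y := by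
    intro x y
    rw [hB, hB, QuadraticMap.polar, QuadraticMap.polar, ← map_add, hT, hT, hT]
  have hTinj : Function.Injective T := by
    intro a b hab
    have key : ∀ v, T v - N (T v) = v := by
      intro v
      rw [hTN v, map_add, hN2]
      abel
    rw [← key a, ← key b, hab]
  have hWmap : W.map T = W :=
    Submodule.eq_of_le_of_finrank_eq hWT
      ((Submodule.equivMapOfInjective T hTinj W).finrank_eq.symm)
  have hWp : W ⊓ perp B W = ⊥ := by
    rw [eq_bot_iff]
    rintro v ⟨hv1, hv2⟩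
    rw [Submodule.mem_bot]
    by_contra hne
    obtain ⟨x, hx, hxv⟩ := hWnd v hv1 hne
    exact hxv ((hB x v).symm.trans (hv2 x hx))
  have hc := isCompl_perp B W hWp
  have hW'T : ∀ v ∈ perp B W, T v ∈ perp B W := by
    intro v hv u hu
    have hu' : u ∈ W.map T := by
      rw [hWmap]
      exact hu
    obtain ⟨u₀, hu₀, rfl⟩ := hu'
    rw [hTB]
    exact hv u₀ hu₀
  have hNW : ∀ w ∈ W, N w ∈ W := by
    intro w hw
    have h1 : T w ∈ W := hWT (Submodule.mem_map_of_mem hw)
    have h3 : N w = T w - w := by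
      rw [hTN]
      abel
    rw [h3]
    exact W.sub_mem h1 hw
  have hNW' : ∀ w ∈ perp B W, N w ∈ perp B W := by
    intro w hw
    have h3 : N w = T w - w := by
      rw [hTN]
      abel
    rw [h3]
    exact (perp B W).sub_mem (hW'T w hw) hw
  have hrkW := finrank_map_add_inf_ker N W
  have hrkW' := finrank_map_add_inf_ker N (perp B W)
  have hleW : W.map N ≤ W ⊓ LinearMap.ker N := by
    rintro _ ⟨w, hw, rfl⟩
    exact ⟨hNW w hw, LinearMap.mem_ker.mpr (hN2 w)⟩
  have hleW' : (perp B W).map N ≤ perp B W ⊓ LinearMap.ker N := by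
    rintro _ ⟨w, hw, rfl⟩
    exact ⟨hNW' w hw, LinearMap.mem_ker.mpr (hN2 w)⟩
  have h1 := Submodule.finrank_mono hleW
  have h1' := Submodule.finrank_mono hleW'
  have hrange : LinearMap.range N = W.map N ⊔ (perp B W).map N := by
    rw [← Submodule.map_sup, hc.sup_eq_top, Submodule.map_top]
  have hdisj : W.map N ⊓ (perp B W).map N = ⊥ := by
    rw [eq_bot_iff]
    calc W.map N ⊓ (perp B W).map N ≤ W ⊓ perp B W :=
          inf_le_inf (hleW.trans inf_le_left) (hleW'.trans inf_le_left)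
      _ = ⊥ := hWp
  have hrk : Module.finrank F ↥(LinearMap.range N) =
      Module.finrank F ↥(W.map N) + Module.finrank F ↥((perp B W).map N) := by
    have h := Submodule.finrank_sup_add_finrank_inf_eq (W.map N) ((perp B W).map N)
    rw [hdisj, finrank_bot, add_zero, ← hrange] at h
    exact h
  have hVdim : Module.finrank F V =
      Module.finrank F ↥W + Module.finrank F ↥(perp B W) := by
    have h := Submodule.finrank_sup_add_finrank_inf_eq W (perp B W)
    rw [hc.sup_eq_top, hc.inf_eq_bot, finrank_bot, add_zero, finrank_top] at h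
    exact h
  by_cases hcase : 2 * Module.finrank F ↥(W.map N) = Module.finrank F ↥W
  · refine ⟨W.map N, hleW.trans inf_le_left, ?_, hcase⟩
    rintro _ ⟨w, -, rfl⟩
    exact hQN w
  · obtain ⟨e, he⟩ := hWev
    have hW2 : Module.finrank F ↥W = 2 * Module.finrank F ↥(W.map N) + 2 := by omega
    have hW'2 : Module.finrank F ↥(perp B W) =
        2 * Module.finrank F ↥((perp B W).map N) := by omega
    have hsnot : s ∉ LinearMap.range N := by
      intro hsr
      have := hsR hsr
      omega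
    have heq' : (perp B W).map N = perp B W ⊓ LinearMap.ker N :=
      Submodule.eq_of_le_of_finrank_eq hleW' (by omega)
    have hsmem : s ∈ W ⊔ perp B W := by
      rw [hc.sup_eq_top]
      trivial
    obtain ⟨w, hw, w', hw', rfl⟩ := Submodule.mem_sup.mp hsmem
    have hsum : N w + N w' = 0 := by
      rw [← map_add]
      exact hs
    have hNw : N w = 0 := by
      have h4 : N w ∈ W ⊓ perp B W := by
        refine ⟨hNW w hw, ?_⟩
        have h5 : N w = -N w' := eq_neg_of_add_eq_zero_left hsum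
        rw [h5]
        exact (perp B W).neg_mem (hNW' w' hw')
      rw [hWp, Submodule.mem_bot] at h4
      exact h4
    have hNw' : N w' = 0 := by
      rw [hNw, zero_add] at hsum
      exact hsum
    have hw'R : w' ∈ (perp B W).map N := by
      rw [heq']
      exact ⟨hw', LinearMap.mem_ker.mpr hNw'⟩
    obtain ⟨y, hy, rfl⟩ := hw'R
    have hQw : Q w = 0 := by
      have h3 := hQadd w (N y)
      rw [hQs, hQN, hw' w hw, add_zero, add_zero] at h3
      exact h3.symm
    have hwnot : w ∉ W.map N := by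
      rintro ⟨u, hu, hu2⟩
      apply hsnot
      exact ⟨u + y, by rw [map_add, hu2]⟩
    have hw0 : w ≠ 0 := by
      intro h0
      apply hwnot
      rw [h0]
      exact Submodule.zero_mem _
    have hBNw : ∀ u, B (N u) w = 0 := by
      intro u
      have h3 := hTB u w
      have h4 : T w = w := by rw [hTN, hNw, add_zero]
      rw [h4, hTN, map_add, LinearMap.add_apply] at h3
      exact add_left_cancel (a := B u w) (by rw [h3, add_zero])
    refine ⟨W.map N ⊔ Submodule.span F {w}, ?_, ?_, ?_⟩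
    · exact sup_le (hleW.trans inf_le_left) ((Submodule.span_singleton_le_iff_mem w W).mpr hw)
    · intro u hu
      obtain ⟨a, ⟨a₀, -, rfl⟩, b, hb, rfl⟩ := Submodule.mem_sup.mp hu
      obtain ⟨c, rfl⟩ := Submodule.mem_span_singleton.mp hb
      rw [hQadd, hQN, QuadraticMap.map_smul, hQw, map_smul, hBNw]
      simp
    · have hdj : Disjoint (W.map N) (Submodule.span F {w}) :=
        (Submodule.disjoint_span_singleton' hw0).mpr hwnot
      have h := Submodule.finrank_sup_add_finrank_inf_eq (W.map N) (Submodule.span F {w})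
      rw [disjoint_iff.mp hdj, finrank_bot, add_zero, finrank_span_singleton hw0] at h
      omega

end Abstract

section Concrete

variable {F : Type u} [Field F] {d : ℕ}

/-- Siegel element. -/
def uM (S : Matrix (Fin d) (Fin d) F) : Matrix (Fin d ⊕ Fin d) (Fin d ⊕ Fin d) F :=
  Matrix.fromBlocks 1 S 0 1

theorem uM_mul (S S' : Matrix (Fin d) (Fin d) F) : uM S * uM S' = uM (S' + S) := by
  unfold uM
  rw [Matrix.fromBlocks_multiply]
  simp

theorem uM_zero : uM (0 : Matrix (Fin d) (Fin d) F) = 1 := Matrix.fromBlocks_one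

/-- Siegel element as an invertible matrix. -/
def uG (S : Matrix (Fin d) (Fin d) F) : Matrix.GeneralLinearGroup (Fin d ⊕ Fin d) F :=
  ⟨uM S, uM (-S), by rw [uM_mul, neg_add_cancel, uM_zero],
    by rw [uM_mul, add_neg_cancel, uM_zero]⟩

theorem uG_coe (S : Matrix (Fin d) (Fin d) F) :
    ((uG S : Matrix.GeneralLinearGroup (Fin d ⊕ Fin d) F) :
      Matrix (Fin d ⊕ Fin d) (Fin d ⊕ Fin d) F) = uM S := rfl

theorem uG_mul (S S' : Matrix (Fin d) (Fin d) F) : uG S * uG S' = uG (S + S') :=
  Units.ext (by rw [Units.val_mul, uG_coe, uG_coe, uG_coe, uM_mul, add_comm])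

theorem uG_zero : uG (0 : Matrix (Fin d) (Fin d) F) = 1 := Units.ext uM_zero

theorem uG_inv (S : Matrix (Fin d) (Fin d) F) : (uG S)⁻¹ = uG (-S) :=
  inv_eq_of_mul_eq_one_right (by rw [uG_mul, add_neg_cancel, uG_zero])

theorem uG_pow (S : Matrix (Fin d) (Fin d) F) (n : ℕ) : uG S ^ n = uG (n • S) := by
  induction n with
  | zero => rw [pow_zero, zero_smul, uG_zero]
  | succ n ih => rw [pow_succ, ih, uG_mul, succ_nsmul]

theorem uM_mulVec (S : Matrix (Fin d) (Fin d) F) (v : Fin d ⊕ Fin d → F) :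
    uM S *ᵥ v = Sum.elim (v ∘ Sum.inl + S *ᵥ (v ∘ Sum.inr)) (v ∘ Sum.inr) := by
  unfold uM
  rw [Matrix.fromBlocks_mulVec]
  simp

theorem qf_eq (v : Fin d ⊕ Fin d → F) :
    Cfsg.quadFormPlus d F v = (v ∘ Sum.inl) ⬝ᵥ (v ∘ Sum.inr) := rfl

theorem uG_mem_iso (S : Matrix (Fin d) (Fin d) F) (hS : ∀ Y : Fin d → F, (S *ᵥ Y) ⬝ᵥ Y = 0) :
    uG S ∈ Cfsg.isometryGroup F (Cfsg.quadFormPlus d F) := by
  rw [Cfsg.Agent.H49.mem_isometryGroup_iff]
  intro v
  rw [uG_coe, uM_mulVec, qf_eq, qf_eq]
  simp only [Sum.elim_comp_inl, Sum.elim_comp_inr]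
  rw [add_dotProduct, hS, add_zero]

/-- Levi element. -/
def lM (A A' : Matrix (Fin d) (Fin d) F) : Matrix (Fin d ⊕ Fin d) (Fin d ⊕ Fin d) F :=
  Matrix.fromBlocks A 0 0 A'ᵀ

theorem lM_mul (A A' : Matrix (Fin d) (Fin d) F) (h1 : A * A' = 1) : lM A A' * lM A' A = 1 := by
  unfold lM
  rw [Matrix.fromBlocks_multiply]
  simp only [Matrix.mul_zero, Matrix.zero_mul, add_zero, zero_add]
  rw [h1, ← Matrix.transpose_mul, h1, Matrix.transpose_one, Matrix.fromBlocks_one]

/-- Levi element as an invertible matrix. -/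
def lG (A A' : Matrix (Fin d) (Fin d) F) (h1 : A * A' = 1) (h2 : A' * A = 1) :
    Matrix.GeneralLinearGroup (Fin d ⊕ Fin d) F :=
  ⟨lM A A', lM A' A, lM_mul A A' h1, lM_mul A' A h2⟩

theorem lG_mem_iso (A A' : Matrix (Fin d) (Fin d) F) (h1 : A * A' = 1) (h2 : A' * A = 1) :
    lG A A' h1 h2 ∈ Cfsg.isometryGroup F (Cfsg.quadFormPlus d F) := by
  rw [Cfsg.Agent.H49.mem_isometryGroup_iff]
  intro v
  have hcoe : ((lG A A' h1 h2 : Matrix.GeneralLinearGroup (Fin d ⊕ Fin d) F) :
      Matrix (Fin d ⊕ Fin d) (Fin d ⊕ Fin d) F) = lM A A' := rfl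
  rw [hcoe, qf_eq, qf_eq]
  unfold lM
  rw [Matrix.fromBlocks_mulVec]
  simp only [Sum.elim_comp_inl, Sum.elim_comp_inr, Matrix.zero_mulVec, add_zero, zero_add]
  rw [dotProduct_comm, Matrix.dotProduct_mulVec, Matrix.mulVec_transpose, Matrix.vecMul_vecMul,
    h2, Matrix.vecMul_one, dotProduct_comm]

theorem comm_eq (A A' S' : Matrix (Fin d) (Fin d) F) (h1 : A * A' = 1) (h2 : A' * A = 1) :
    lG A A' h1 h2 * uG S' * (lG A A' h1 h2)⁻¹ * (uG S')⁻¹ = uG (A * S' * Aᵀ - S') := by
  rw [uG_inv]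
  apply Units.ext
  have hcoe : ((lG A A' h1 h2 : Matrix.GeneralLinearGroup (Fin d ⊕ Fin d) F) :
      Matrix (Fin d ⊕ Fin d) (Fin d ⊕ Fin d) F) = lM A A' := rfl
  have hcoe' : (((lG A A' h1 h2)⁻¹ : Matrix.GeneralLinearGroup (Fin d ⊕ Fin d) F) :
      Matrix (Fin d ⊕ Fin d) (Fin d ⊕ Fin d) F) = lM A' A := rfl
  rw [Units.val_mul, Units.val_mul, Units.val_mul, hcoe, hcoe', uG_coe, uG_coe, uG_coe]
  have step : lM A A' * uM S' * lM A' A = uM (A * S' * Aᵀ) := by
    unfold lM uM
    rw [Matrix.fromBlocks_multiply, Matrix.fromBlocks_multiply]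
    simp only [Matrix.mul_zero, Matrix.zero_mul, add_zero, zero_add, Matrix.mul_one]
    rw [h1, ← Matrix.transpose_mul, h1, Matrix.transpose_one]
  rw [step, uM_mul, sub_eq_add_neg, add_comm]

theorem uG_comm_mem (A A' S' : Matrix (Fin d) (Fin d) F) (h1 : A * A' = 1) (h2 : A' * A = 1)
    (hS' : ∀ Y : Fin d → F, (S' *ᵥ Y) ⬝ᵥ Y = 0) :
    uG (A * S' * Aᵀ - S') ∈ Cfsg.Geo.omegaGL (Cfsg.quadFormPlus d F) := by
  rw [← comm_eq A A' S' h1 h2]
  have hl := lG_mem_iso A A' h1 h2
  have hu := uG_mem_iso S' hS'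
  obtain ⟨g₁, hg₁⟩ : ∃ g₁ : ↥(Cfsg.isometryGroup F (Cfsg.quadFormPlus d F)),
      (g₁ : Matrix.GeneralLinearGroup (Fin d ⊕ Fin d) F) = lG A A' h1 h2 := ⟨⟨_, hl⟩, rfl⟩
  obtain ⟨g₂, hg₂⟩ : ∃ g₂ : ↥(Cfsg.isometryGroup F (Cfsg.quadFormPlus d F)),
      (g₂ : Matrix.GeneralLinearGroup (Fin d ⊕ Fin d) F) = uG S' := ⟨⟨_, hu⟩, rfl⟩
  refine Subgroup.mem_map.mpr ⟨g₁ * g₂ * g₁⁻¹ * g₂⁻¹, ?_, ?_⟩
  · exact Subgroup.commutator_mem_commutator (Subgroup.mem_top g₁) (Subgroup.mem_top g₂)
  · rw [← hg₁, ← hg₂]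
    rfl

/-- Elementary alternating matrix. -/
def altE (i k : Fin d) : Matrix (Fin d) (Fin d) F :=
  Matrix.single i k 1 - Matrix.single k i 1

theorem altE_alt (i k : Fin d) (Y : Fin d → F) :
    ((altE i k : Matrix (Fin d) (Fin d) F) *ᵥ Y) ⬝ᵥ Y = 0 := by
  unfold altE
  rw [Matrix.sub_mulVec, Matrix.single_mulVec, Matrix.single_mulVec, sub_dotProduct]
  have h : ∀ (a : Fin d) (c : F), Function.update (0 : Fin d → F) a c ⬝ᵥ Y = c * Y a :=
    fun a c => single_dotProduct Y c a
  rw [h, h]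
  ring

theorem uG_altE_mem (i j k : Fin d) (hij : i ≠ j) (hjk : j ≠ k) :
    uG (altE i k : Matrix (Fin d) (Fin d) F) ∈ Cfsg.Geo.omegaGL (Cfsg.quadFormPlus d F) := by
  have hji : j ≠ i := Ne.symm hij
  have hkj : k ≠ j := Ne.symm hjk
  have e0 : Matrix.single i j (1 : F) * Matrix.single i j (1 : F) = 0 := by
    rw [Matrix.single_mul_single_of_ne (h := hji)]
  have e1 : Matrix.single i j (1 : F) * Matrix.single j k (1 : F) = Matrix.single i k 1 := by
    rw [Matrix.single_mul_single_same, mul_one]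
  have e2 : Matrix.single i j (1 : F) * Matrix.single k j (1 : F) = 0 := by
    rw [Matrix.single_mul_single_of_ne (h := hjk)]
  have e3 : Matrix.single j k (1 : F) * Matrix.single j i (1 : F) = 0 := by
    rw [Matrix.single_mul_single_of_ne (h := hkj)]
  have e4 : Matrix.single k j (1 : F) * Matrix.single j i (1 : F) = Matrix.single k i 1 := by
    rw [Matrix.single_mul_single_same, mul_one]
  have e5 : Matrix.single i k (1 : F) * Matrix.single j i (1 : F) = 0 := by
    rw [Matrix.single_mul_single_of_ne (h := hkj)]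
  have h1 : (1 + Matrix.single i j (1 : F)) * (1 - Matrix.single i j (1 : F)) = 1 := by
    rw [mul_sub, add_mul, add_mul, one_mul, mul_one, one_mul, e0]
    abel
  have h2 : (1 - Matrix.single i j (1 : F)) * (1 + Matrix.single i j (1 : F)) = 1 := by
    rw [mul_add, sub_mul, sub_mul, one_mul, mul_one, one_mul, e0]
    abel
  have key : (1 + Matrix.single i j (1 : F)) * altE j k * (1 + Matrix.single i j (1 : F))ᵀ -
      altE j k = altE i k := by
    unfold altE
    rw [Matrix.transpose_add, Matrix.transpose_one, Matrix.transpose_single]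
    simp only [mul_add, add_mul, mul_sub, sub_mul, one_mul, mul_one, e1, e2, e3, e4, e5,
      zero_mul]
    abel
  rw [← key]
  exact uG_comm_mem _ _ _ h1 h2 (altE_alt j k)

theorem uG_sum_mem {κ : Type} (s : Finset κ) (f : κ → Matrix (Fin d) (Fin d) F)
    (h : ∀ a ∈ s, uG (f a) ∈ Cfsg.Geo.omegaGL (Cfsg.quadFormPlus d F)) :
    uG (∑ a ∈ s, f a) ∈ Cfsg.Geo.omegaGL (Cfsg.quadFormPlus d F) := by
  classical
  induction s using Finset.induction_on with
  | empty =>
    rw [Finset.sum_empty, uG_zero]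
    exact Subgroup.one_mem _
  | insert a s ha ih =>
    rw [Finset.sum_insert ha, ← uG_mul]
    exact Subgroup.mul_mem _ (h a (Finset.mem_insert_self a s))
      (ih fun b hb => h b (Finset.mem_insert_of_mem hb))

/-- The summands of `aMat`. -/
def gM (F : Type u) [Field F] (d : ℕ) (i : Fin d) : Matrix (Fin d) (Fin d) F :=
  if h : Even i.val ∧ i.val + 1 < d then Matrix.single i ⟨i.val + 1, h.2⟩ 1 else 0

theorem aMat_eq_sum : aMat F d = ∑ i : Fin d, gM F d i := by
  ext a b
  rw [Matrix.sum_apply, Finset.sum_eq_single a]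
  · unfold gM
    split_ifs with h
    · by_cases hb : b.val = a.val + 1
      · have hb' : b = ⟨a.val + 1, h.2⟩ := Fin.ext hb
        rw [hb', Matrix.single_apply_same]
        simp [aMat, h.1]
      · rw [Matrix.single_apply_of_ne]
        · simp [aMat, hb]
        · rintro ⟨-, h3⟩
          exact hb (congrArg Fin.val h3).symm
    · have hne : ¬ (Even a.val ∧ b.val = a.val + 1) := by
        rintro ⟨h3, h4⟩
        exact h ⟨h3, by have := b.isLt; omega⟩
      simp [aMat, hne]
  · intro i _ hia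
    unfold gM
    split_ifs with h
    · exact Matrix.single_apply_of_ne _ _ _ _ _ (fun hh => hia hh.1)
    · rfl
  · intro h
    exact absurd (Finset.mem_univ a) h

theorem sMat_eq_sum : sMat F d = ∑ i : Fin d, (gM F d i - (gM F d i)ᵀ) := by
  unfold sMat
  rw [Finset.sum_sub_distrib, ← Matrix.transpose_sum, ← aMat_eq_sum]

theorem uG_sMat_mem (hd : 3 ≤ d) :
    uG (sMat F d) ∈ Cfsg.Geo.omegaGL (Cfsg.quadFormPlus d F) := by
  rw [sMat_eq_sum]
  apply uG_sum_mem
  intro i _
  unfold gM
  split_ifs with h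
  · rw [Matrix.transpose_single]
    by_cases hi0 : i.val = 0
    · exact uG_altE_mem i ⟨2, by omega⟩ ⟨i.val + 1, h.2⟩
        (fun hh => by have := congrArg Fin.val hh; simp only [] at this; omega)
        (fun hh => by have := congrArg Fin.val hh; simp only [] at this; omega)
    · exact uG_altE_mem i ⟨0, by omega⟩ ⟨i.val + 1, h.2⟩
        (fun hh => by have := congrArg Fin.val hh; simp only [] at this; omega)
        (fun hh => by have := congrArg Fin.val hh; simp only [] at this; omega)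
  · rw [Matrix.transpose_zero, sub_zero, uG_zero]
    exact Subgroup.one_mem _

end Concrete

section Main

variable {F : Type u} [Field F] {d : ℕ}

theorem N_apply (S : Matrix (Fin d) (Fin d) F) (v : Fin d ⊕ Fin d → F) :
    (Matrix.toLin' (uM S) - 1) v = Sum.elim (S *ᵥ (v ∘ Sum.inr)) 0 := by
  rw [LinearMap.sub_apply, Module.End.one_apply, Matrix.toLin'_apply, uM_mulVec]
  funext a
  rcases a with a | a <;> simp

/-- The kernel of a coordinate projection. -/
theorem finrank_ker_funLeft' {ι κ : Type} [Fintype ι] [Fintype κ] (f : κ → ι)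
    (hf : Function.Injective f) :
    Module.finrank F ↥(LinearMap.ker (LinearMap.funLeft F F f)) + Fintype.card κ =
      Fintype.card ι := by
  have h1 := LinearMap.finrank_range_add_finrank_ker (LinearMap.funLeft F F f)
  have hsurj : Function.Surjective (LinearMap.funLeft F F f) :=
    LinearMap.funLeft_surjective_of_injective F F f hf
  rw [LinearMap.range_eq_top.mpr hsurj, finrank_top, Module.finrank_fintype_fun_eq_card,
    Module.finrank_fintype_fun_eq_card] at h1
  omega

/-- The rank of `N`. -/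
theorem rank_bound (e : ℕ) (he : e ≤ d)
    (hgood : ∀ j : Fin d, j.val < e → ¬ (Even j.val ∧ j.val + 1 = d)) :
    e ≤ Module.finrank F ↥(LinearMap.range (Matrix.toLin' (uM (sMat F d)) - 1)) := by
  have hker : LinearMap.ker (Matrix.toLin' (uM (sMat F d)) - 1) ≤
      LinearMap.ker (LinearMap.funLeft F F
        (fun j : Fin e => (Sum.inr ⟨j.val, lt_of_lt_of_le j.isLt he⟩ : Fin d ⊕ Fin d))) := by
    intro v hv
    rw [LinearMap.mem_ker] at hv ⊢
    rw [N_apply] at hv
    have hY : sMat F d *ᵥ (v ∘ Sum.inr) = 0 := by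
      funext i
      exact congrFun hv (Sum.inl i)
    funext j
    exact sMat_ker (v ∘ Sum.inr) hY ⟨j.val, lt_of_lt_of_le j.isLt he⟩ (hgood _ j.isLt)
  have h1 := Submodule.finrank_mono hker
  have h3 := finrank_ker_funLeft' (F := F)
    (fun j : Fin e => (Sum.inr ⟨j.val, lt_of_lt_of_le j.isLt he⟩ : Fin d ⊕ Fin d)) (by
      intro a b hab
      have h5 := congrArg Fin.val (Sum.inr_injective hab)
      exact Fin.ext h5)
  have h4 := LinearMap.finrank_range_add_finrank_ker (Matrix.toLin' (uM (sMat F d)) - 1)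
  rw [Module.finrank_fintype_fun_eq_card] at h4
  simp only [Fintype.card_sum, Fintype.card_fin] at h3 h4
  omega

/-- **EM-UNIP.** An element of `Ω⁺_{2d}(q)` with `x ^ p = 1`, not scalar, fixing only plus-type
nondegenerate subspaces of even dimension. -/
theorem emUnip (F : Type u) [Field F] [Fintype F] (p : ℕ) [Fact p.Prime] [CharP F p] (d : ℕ)
    (hd : 3 ≤ d) :
    ∃ x : Matrix.GeneralLinearGroup (Fin d ⊕ Fin d) F,
      x ∈ Cfsg.Geo.omegaGL (Cfsg.quadFormPlus d F) ∧ x ^ p = 1 ∧
      (∀ z : F, (x : Matrix (Fin d ⊕ Fin d) (Fin d ⊕ Fin d) F) ≠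
        z • (1 : Matrix (Fin d ⊕ Fin d) (Fin d ⊕ Fin d) F)) ∧
      ∀ W : Submodule F (Fin d ⊕ Fin d → F),
        (∀ w ∈ W, w ≠ 0 → ∃ y ∈ W, QuadraticMap.polar (Cfsg.quadFormPlus d F) y w ≠ 0) →
        Even (Module.finrank F ↥W) →
        W.map (Matrix.toLin' (x : Matrix (Fin d ⊕ Fin d) (Fin d ⊕ Fin d) F)) ≤ W →
        Cfsg.Geo.IsPlusTypeOn (Cfsg.quadFormPlus d F) W := by
  classical
  have hmem := uG_sMat_mem (F := F) hd
  refine ⟨uG (sMat F d), hmem, ?_, ?_, ?_⟩
  · rw [uG_pow]
    have h0 : p • sMat F d = 0 := by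
      rw [← Nat.cast_smul_eq_nsmul F, CharP.cast_eq_zero, zero_smul]
    rw [h0, uG_zero]
  · intro z hz
    rw [uG_coe] at hz
    unfold uM at hz
    rw [← Matrix.fromBlocks_one, Matrix.fromBlocks_smul, Matrix.fromBlocks_inj] at hz
    have hS0 : sMat F d = 0 := by rw [hz.2.1, smul_zero]
    have h1 := sMat_even (F := F) (Pi.single (⟨1, by omega⟩ : Fin d) 1) ⟨0, by omega⟩
      ⟨1, by omega⟩ (by simp) rfl
    rw [hS0, Matrix.zero_mulVec, Pi.single_eq_same, Pi.zero_apply] at h1
    exact zero_ne_one h1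
  · intro W hWnd hWev hWT
    have hiso : uG (sMat F d) ∈ Cfsg.isometryGroup F (Cfsg.quadFormPlus d F) := by
      obtain ⟨g, -, hg⟩ := Subgroup.mem_map.mp hmem
      rw [← hg]
      exact g.2
    rw [Cfsg.Agent.H49.mem_isometryGroup_iff] at hiso
    obtain ⟨T, hT⟩ : ∃ T : Module.End F (Fin d ⊕ Fin d → F),
        T = Matrix.toLin' (uM (sMat F d)) := ⟨_, rfl⟩
    have hTQ : ∀ v, Cfsg.Agent.H49.QP d F (T v) = Cfsg.Agent.H49.QP d F v := by
      intro v
      rw [hT, Matrix.toLin'_apply]
      exact hiso v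
    have hNa : ∀ v, (T - 1) v = Sum.elim (sMat F d *ᵥ (v ∘ Sum.inr)) 0 := by
      intro v
      rw [hT]
      exact N_apply _ v
    have hN2 : ∀ v, (T - 1) ((T - 1) v) = 0 := by
      intro v
      rw [hNa, hNa]
      funext a
      rcases a with a | a
      · simp
      · rfl
    have hQN : ∀ v, Cfsg.Agent.H49.QP d F ((T - 1) v) = 0 := by
      intro v
      rw [hNa]
      show Cfsg.quadFormPlus d F _ = 0
      rw [qf_eq]
      simp
    have hfin : Module.finrank F (Fin d ⊕ Fin d → F) = 2 * d := by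
      rw [Module.finrank_fintype_fun_eq_card]
      simp only [Fintype.card_sum, Fintype.card_fin]
      omega
    have hWT' : W.map T ≤ W := by
      rw [hT]
      exact hWT
    have hplus : ∃ U : Submodule F (Fin d ⊕ Fin d → F), U ≤ W ∧
        (∀ u ∈ U, Cfsg.Agent.H49.QP d F u = 0) ∧
        2 * Module.finrank F ↥U = Module.finrank F ↥W := by
      rcases Nat.even_or_odd d with hev | hodd
      · have hrk := rank_bound (F := F) (d := d) d le_rfl (by
          rintro j - ⟨h1, h3⟩
          rw [← h3] at hev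
          exact (Nat.not_even_iff_odd.mpr h1.add_one) hev)
        rw [← hT] at hrk
        exact unip_plus (Cfsg.Agent.H49.QP d F) T hTQ hN2 hQN 0 (map_zero _) (map_zero _)
          (by rw [hfin]; omega) (fun _ => by rw [hfin]; omega) W hWT' hWnd hWev
      · have hdpos : d - 1 < d := by omega
        have hrk := rank_bound (F := F) (d := d) (d - 1) (by omega) (by
          rintro j hj ⟨-, h3⟩
          omega)
        rw [← hT] at hrk
        obtain ⟨s, hs⟩ : ∃ s : Fin d ⊕ Fin d → F,
            s = Pi.single (Sum.inl (⟨d - 1, hdpos⟩ : Fin d)) 1 := ⟨_, rfl⟩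
        have hsr : s ∘ Sum.inr = 0 := by
          funext j
          rw [hs]
          simp
        have hNs : (T - 1) s = 0 := by
          rw [hNa, hsr, Matrix.mulVec_zero]
          funext a
          rcases a with a | a <;> rfl
        have hQs : Cfsg.Agent.H49.QP d F s = 0 := by
          show Cfsg.quadFormPlus d F s = 0
          rw [qf_eq, hsr, dotProduct_zero]
        have hevd : Even (d - 1) := by
          rcases hodd with ⟨k, hk⟩
          exact ⟨k, by omega⟩
        have hsnot : s ∉ LinearMap.range (T - 1) := by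
          rintro ⟨v, hv⟩
          have h1 := congrFun hv (Sum.inl ⟨d - 1, hdpos⟩)
          rw [hNa, hs, Pi.single_eq_same] at h1
          have h3 := sMat_last (F := F) (v ∘ Sum.inr) ⟨d - 1, hdpos⟩ hevd (by simp only []; omega)
          have h4 : (sMat F d *ᵥ (v ∘ Sum.inr)) ⟨d - 1, hdpos⟩ = 1 := h1
          rw [h3] at h4
          exact zero_ne_one h4
        exact unip_plus (Cfsg.Agent.H49.QP d F) T hTQ hN2 hQN s hNs hQs
          (by rw [hfin]; omega) (fun h => absurd h hsnot) W hWT' hWnd hWev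
    obtain ⟨U, hUW, hts, hfr⟩ := hplus
    exact ⟨U, hUW, hts, hfr⟩

end Main

end Cfsg.Agent.H4.Em
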