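import Mathlib
import Cfsg.Prelude.Def_Characters
import Cfsg.Agent.H4.Frob
import Cfsg.Agent.H4.BrauerPerm
import Cfsg.Agent.H1.Coprime

set_option autoImplicit false
set_option linter.unusedSectionVars false
set_option linter.style.haveILetI false

namespace Cfsg.Agent.H4

open Cfsg.Agent.H1

section HallFix

variable {M : Type*} [Group M]

/-- The permutation of `Irr(H)` induced by conjugation with `x`. -/
noncomputable def conjIrr (H : Subgroup M) [H.Normal] (x : M) : IrrCharacter H → IrrCharacter H :=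
  fun χ => ⟨fun k => χ.1 (MulAut.conjNormal x k),
    isIrrCharacter_comp_surjective (MulAut.conjNormal x : H ≃* H).toMonoidHom
      (MulEquiv.surjective _) χ.2⟩

/-- Brauer's permutation lemma for conjugation on a normal subgroup, over `ℕ`. -/
theorem conjIrr_count [Finite M] (H : Subgroup M) [H.Normal] (x : M) :
    letI : Fintype H := Fintype.ofFinite H
    Nat.card H * Nat.card {χ : IrrCharacter H // conjIrr H x χ = χ} =
      ∑ h : H, Nat.card {c : H // c * (MulAut.conjNormal x h) * c⁻¹ = h} := by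
  classical
  letI : Fintype H := Fintype.ofFinite H
  have hbp := brauer_permutation (G := H) (fun k => MulAut.conjNormal x k) (conjIrr H x)
    (fun χ g => rfl)
  exact_mod_cast hbp

theorem conjIrr_count_one [Finite M] (H : Subgroup M) [H.Normal] (x : M) :
    Nat.card {c : H // c * (MulAut.conjNormal x (1 : H)) * c⁻¹ = 1} = Nat.card H := by
  have h1 : ∀ c : H, c * (MulAut.conjNormal x (1 : H)) * c⁻¹ = 1 := by intro c; simp
  exact Nat.card_congr (Equiv.subtypeUnivEquiv h1)

/-- If `x` commutes with a non-identity element of the normal subgroup `H`, then `x` fixes a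
non-principal irreducible character of `H`. -/
theorem exists_fixed_irr_of_commute [Finite M] (H : Subgroup M) [H.Normal] (x : M)
    (h : M) (hh : h ∈ H) (h1 : h ≠ 1) (hx : x * h = h * x) :
    ∃ θ : H → ℂ, IsIrrCharacter H θ ∧ θ ≠ (fun _ => 1) ∧
      (fun k : H => θ (MulAut.conjNormal x k)) = θ := by
  classical
  letI : Fintype H := Fintype.ofFinite H
  haveI := finite_irr H
  by_contra hcon
  push Not at hcon
  have hsub : Subsingleton {χ : IrrCharacter H // conjIrr H x χ = χ} := by
    constructor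
    rintro ⟨a, ha⟩ ⟨b, hb⟩
    have ha' : a.1 = fun _ => 1 := by
      by_contra hne
      exact hcon a.1 a.2 hne (congrArg Subtype.val ha)
    have hb' : b.1 = fun _ => 1 := by
      by_contra hne
      exact hcon b.1 b.2 hne (congrArg Subtype.val hb)
    exact Subtype.ext (Subtype.ext (ha'.trans hb'.symm))
  have hle : Nat.card {χ : IrrCharacter H // conjIrr H x χ = χ} ≤ 1 :=
    Finite.card_le_one_iff_subsingleton.mpr hsub
  have hcount := conjIrr_count H x
  set f : H → ℕ := fun k => Nat.card {c : H // c * (MulAut.conjNormal x k) * c⁻¹ = k} with hf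
  have hne : (1 : H) ≠ ⟨h, hh⟩ := by
    intro e
    exact h1 (congrArg Subtype.val e).symm
  have hpair : f 1 + f ⟨h, hh⟩ ≤ ∑ k : H, f k := by
    rw [← Finset.sum_pair hne]
    exact Finset.sum_le_sum_of_subset (Finset.subset_univ _)
  have hf1 : f 1 = Nat.card H := conjIrr_count_one H x
  have hfh : 1 ≤ f ⟨h, hh⟩ := by
    have : Nonempty {c : H // c * (MulAut.conjNormal x ⟨h, hh⟩) * c⁻¹ = ⟨h, hh⟩} := by
      refine ⟨⟨1, ?_⟩⟩
      apply Subtype.ext
      simp only [one_mul, inv_one, mul_one, MulAut.conjNormal_apply]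
      rw [hx, mul_inv_cancel_right]
    exact Nat.card_pos
  have hpos : 0 < Nat.card H := Nat.card_pos
  have h2 : Nat.card H * Nat.card {χ : IrrCharacter H // conjIrr H x χ = χ} ≤ Nat.card H := by
    calc Nat.card H * Nat.card {χ : IrrCharacter H // conjIrr H x χ = χ} ≤ Nat.card H * 1 :=
          Nat.mul_le_mul_left _ hle
      _ = Nat.card H := mul_one _
  have h3 : Nat.card H * Nat.card {χ : IrrCharacter H // conjIrr H x χ = χ} = ∑ k : H, f k :=
    hcount
  omega

/-- If `x` fixes a non-principal irreducible character of the normal subgroup `H`, some `c * x`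
with `c ∈ H` commutes with a non-identity element of `H`. -/
theorem exists_mul_commute_of_fixed_irr [Finite M] (H : Subgroup M) [H.Normal] (x : M)
    (θ : H → ℂ) (hθ : IsIrrCharacter H θ) (hθ1 : θ ≠ (fun _ => 1))
    (hfix : (fun k : H => θ (MulAut.conjNormal x k)) = θ) :
    ∃ c ∈ H, ∃ k ∈ H, k ≠ 1 ∧ (c * x) * k = k * (c * x) := by
  classical
  letI : Fintype H := Fintype.ofFinite H
  haveI := finite_irr H
  have hnt : Nontrivial {χ : IrrCharacter H // conjIrr H x χ = χ} := by
    refine ⟨⟨⟨trivialIrr H, Subtype.ext rfl⟩, ⟨⟨θ, hθ⟩, Subtype.ext hfix⟩, ?_⟩⟩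
    intro e
    apply hθ1
    have := congrArg (fun t => t.1.1) e
    exact this.symm
  have hlt : 1 < Nat.card {χ : IrrCharacter H // conjIrr H x χ = χ} :=
    Finite.one_lt_card_iff_nontrivial.mpr hnt
  have hcount := conjIrr_count H x
  set f : H → ℕ := fun k => Nat.card {c : H // c * (MulAut.conjNormal x k) * c⁻¹ = k} with hf
  have hf1 : f 1 = Nat.card H := conjIrr_count_one H x
  have hpos : 0 < Nat.card H := Nat.card_pos
  have h3 : Nat.card H * Nat.card {χ : IrrCharacter H // conjIrr H x χ = χ} = ∑ k : H, f k :=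
    hcount
  have hex : ∃ k : H, k ≠ 1 ∧ f k ≠ 0 := by
    by_contra hno
    push Not at hno
    have hs : ∑ k : H, f k = f 1 :=
      Finset.sum_eq_single (1 : H) (fun k _ hk => hno k hk) (fun h => absurd (Finset.mem_univ _) h)
    rw [hs, hf1] at h3
    have : Nat.card H * 2 ≤ Nat.card H * Nat.card {χ : IrrCharacter H // conjIrr H x χ = χ} :=
      Nat.mul_le_mul_left _ hlt
    omega
  obtain ⟨k, hk1, hfk⟩ := hex
  have hne : Nonempty {c : H // c * (MulAut.conjNormal x k) * c⁻¹ = k} := by
    by_contra hemp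
    rw [not_nonempty_iff] at hemp
    exact hfk (Nat.card_of_isEmpty)
  obtain ⟨⟨c, hc⟩⟩ := hne
  refine ⟨c, c.2, k, k.2, fun e => hk1 (Subtype.ext e), ?_⟩
  have hc' : (c : M) * (x * k * x⁻¹) * (c : M)⁻¹ = k := by
    have := congrArg Subtype.val hc
    simpa [MulAut.conjNormal_apply] using this
  calc (c : M) * x * k = ((c : M) * (x * k * x⁻¹) * (c : M)⁻¹) * ((c : M) * x) := by group
    _ = k * ((c : M) * x) := by rw [hc']

/-- Order of `(c * x) ^ |H|` when `x` has order prime to `|H|` and `c ∈ H`. -/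
theorem orderOf_mul_pow_card [Finite M] (H : Subgroup M) [H.Normal] (x c : M) (hc : c ∈ H)
    (hcop : (orderOf x).Coprime (Nat.card H)) :
    orderOf ((c * x) ^ Nat.card H) = orderOf x := by
  have hmk : ∀ j : ℕ, ((c * x) ^ j ∈ H ↔ x ^ j ∈ H) := by
    intro j
    rw [← QuotientGroup.eq_one_iff (N := H), ← QuotientGroup.eq_one_iff (N := H)]
    have : ((c * x : M) : M ⧸ H) = (x : M ⧸ H) := by
      rw [QuotientGroup.mk_mul, (QuotientGroup.eq_one_iff c).mpr hc, one_mul]
    rw [QuotientGroup.mk_pow, QuotientGroup.mk_pow, this]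
  have hpowH : ∀ g : M, g ∈ H → g ^ Nat.card H = 1 := by
    intro g hg
    have := pow_card_eq_one' (G := H) (x := ⟨g, hg⟩)
    exact congrArg Subtype.val this
  apply Nat.dvd_antisymm
  · apply orderOf_dvd_of_pow_eq_one
    rw [← pow_mul, mul_comm, pow_mul]
    apply hpowH
    rw [hmk, pow_orderOf_eq_one]
    exact H.one_mem
  · set j := orderOf ((c * x) ^ Nat.card H) with hj
    have h1 : ((c * x) ^ Nat.card H) ^ j = 1 := pow_orderOf_eq_one _
    rw [← pow_mul] at h1
    have h2 : x ^ (Nat.card H * j) ∈ H := by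
      rw [← hmk, h1]; exact H.one_mem
    have h3 := hpowH _ h2
    rw [← pow_mul] at h3
    have h4 : orderOf x ∣ Nat.card H * j * Nat.card H := orderOf_dvd_of_pow_eq_one h3
    have h5 : orderOf x ∣ Nat.card H * j :=
      (Nat.Coprime.dvd_mul_right hcop).mp h4
    exact hcop.dvd_of_dvd_mul_left h5

/-- If `H` is a normal Hall subgroup and `x` fixes a non-principal irreducible character of `H`,
then `x` commutes with a non-identity element of `H`. -/
theorem exists_commute_of_fixed_irr [Finite M] (H : Subgroup M) [H.Normal]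
    (hHall : Nat.Coprime (Nat.card H) H.index) (x : M)
    (θ : H → ℂ) (hθ : IsIrrCharacter H θ) (hθ1 : θ ≠ (fun _ => 1))
    (hfix : (fun k : H => θ (MulAut.conjNormal x k)) = θ) :
    ∃ h ∈ H, h ≠ 1 ∧ x * h = h * x := by
  by_cases hxm : x ^ H.index = 1
  swap
  · exact ⟨x ^ H.index, Subgroup.pow_index_mem H x, hxm, (pow_mul_comm' x _).symm ▸ rfl⟩
  obtain ⟨c, hc, k, hk, hk1, hcomm⟩ := exists_mul_commute_of_fixed_irr H x θ hθ hθ1 hfix
  have hdvd : orderOf x ∣ H.index := orderOf_dvd_of_pow_eq_one hxm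
  have hcop : (orderOf x).Coprime (Nat.card H) :=
    (Nat.Coprime.coprime_dvd_right hdvd hHall).symm
  set A : Subgroup M := Subgroup.zpowers x with hA
  set y : M := c * x with hy
  set B : Subgroup M := Subgroup.zpowers (y ^ Nat.card H) with hB
  have hAD : A ≤ Subgroup.normalizer (H : Set M) := by
    rw [Subgroup.normalizer_eq_top]; exact le_top
  have hcardA : Nat.card A = orderOf x := Nat.card_zpowers x
  have hsolv : Group.IsSolvable A := by
    apply Group.isSolvable_of_comm
    rintro ⟨a, ha⟩ ⟨b, hb⟩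
    obtain ⟨i, rfl⟩ := Subgroup.mem_zpowers_iff.mp ha
    obtain ⟨j, rfl⟩ := Subgroup.mem_zpowers_iff.mp hb
    exact Subtype.ext (zpow_mul_comm x i j)
  have hBle : B ≤ A ⊔ H := by
    rw [hB, Subgroup.zpowers_le]
    apply Subgroup.pow_mem
    exact Subgroup.mul_mem _ ((le_sup_right : H ≤ A ⊔ H) hc)
      ((le_sup_left : A ≤ A ⊔ H) (Subgroup.mem_zpowers x))
  have hBc : Nat.card B = Nat.card A := by
    rw [hcardA, hB, Nat.card_zpowers]
    exact orderOf_mul_pow_card H x c hc hcop
  obtain ⟨d, hd, hdA⟩ := sz_conj_internal A H B hAD (by rw [hcardA]; exact hcop) (Or.inl hsolv)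
    hBle hBc
  have hmem : d * x * d⁻¹ ∈ B := by
    rw [← hdA]
    exact conj_mem_conj_smul d x A (Subgroup.mem_zpowers x)
  have hyk : Commute y k := hcomm
  have hBk : ∀ b ∈ B, Commute b k := by
    intro b hb
    obtain ⟨i, rfl⟩ := Subgroup.mem_zpowers_iff.mp hb
    exact (hyk.pow_left _).zpow_left i
  have hdk := hBk _ hmem
  refine ⟨d⁻¹ * k * d, ?_, ?_, ?_⟩
  · have := ‹H.Normal›.conj_mem k hk d⁻¹
    simpa using this
  · intro e
    apply hk1
    have := congrArg (fun t => d * t * d⁻¹) e
    simpa [mul_assoc] using this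
  · have e : d * x * d⁻¹ * k = k * (d * x * d⁻¹) := hdk
    calc x * (d⁻¹ * k * d) = d⁻¹ * (d * x * d⁻¹ * k) * d := by group
      _ = d⁻¹ * (k * (d * x * d⁻¹)) * d := by rw [e]
      _ = d⁻¹ * k * d * x := by group

end HallFix

end Cfsg.Agent.H4
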