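import Mathlib
import Cfsg.Prelude.Def_Characters
import Cfsg.Prelude.Def_Blocks
import Cfsg.Agent.H4.Blich2
import Cfsg.Agent.H4.BrauerExtra
import Cfsg.Agent.H4.Clifford

/-!
# The explicit Jordan bound for finite linear groups (S4469), from the uniform abelian normal
subgroup (S4470), Blichfeldt's abelian Hall subgroup (S4465) and monomiality of nilpotent groups.
-/

set_option autoImplicit false
set_option linter.unusedSectionVars false
set_option linter.style.haveILetI false

namespace Cfsg.Agent.H4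

universe u

section Jordan

variable {G : Type u} [Group G]

/-- A character induced from a linear character of `H` is trivial on the commutators of the
normal core of `H`. -/
theorem indFun_hom_comm_core [Fintype G] (H : Subgroup G) (lam : H →* ℂˣ) (x y : G)
    (hx : x ∈ H.normalCore) (hy : y ∈ H.normalCore) :
    indFun H (fun h => ((lam h : ℂˣ) : ℂ)) (x * y * x⁻¹ * y⁻¹) =
      indFun H (fun h => ((lam h : ℂˣ) : ℂ)) 1 := by
  rw [indFun_apply, indFun_apply]
  congr 1
  refine Finset.sum_congr rfl fun t _ => ?_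
  have hxt : t⁻¹ * x * t ∈ H := H.normalCore_le (by
    have := (inferInstance : H.normalCore.Normal).conj_mem x hx t⁻¹
    rwa [inv_inv] at this)
  have hyt : t⁻¹ * y * t ∈ H := H.normalCore_le (by
    have := (inferInstance : H.normalCore.Normal).conj_mem y hy t⁻¹
    rwa [inv_inv] at this)
  have e1 : t⁻¹ * (x * y * x⁻¹ * y⁻¹) * t =
      (((⟨t⁻¹ * x * t, hxt⟩ : H) * ⟨t⁻¹ * y * t, hyt⟩ * (⟨t⁻¹ * x * t, hxt⟩ : H)⁻¹ *
        (⟨t⁻¹ * y * t, hyt⟩ : H)⁻¹ : H) : G) := by
    simp only [Subgroup.coe_mul, Subgroup.coe_inv]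
    group
  have e2 : t⁻¹ * 1 * t = ((1 : H) : G) := by simp
  rw [e1, e2, extendByZero_coe, extendByZero_coe]
  have e3 : lam ((⟨t⁻¹ * x * t, hxt⟩ : H) * ⟨t⁻¹ * y * t, hyt⟩ * (⟨t⁻¹ * x * t, hxt⟩ : H)⁻¹ *
        (⟨t⁻¹ * y * t, hyt⟩ : H)⁻¹) = lam 1 := by
    rw [map_mul, map_mul, map_mul, map_inv, map_inv, map_one, mul_comm (lam _) (lam _),
      mul_inv_cancel_right, mul_inv_cancel]
  exact congrArg (fun u : ℂˣ => (u : ℂ)) e3

theorem index_normalCore_dvd_factorial [Finite G] (H : Subgroup G) :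
    H.normalCore.index ∣ (H.index).factorial := by
  rw [Subgroup.normalCore_eq_ker, Subgroup.index_ker]
  have h1 := Subgroup.card_subgroup_dvd_card (MulAction.toPermHom G (G ⧸ H)).range
  rwa [Nat.card_perm] at h1

theorem index_finset_inf_dvd [Finite G] {ι : Type*} (s : Finset ι) (K : ι → Subgroup G)
    (hK : ∀ i, (K i).Normal) : (s.inf K).index ∣ ∏ i ∈ s, (K i).index := by
  classical
  induction s using Finset.induction_on with
  | empty => simp
  | insert a s ha ih =>
    rw [Finset.inf_insert, Finset.prod_insert ha]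
    haveI := hK a
    have h1 : (K a ⊓ s.inf K).index = (K a).relIndex (s.inf K) * (s.inf K).index := by
      rw [← Subgroup.inf_relIndex_right, Subgroup.relIndex_mul_index inf_le_right]
    rw [h1]
    exact Nat.mul_dvd_mul (Subgroup.relIndex_dvd_index_of_normal _ _) ih

/-- A nilpotent group with a faithful character of degree `n` has an abelian subgroup whose
index divides `n!`. -/
theorem exists_abelian_index_dvd_factorial (P : Type u) [Group P] [Finite P]
    [Group.IsNilpotent P] (χ : P → ℂ) (hχ : IsCharacter P χ)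
    (hfaith : ∀ g : P, χ g = χ 1 → g = 1) :
    ∃ B : Subgroup P, (∀ x ∈ B, ∀ y ∈ B, x * y = y * x) ∧
      B.index ∣ (charDegree χ).factorial := by
  classical
  haveI : Fintype P := Fintype.ofFinite P
  letI := fintypeIrr P
  obtain ⟨m, hm⟩ := isCharacter_iff.mp hχ
  have hval : ∀ x : P, χ x = ∑ ψ : IrrCharacter P, (m ψ : ℂ) * ψ.1 x := by
    intro x
    rw [hm, finsum_irr_eq_sum, Finset.sum_apply]
    rfl
  have hdeg : charDegree χ = ∑ ψ : IrrCharacter P, m ψ * charDegree ψ.1 := by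
    have h1 : χ 1 = ((∑ ψ : IrrCharacter P, m ψ * charDegree ψ.1 : ℕ) : ℂ) := by
      rw [hval 1]; push_cast
      refine Finset.sum_congr rfl fun ψ _ => ?_
      rw [isCharacter_one_eq (isCharacter_of_isIrrCharacter ψ.2)]
    exact charDegree_of_natCast h1
  have hmono : ∀ ψ : IrrCharacter P, ∃ (H : Subgroup P) (lam : H →* ℂˣ),
      ψ.1 = indFun H (fun h => ((lam h : ℂˣ) : ℂ)) :=
    fun ψ => monomial_of_nilpotent _ P rfl ψ.1 ψ.2
  choose H lam hH using hmono
  have hidx : ∀ ψ : IrrCharacter P, charDegree ψ.1 = (H ψ).index := by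
    intro ψ
    apply charDegree_of_natCast
    rw [hH ψ, indFun_one_eq]
    simp
  refine ⟨(Finset.univ.filter (fun ψ => m ψ ≠ 0)).inf (fun ψ => (H ψ).normalCore), ?_, ?_⟩
  · intro x hx y hy
    have h1 : x * y * x⁻¹ * y⁻¹ = 1 := by
      apply hfaith
      rw [hval, hval 1]
      refine Finset.sum_congr rfl fun ψ _ => ?_
      by_cases h0 : m ψ = 0
      · rw [h0]; simp
      · have hψs : ψ ∈ Finset.univ.filter (fun ψ => m ψ ≠ 0) :=
          Finset.mem_filter.mpr ⟨Finset.mem_univ _, h0⟩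
        have hle : (Finset.univ.filter (fun ψ => m ψ ≠ 0)).inf (fun ψ => (H ψ).normalCore) ≤
            (H ψ).normalCore := Finset.inf_le hψs
        have := indFun_hom_comm_core (H ψ) (lam ψ) x y (hle hx) (hle hy)
        rw [← hH ψ] at this
        rw [this]
    exact mul_inv_eq_iff_eq_mul.mp (mul_inv_eq_one.mp h1)
  · have h1 := index_finset_inf_dvd (Finset.univ.filter (fun ψ => m ψ ≠ 0))
      (fun ψ => (H ψ).normalCore) (fun ψ => inferInstance)
    have h2 : ∏ ψ ∈ Finset.univ.filter (fun ψ => m ψ ≠ 0), ((H ψ).normalCore).index ∣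
        ∏ ψ ∈ Finset.univ.filter (fun ψ => m ψ ≠ 0), ((H ψ).index).factorial :=
      Finset.prod_dvd_prod_of_dvd _ _ (fun ψ _ => index_normalCore_dvd_factorial (H ψ))
    have h3 : ∏ ψ ∈ Finset.univ.filter (fun ψ => m ψ ≠ 0), ((H ψ).index).factorial ∣
        (∑ ψ ∈ Finset.univ.filter (fun ψ => m ψ ≠ 0), (H ψ).index).factorial :=
      Nat.prod_factorial_dvd_factorial_sum _ _
    have h4 : ∑ ψ ∈ Finset.univ.filter (fun ψ => m ψ ≠ 0), (H ψ).index ≤ charDegree χ := by
      rw [hdeg]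
      calc ∑ ψ ∈ Finset.univ.filter (fun ψ => m ψ ≠ 0), (H ψ).index
          ≤ ∑ ψ ∈ Finset.univ.filter (fun ψ => m ψ ≠ 0), m ψ * charDegree ψ.1 :=
            Finset.sum_le_sum (fun ψ hψ => by
              rw [hidx ψ]
              exact Nat.le_mul_of_pos_left _ (Nat.pos_of_ne_zero (Finset.mem_filter.mp hψ).2))
        _ ≤ ∑ ψ, m ψ * charDegree ψ.1 :=
            Finset.sum_le_sum_of_subset (Finset.subset_univ _)
    exact dvd_trans h1 (dvd_trans h2 (dvd_trans h3 (Nat.factorial_dvd_factorial h4)))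

/-- The `r`-part of the index of the uniform abelian normal subgroup. -/
theorem jordan_rpart [Finite G] (χ : G → ℂ) (hχ : IsCharacter G χ)
    (hfaith : ∀ g : G, χ g = χ 1 → g = 1) (n : ℕ) (hn : charDegree χ = n)
    (A : Subgroup G)
    (hA12 : ∀ H : Subgroup G, (∀ x ∈ H, ∀ y ∈ H, x * y = y * x) →
      (A.subgroupOf H).index ≤ 12 ^ n)
    (r : ℕ) [Fact r.Prime] :
    ∃ b : ℕ, r ^ b ∣ n.factorial ∧ ∀ k : ℕ, r ^ k ∣ A.index → r ^ k ≤ r ^ b * 12 ^ n := by
  have hr : r.Prime := Fact.out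
  obtain ⟨P⟩ : Nonempty (Sylow r G) := inferInstance
  haveI : Group.IsNilpotent (P : Subgroup G) := P.2.isNilpotent
  obtain ⟨B0, hB0, hB0idx⟩ := exists_abelian_index_dvd_factorial (P : Subgroup G)
    (fun h => χ h) (isCharacter_restrict (P : Subgroup G) hχ)
    (fun g hg => Subtype.ext (hfaith g hg))
  have hdeg : charDegree (fun h : (P : Subgroup G) => χ h) = n := hn
  rw [hdeg] at hB0idx
  obtain ⟨a, ha⟩ := IsPGroup.iff_card.mp P.2
  obtain ⟨b, -, hb⟩ := (Nat.dvd_prime_pow hr).mp (ha ▸ B0.index_dvd_card)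
  refine ⟨b, hb ▸ hB0idx, fun k hk => ?_⟩
  have hBP : B0.map (P : Subgroup G).subtype ≤ (P : Subgroup G) := Subgroup.map_subtype_le B0
  have hBab : ∀ x ∈ B0.map (P : Subgroup G).subtype, ∀ y ∈ B0.map (P : Subgroup G).subtype,
      x * y = y * x := by
    rintro x ⟨u, hu, rfl⟩ y ⟨v, hv, rfl⟩
    exact congrArg Subtype.val (hB0 u hu v hv)
  have hBrel : (B0.map (P : Subgroup G).subtype).relIndex (P : Subgroup G) = r ^ b := by
    have e : (B0.map (P : Subgroup G).subtype).subgroupOf (P : Subgroup G) = B0 :=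
      Subgroup.comap_map_eq_self_of_injective (P : Subgroup G).subtype_injective B0
    rw [Subgroup.relIndex, e, hb]
  have h1 : A.index ∣ (B0.map (P : Subgroup G).subtype ⊓ A).index :=
    Subgroup.index_dvd_of_le inf_le_right
  have h2 : (B0.map (P : Subgroup G).subtype ⊓ A).relIndex (P : Subgroup G) *
      (P : Subgroup G).index = (B0.map (P : Subgroup G).subtype ⊓ A).index :=
    Subgroup.relIndex_mul_index (inf_le_left.trans hBP)
  have h3 : r ^ k ∣ (B0.map (P : Subgroup G).subtype ⊓ A).relIndex (P : Subgroup G) := by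
    have h4 : r ^ k ∣ (B0.map (P : Subgroup G).subtype ⊓ A).relIndex (P : Subgroup G) *
        (P : Subgroup G).index := h2 ▸ dvd_trans hk h1
    exact Nat.Coprime.dvd_of_dvd_mul_right
      (Nat.Coprime.pow_left k ((Nat.Prime.coprime_iff_not_dvd hr).mpr P.not_dvd_index)) h4
  have h5 : (B0.map (P : Subgroup G).subtype ⊓ A).relIndex (B0.map (P : Subgroup G).subtype) *
      (B0.map (P : Subgroup G).subtype).relIndex (P : Subgroup G) =
      (B0.map (P : Subgroup G).subtype ⊓ A).relIndex (P : Subgroup G) :=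
    Subgroup.relIndex_mul_relIndex _ _ _ inf_le_left hBP
  rw [← h5, Subgroup.inf_relIndex_left, hBrel] at h3
  have h6 : A.relIndex (B0.map (P : Subgroup G).subtype) ≤ 12 ^ n := hA12 _ hBab
  have h7 : A.relIndex (B0.map (P : Subgroup G).subtype) ≠ 0 :=
    Subgroup.index_ne_zero_of_finite
  have hpos : 0 < A.relIndex (B0.map (P : Subgroup G).subtype) * r ^ b :=
    Nat.mul_pos (Nat.pos_of_ne_zero h7) (pow_pos hr.pos b)
  calc r ^ k ≤ A.relIndex (B0.map (P : Subgroup G).subtype) * r ^ b := Nat.le_of_dvd hpos h3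
    _ ≤ 12 ^ n * r ^ b := Nat.mul_le_mul_right _ h6
    _ = r ^ b * 12 ^ n := mul_comm _ _

theorem prod_prime_pow_dvd (S : Finset ℕ) (b : ℕ → ℕ) (M : ℕ) (hS : ∀ r ∈ S, r.Prime)
    (hdvd : ∀ r ∈ S, r ^ b r ∣ M) : ∏ r ∈ S, r ^ b r ∣ M := by
  classical
  induction S using Finset.induction_on with
  | empty => simp
  | insert a S ha ih =>
    rw [Finset.prod_insert ha]
    apply Nat.Coprime.mul_dvd_of_dvd_of_dvd
    · apply Nat.Coprime.prod_right
      intro r hr
      apply Nat.Coprime.pow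
      exact (Nat.coprime_primes (hS a (Finset.mem_insert_self a S))
        (hS r (Finset.mem_insert_of_mem hr))).mpr (fun h => ha (h ▸ hr))
    · exact hdvd a (Finset.mem_insert_self a S)
    · exact ih (fun r hr => hS r (Finset.mem_insert_of_mem hr))
        (fun r hr => hdvd r (Finset.mem_insert_of_mem hr))

theorem jordan_arith (c n : ℕ) (hc0 : c ≠ 0) (hc : ∀ q : ℕ, q.Prime → q ∣ c → q ≤ n + 1)
    (hr : ∀ r : ℕ, r.Prime →
      ∃ b : ℕ, r ^ b ∣ n.factorial ∧ r ^ (c.factorization r) ≤ r ^ b * 12 ^ n) :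
    c ≤ n.factorial * 12 ^ (n * Nat.primeCounting (n + 1)) := by
  classical
  have hb : ∀ r : ℕ, ∃ b : ℕ, r.Prime →
      (r ^ b ∣ n.factorial ∧ r ^ (c.factorization r) ≤ r ^ b * 12 ^ n) := by
    intro r
    by_cases h : r.Prime
    · obtain ⟨b, hb⟩ := hr r h
      exact ⟨b, fun _ => hb⟩
    · exact ⟨0, fun h' => absurd h' h⟩
  choose b hb using hb
  have hS : ∀ r ∈ c.primeFactors, r.Prime := fun r hr => Nat.prime_of_mem_primeFactors hr
  have h1 : c = ∏ r ∈ c.primeFactors, r ^ c.factorization r :=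
    Nat.prod_primeFactors_pow_factorization hc0
  have h2 : ∏ r ∈ c.primeFactors, r ^ c.factorization r ≤
      ∏ r ∈ c.primeFactors, (r ^ b r * 12 ^ n) :=
    Finset.prod_le_prod (fun r _ => Nat.zero_le _) (fun r hr => (hb r (hS r hr)).2)
  have h3 : ∏ r ∈ c.primeFactors, (r ^ b r * 12 ^ n) =
      (∏ r ∈ c.primeFactors, r ^ b r) * (12 ^ n) ^ c.primeFactors.card := by
    rw [Finset.prod_mul_distrib, Finset.prod_const]
  have h4 : ∏ r ∈ c.primeFactors, r ^ b r ≤ n.factorial :=
    Nat.le_of_dvd (Nat.factorial_pos n)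
      (prod_prime_pow_dvd _ b _ hS (fun r hr => (hb r (hS r hr)).1))
  have h5 : c.primeFactors.card ≤ Nat.primeCounting (n + 1) := by
    have e : Nat.primeCounting (n + 1) = ((Finset.range (n + 2)).filter Nat.Prime).card := by
      unfold Nat.primeCounting Nat.primeCounting'
      rw [Nat.count_eq_card_filter_range]
    rw [e]
    apply Finset.card_le_card
    intro r hr
    rw [Finset.mem_filter, Finset.mem_range]
    have := hc r (hS r hr) (Nat.dvd_of_mem_primeFactors hr)
    exact ⟨by omega, hS r hr⟩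
  calc c = ∏ r ∈ c.primeFactors, r ^ c.factorization r := h1
    _ ≤ ∏ r ∈ c.primeFactors, (r ^ b r * 12 ^ n) := h2
    _ = (∏ r ∈ c.primeFactors, r ^ b r) * (12 ^ n) ^ c.primeFactors.card := h3
    _ ≤ n.factorial * (12 ^ n) ^ Nat.primeCounting (n + 1) :=
        Nat.mul_le_mul h4 (Nat.pow_le_pow_right (by positivity) h5)
    _ = n.factorial * 12 ^ (n * Nat.primeCounting (n + 1)) := by rw [pow_mul]

/-- The explicit Jordan bound, from a uniform abelian normal subgroup `A` and an abelian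
subgroup `AT` whose index has no prime divisor above `n + 1`. -/
theorem jordan_bound [Finite G] (χ : G → ℂ) (hχ : IsCharacter G χ)
    (hfaith : ∀ g : G, χ g = χ 1 → g = 1) (n : ℕ) (hn : charDegree χ = n)
    (A : Subgroup G) [A.Normal]
    (hA12 : ∀ H : Subgroup G, (∀ x ∈ H, ∀ y ∈ H, x * y = y * x) →
      (A.subgroupOf H).index ≤ 12 ^ n)
    (AT : Subgroup G) (hATab : ∀ x ∈ AT, ∀ y ∈ AT, x * y = y * x)
    (hATidx : ∀ q : ℕ, q.Prime → q ∣ AT.index → q ≤ n + 1) :
    A.index ≤ n.factorial * 12 ^ (n * (Nat.primeCounting (n + 1) + 1)) := by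
  have h1 : A.relIndex (AT ⊔ A) * (AT ⊔ A).index = A.index :=
    Subgroup.relIndex_mul_index le_sup_right
  rw [Subgroup.relIndex_sup_right] at h1
  have h2 : A.relIndex AT ≤ 12 ^ n := hA12 AT hATab
  have hc0 : (AT ⊔ A).index ≠ 0 := Subgroup.index_ne_zero_of_finite
  have h3 : (AT ⊔ A).index ≤ n.factorial * 12 ^ (n * Nat.primeCounting (n + 1)) := by
    apply jordan_arith _ n hc0
    · intro q hq hd
      exact hATidx q hq (dvd_trans hd (Subgroup.index_dvd_of_le le_sup_left))
    · intro r hr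
      haveI := Fact.mk hr
      obtain ⟨b, hb1, hb2⟩ := jordan_rpart χ hχ hfaith n hn A hA12 r
      refine ⟨b, hb1, hb2 _ ?_⟩
      rw [← h1]
      exact dvd_trans (Nat.ordProj_dvd _ r) (dvd_mul_left _ _)
  calc A.index = A.relIndex AT * (AT ⊔ A).index := h1.symm
    _ ≤ 12 ^ n * (n.factorial * 12 ^ (n * Nat.primeCounting (n + 1))) := Nat.mul_le_mul h2 h3
    _ = n.factorial * 12 ^ (n * (Nat.primeCounting (n + 1) + 1)) := by
        rw [mul_add, mul_one, pow_add]; ring

end Jordan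

end Cfsg.Agent.H4
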