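import Mathlib
import Cfsg.Prelude.Def_Characters
import Cfsg.Prelude.Def_Blocks
import Cfsg.Prelude.Def_Local
import Cfsg.Agent.H4.ItoP1
import Cfsg.Agent.H4.Blich2
import Cfsg.Agent.H4.Jordan
import Cfsg.Agent.H80.PSolvable
import Cfsg.Agent.H80.GroupBasic
import Cfsg.Agent.H37.AG

/-!
# Itô's theorem on `p`-solvable linear groups of degree at most `p - 1` (S4468)
-/

set_option autoImplicit false
set_option linter.unusedSectionVars false
set_option linter.style.haveILetI false

namespace Cfsg.Agent.H4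

open Module Representation

universe u

open scoped ComplexConjugate

section ItoP2

variable {G : Type u} [Group G]

/-- A character not containing `g` in its kernel has an irreducible constituent not containing
`g` in its kernel; its degree is at most that of the character, with equality only if the
character is this constituent. -/
theorem exists_irr_constituent_ne [Finite G] {χ : G → ℂ} (hχ : IsCharacter G χ) (g : G)
    (hg : χ g ≠ χ 1) :
    ∃ ψ : IrrCharacter G, ψ.1 g ≠ ψ.1 1 ∧ charDegree ψ.1 ≤ charDegree χ ∧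
      (charDegree ψ.1 = charDegree χ → χ = ψ.1) := by
  classical
  letI := fintypeIrr G
  obtain ⟨m, hm⟩ := isCharacter_iff.mp hχ
  have hval : ∀ x : G, χ x = ∑ ψ : IrrCharacter G, (m ψ : ℂ) * ψ.1 x := by
    intro x
    rw [hm, finsum_irr_eq_sum, Finset.sum_apply]
    rfl
  have hdeg : charDegree χ = ∑ ψ : IrrCharacter G, m ψ * charDegree ψ.1 := by
    have h1 : χ 1 = ((∑ ψ : IrrCharacter G, m ψ * charDegree ψ.1 : ℕ) : ℂ) := by
      rw [hval 1]; push_cast
      refine Finset.sum_congr rfl fun ψ _ => ?_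
      rw [isCharacter_one_eq (isCharacter_of_isIrrCharacter ψ.2)]
    exact charDegree_of_natCast h1
  have hex : ∃ ψ : IrrCharacter G, m ψ ≠ 0 ∧ ψ.1 g ≠ ψ.1 1 := by
    by_contra hcon
    push Not at hcon
    apply hg
    rw [hval g, hval 1]
    refine Finset.sum_congr rfl fun ψ _ => ?_
    by_cases h0 : m ψ = 0
    · rw [h0]; simp
    · rw [hcon ψ h0]
  obtain ⟨ψ, hm0, hψg⟩ := hex
  have hsplit : ∑ φ : IrrCharacter G, m φ * charDegree φ.1 =
      m ψ * charDegree ψ.1 + ∑ φ ∈ Finset.univ.erase ψ, m φ * charDegree φ.1 :=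
    (Finset.add_sum_erase _ _ (Finset.mem_univ ψ)).symm
  have h1 : charDegree ψ.1 ≤ m ψ * charDegree ψ.1 :=
    Nat.le_mul_of_pos_left _ (Nat.pos_of_ne_zero hm0)
  refine ⟨ψ, hψg, ?_, ?_⟩
  · rw [hdeg, hsplit]
    omega
  · intro heq
    rw [hdeg, hsplit] at heq
    have hpos := irr_charDegree_pos ψ
    have hrest : ∑ φ ∈ Finset.univ.erase ψ, m φ * charDegree φ.1 = 0 := by omega
    have hmψ : m ψ * charDegree ψ.1 = charDegree ψ.1 := by omega
    have hmψ1 : m ψ = 1 := Nat.eq_of_mul_eq_mul_right hpos (by rw [hmψ, one_mul])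
    have hmφ : ∀ φ : IrrCharacter G, φ ≠ ψ → m φ = 0 := by
      intro φ hφ
      have h2 := (Finset.sum_eq_zero_iff.mp hrest) φ
        (Finset.mem_erase.mpr ⟨hφ, Finset.mem_univ φ⟩)
      rcases Nat.mul_eq_zero.mp h2 with h | h
      · exact h
      · have := irr_charDegree_pos φ; omega
    funext x
    rw [hval x, Finset.sum_eq_single ψ (fun φ _ hφ => by rw [hmφ φ hφ]; simp)
      (fun h => absurd (Finset.mem_univ ψ) h), hmψ1]
    simp

/-- Let `χ` be a character of `G` of degree at most `p - 1`, and `K ⊴ L ≤ G` with `K` a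
`p'`-group of `p`-power index in `L`. If some commutator of a `p`-element of `L` with an element of
`L` is not in `ker χ`, then `χ` has degree `p - 1`, is irreducible, and restricts irreducibly
to `K`. -/
theorem small_degree_noncentral [Finite G] {χ : G → ℂ} (hχ : IsCharacter G χ) (p : ℕ)
    (hp : p.Prime) (hdeg : charDegree χ + 1 ≤ p) (L K : Subgroup G) (hKL : K ≤ L)
    (hKn : (K.subgroupOf L).Normal) (hcop : (Nat.card K).Coprime p) (a : ℕ)
    (hidx : K.relIndex L = p ^ a) (j : ℕ) (x : G) (hxL : x ∈ L) (hx : x ^ (p ^ j) = 1) (k : G)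
    (hkL : k ∈ L) (hne : χ (x * k * x⁻¹ * k⁻¹) ≠ χ 1) :
    charDegree χ + 1 = p ∧ IsIrrCharacter G χ ∧ IsIrrCharacter K (fun n : K => χ n) := by
  obtain ⟨ψ, hψg, hψdeg, hψeq⟩ := exists_irr_constituent_ne hχ _ hne
  have hψc := isCharacter_of_isIrrCharacter ψ.2
  have hψL : IsCharacter L (fun l : L => ψ.1 l) := isCharacter_restrict L hψc
  obtain ⟨c, hc⟩ : ∃ c : L, c = (⟨x, hxL⟩ : L) * ⟨k, hkL⟩ * (⟨x, hxL⟩ : L)⁻¹ * (⟨k, hkL⟩ : L)⁻¹ :=
    ⟨_, rfl⟩
  have hcval : (c : G) = x * k * x⁻¹ * k⁻¹ := by rw [hc]; rfl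
  have hne2 : (fun l : L => ψ.1 l) c ≠ (fun l : L => ψ.1 l) 1 := by
    show ψ.1 (c : G) ≠ ψ.1 ((1 : L) : G)
    rw [hcval]
    exact hψg
  obtain ⟨ψ', hψ'g, hψ'deg, hψ'eq⟩ := exists_irr_constituent_ne hψL c hne2
  have hdegL : charDegree (fun l : L => ψ.1 l) = charDegree ψ.1 :=
    H82.charDegree_eq_of_one_eq rfl
  have hcop' : (Nat.card (K.subgroupOf L)).Coprime p := by
    rw [Nat.card_congr (Subgroup.subgroupOfEquivOfLe hKL).toEquiv]
    exact hcop
  have hx' : (⟨x, hxL⟩ : L) ^ (p ^ j) = 1 := Subtype.ext hx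
  have hge : ¬ (charDegree ψ'.1 + 1 < p) := by
    intro hlt
    haveI := hKn
    have h1 := comm_ker_of_small_degree (K.subgroupOf L) p a hp hcop' hidx ψ'.2 hlt j
      (⟨x, hxL⟩ : L) hx' ⟨k, hkL⟩
    rw [← hc] at h1
    exact hψ'g h1
  rw [hdegL] at hψ'deg hψ'eq
  have e1 : charDegree ψ'.1 = charDegree ψ.1 := by omega
  have e2 : charDegree ψ.1 = charDegree χ := by omega
  have e3 : charDegree χ + 1 = p := by omega
  have hχψ : χ = ψ.1 := hψeq e2
  refine ⟨e3, ?_, ?_⟩
  · rw [hχψ]; exact ψ.2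
  · have hres : (fun l : L => ψ.1 l) = ψ'.1 := hψ'eq e1
    have hnd : ¬ p ∣ charDegree ψ'.1 := by
      have hpos := irr_charDegree_pos ψ'
      exact Nat.not_dvd_of_pos_of_lt hpos (by omega)
    have hr : (Subgroup.inclusion hKL).range = K.subgroupOf L := Subgroup.inclusion_range hKL
    have := res_irr_of_index_pow_aux p hp a L K (Subgroup.inclusion hKL)
      (Subgroup.inclusion_injective hKL) (by rw [hr]; exact hKn) (by rw [hr]; exact hidx)
      ψ'.1 ψ'.2 hnd
    rw [← hres] at this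
    rw [hχψ]
    exact this

/-- **Itô's theorem**: a finite `p`-solvable group with a faithful character of degree
`n ≤ p - 1` and a non-normal Sylow `p`-subgroup has `n = p - 1` a power of `2`, and the character
is irreducible. -/
theorem ito_psolvable [Finite G] (χ : G → ℂ) (hχ : IsCharacter G χ)
    (hfaith : ∀ g : G, χ g = χ 1 → g = 1) (p : ℕ) (hp : p.Prime) (hsolv : IsPSolvable p G)
    (hnp : charDegree χ + 1 ≤ p) (P : Sylow p G) (hP : ¬ (P : Subgroup G).Normal) :
    charDegree χ + 1 = p ∧ (∃ k : ℕ, charDegree χ = 2 ^ k) ∧ IsIrrCharacter G χ := by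
  haveI : Fact p.Prime := ⟨hp⟩
  -- (1) `P` is abelian
  have hPab : ∀ a ∈ (P : Subgroup G), ∀ b ∈ (P : Subgroup G), a * b = b * a := by
    intro a ha b hb
    have hχP : IsCharacter (P : Subgroup G) (fun h : (P : Subgroup G) => χ h) :=
      isCharacter_restrict _ hχ
    have hfP : ∀ g : (P : Subgroup G), (fun h : (P : Subgroup G) => χ h) g =
        (fun h : (P : Subgroup G) => χ h) 1 → g = 1 := by
      intro g hg
      exact Subtype.ext (hfaith g hg)
    obtain ⟨c, hc⟩ := IsPGroup.iff_card.mp P.2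
    have hidx : (⊥ : Subgroup (P : Subgroup G)).index = p ^ c := by
      rw [Subgroup.index_bot]; exact hc
    have hdP : charDegree (fun h : (P : Subgroup G) => χ h) = charDegree χ :=
      H82.charDegree_eq_of_one_eq rfl
    have := comm_of_faithful_of_index_pow hχP hfP p c hp (by rw [hdP]; omega)
      (⊥ : Subgroup (P : Subgroup G)) (by
        intro a ha b hb; rw [Subgroup.mem_bot] at ha hb; rw [ha, hb]) hidx ⟨a, ha⟩ ⟨b, hb⟩
    exact congrArg Subtype.val this
  obtain ⟨K, hKdef⟩ : ∃ K : Subgroup G, K = pPrimeCore p G := ⟨_, rfl⟩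
  haveI hKn : K.Normal := by rw [hKdef]; infer_instance
  have hKcop : (Nat.card K).Coprime p := by rw [hKdef]; exact H80.pPrimeCore_coprime p G
  -- (2) `P ≤ O_{p',p}(G)`
  have hPL : (P : Subgroup G) ≤ pPrimePCore p G := by
    have hsolvQ : IsPSolvable p (G ⧸ pPrimeCore p G) :=
      H80.isPSolvable_quotient p (pPrimeCore p G) hsolv
    have hbot : pPrimeCore p (G ⧸ pPrimeCore p G) = ⊥ := H80.pPrimeCore_quotient_eq_bot p
    have hcent := H80.centralizer_pCore_le p hsolvQ hbot
    have hsurj := QuotientGroup.mk'_surjective (pPrimeCore p G)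
    have hpg : IsPGroup p (pCore p (G ⧸ pPrimeCore p G)) := H80.pCore_isPGroup p _
    have h1 : pCore p (G ⧸ pPrimeCore p G) ≤
        ((P.mapSurjective hsurj : Sylow p (G ⧸ pPrimeCore p G)) :
          Subgroup (G ⧸ pPrimeCore p G)) := hpg.le_sylow_of_normal _
    intro y hy
    show y ∈ (pCore p (G ⧸ pPrimeCore p G)).comap (QuotientGroup.mk' (pPrimeCore p G))
    rw [Subgroup.mem_comap]
    apply hcent
    rw [Subgroup.mem_centralizer_iff]
    intro z hz
    obtain ⟨s, hs, hsz⟩ := h1 hz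
    rw [← hsz, ← map_mul, ← map_mul, hPab s hs y hy]
  -- (3) `P` does not centralize `K`
  have hex : ∃ x ∈ (P : Subgroup G), ∃ k ∈ K, x * k ≠ k * x := by
    by_contra hcon
    push Not at hcon
    apply hP
    have hKC : K ≤ Subgroup.centralizer ((P : Subgroup G) : Set G) := by
      intro k hk
      rw [Subgroup.mem_centralizer_iff]
      intro h hh
      exact hcon h hh k hk
    have hLN : pPrimePCore p G ≤ Subgroup.normalizer ((P : Subgroup G) : Set G) := by
      refine (H37.AG.pPrimePCore_le_sup P).trans (sup_le ?_ ?_)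
      · rw [← hKdef]
        exact hKC.trans (Subgroup.centralizer_le_normalizer _)
      · exact inf_le_left.trans Subgroup.le_normalizer
    haveI := H37.AG.pPrimePCore_normal (X := G) p
    have htop := Sylow.normalizer_sup_eq_top' P hPL
    have hNtop : Subgroup.normalizer ((P : Subgroup G) : Set G) = ⊤ := by
      rw [← htop]; exact (sup_eq_left.mpr hLN).symm
    exact Subgroup.normalizer_eq_top_iff.mp hNtop
  obtain ⟨x, hxP, k, hkK, hxk⟩ := hex
  have hpow : ∀ y ∈ (P : Subgroup G), ∃ j, y ^ (p ^ j) = 1 := by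
    intro y hy
    obtain ⟨j, hj⟩ := P.2 ⟨y, hy⟩
    exact ⟨j, congrArg Subtype.val hj⟩
  have hnecomm : ∀ y z : G, y * z ≠ z * y → χ (y * z * y⁻¹ * z⁻¹) ≠ χ 1 := by
    intro y z hyz h
    have h1 := hfaith _ h
    apply hyz
    have h2 := mul_inv_eq_one.mp h1
    exact mul_inv_eq_iff_eq_mul.mp h2
  obtain ⟨c, hc⟩ := IsPGroup.iff_card.mp P.2
  -- (4) degree and irreducibility
  obtain ⟨j, hxj⟩ := hpow x hxP
  have hidxKP : ∃ a, K.relIndex (K ⊔ P) = p ^ a := by
    rw [Subgroup.relIndex_sup_left]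
    have h1 : K.relIndex (P : Subgroup G) ∣ Nat.card (P : Subgroup G) :=
      Subgroup.relIndex_dvd_card _ _
    rw [hc] at h1
    obtain ⟨a, -, ha⟩ := (Nat.dvd_prime_pow hp).mp h1
    exact ⟨a, ha⟩
  obtain ⟨a, ha⟩ := hidxKP
  obtain ⟨h1, h2, -⟩ := small_degree_noncentral hχ p hp hnp (K ⊔ P) K le_sup_left inferInstance
    hKcop a ha j x (Subgroup.mem_sup_right hxP) hxj k (Subgroup.mem_sup_left hkK)
    (hnecomm x k hxk)
  refine ⟨h1, ?_, h2⟩
  -- (5) power of two
  by_cases hp2 : p = 2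
  · exact ⟨0, by omega⟩
  have hQ : ∀ q : ℕ, q.Prime → ∃ Q : Subgroup G, Q ≤ K ∧
      Nat.card Q = q ^ (Nat.card K).factorization q ∧
      (P : Subgroup G) ≤ Subgroup.normalizer (Q : Set G) := by
    intro q hq
    haveI : Fact q.Prime := ⟨hq⟩
    obtain ⟨Q0⟩ : Nonempty (Sylow q K) := inferInstance
    have hfr := Sylow.normalizer_sup_eq_top Q0
    have hidx := H80.index_dvd_card_of_sup_eq_top _ K hfr
    have hnd : ¬ p ∣ (Subgroup.normalizer
        (((Q0 : Subgroup K).map K.subtype : Subgroup G) : Set G)).index := by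
      intro h
      have h3 := Nat.Coprime.coprime_dvd_left (h.trans hidx) hKcop
      rw [Nat.coprime_self] at h3
      exact hp.ne_one h3
    obtain ⟨P', hP'⟩ := exists_sylow_le _ p hnd
    obtain ⟨g, hg⟩ := MulAction.exists_smul_eq G P' P
    refine ⟨((Q0 : Subgroup K).map K.subtype).map (MulAut.conj g).toMonoidHom, ?_, ?_, ?_⟩
    · rintro _ ⟨y, ⟨z, hz, rfl⟩, rfl⟩
      exact hKn.conj_mem _ z.2 g
    · rw [Subgroup.card_map_of_injective (MulAut.conj g).injective,
        Subgroup.card_map_of_injective K.subtype_injective, Sylow.card_eq_multiplicity]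
    · rw [← hg, Sylow.coe_subgroup_smul]
      intro y hy
      obtain ⟨w, hw, rfl⟩ := hy
      exact Subgroup.le_normalizer_map _ ⟨w, hP' hw, rfl⟩
  have hex2 : ∃ q : ℕ, q.Prime ∧ ∃ Q : Subgroup G, Q ≤ K ∧ (∃ b, Nat.card Q = q ^ b) ∧
      (P : Subgroup G) ≤ Subgroup.normalizer (Q : Set G) ∧
      ∃ x ∈ (P : Subgroup G), ∃ k ∈ Q, x * k ≠ k * x := by
    by_contra hcon
    push Not at hcon
    have hKC : K ≤ Subgroup.centralizer ((P : Subgroup G) : Set G) := by
      have hdvd : Nat.card K ∣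
          Nat.card (Subgroup.centralizer ((P : Subgroup G) : Set G) ⊓ K : Subgroup G) := by
        have hK0 : Nat.card K ≠ 0 := (Nat.card_pos (α := K)).ne'
        have hprod := Nat.prod_primeFactors_pow_factorization hK0
        rw [hprod]
        apply prod_prime_pow_dvd
        · intro r hr; exact Nat.prime_of_mem_primeFactors hr
        · intro r hr
          have hrp := Nat.prime_of_mem_primeFactors hr
          obtain ⟨Q, hQK, hQc, hQn⟩ := hQ r hrp
          rw [← hQc]
          apply Subgroup.card_dvd_of_le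
          intro y hy
          refine ⟨?_, hQK hy⟩
          show y ∈ Subgroup.centralizer ((P : Subgroup G) : Set G)
          rw [Subgroup.mem_centralizer_iff]
          intro h hh
          exact hcon r hrp Q hQK ⟨_, hQc⟩ hQn h hh y hy
      have heq : Subgroup.centralizer ((P : Subgroup G) : Set G) ⊓ K = K := by
        apply Subgroup.eq_of_le_of_card_ge inf_le_right
        exact Nat.le_of_dvd Nat.card_pos hdvd
      rw [← heq]; exact inf_le_left
    have h3 := hKC hkK
    rw [Subgroup.mem_centralizer_iff] at h3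
    exact hxk (h3 x hxP)
  obtain ⟨q, hq, Q, hQK, ⟨b, hQb⟩, hQn, x', hx'P, k', hk'Q, hx'k'⟩ := hex2
  have hQcop : (Nat.card Q).Coprime p :=
    Nat.Coprime.coprime_dvd_left (Subgroup.card_dvd_of_le hQK) hKcop
  have hQnorm : (Q.subgroupOf (Q ⊔ P)).Normal := by
    apply Subgroup.normal_subgroupOf_of_le_normalizer
    exact sup_le Subgroup.le_normalizer hQn
  have hidxQ : ∃ a', Q.relIndex (Q ⊔ P) = p ^ a' := by
    haveI := Subgroup.normal_subgroupOf_of_le_normalizer hQn
    haveI := Subgroup.normal_subgroupOf_sup_of_le_normalizer hQn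
    have e : (P : Subgroup G) ⧸ Q.subgroupOf (P : Subgroup G) ≃*
        ((P : Subgroup G) ⊔ Q : Subgroup G) ⧸ Q.subgroupOf ((P : Subgroup G) ⊔ Q) :=
      QuotientGroup.quotientInfEquivProdNormalizerQuotient (P : Subgroup G) Q hQn
    have h3 : Q.relIndex ((P : Subgroup G) ⊔ Q) = Q.relIndex (P : Subgroup G) := by
      unfold Subgroup.relIndex
      rw [Subgroup.index_eq_card, Subgroup.index_eq_card]
      exact (Nat.card_congr e.toEquiv).symm
    rw [sup_comm, h3]
    have h4 : Q.relIndex (P : Subgroup G) ∣ Nat.card (P : Subgroup G) :=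
      Subgroup.relIndex_dvd_card _ _
    rw [hc] at h4
    obtain ⟨a', -, ha'⟩ := (Nat.dvd_prime_pow hp).mp h4
    exact ⟨a', ha'⟩
  obtain ⟨a', ha'⟩ := hidxQ
  obtain ⟨j', hx'j⟩ := hpow x' hx'P
  obtain ⟨-, -, h5⟩ := small_degree_noncentral hχ p hp hnp (Q ⊔ P) Q le_sup_left hQnorm hQcop
    a' ha' j' x' (Subgroup.mem_sup_right hx'P) hx'j k' (Subgroup.mem_sup_left hk'Q)
    (hnecomm x' k' hx'k')
  have hdvd : charDegree χ ∣ q ^ b := by
    have h6 := irr_degree_dvd_index ⟨_, h5⟩ (⊥ : Subgroup Q) (by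
      intro a ha b hb; rw [Subgroup.mem_bot] at ha hb; rw [ha, hb])
    rw [Subgroup.index_bot, hQb] at h6
    have hdQ : charDegree (fun n : Q => χ n) = charDegree χ := H82.charDegree_eq_of_one_eq rfl
    rwa [hdQ] at h6
  obtain ⟨c', -, hc'⟩ := (Nat.dvd_prime_pow hq).mp hdvd
  have hpodd : Odd p := hp.odd_of_ne_two hp2
  have heven : Even (charDegree χ) := by
    rcases Nat.even_or_odd (charDegree χ) with h | h
    · exact h
    · exfalso
      have h7 : Even (charDegree χ + 1) := h.add_one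
      rw [h1] at h7
      exact (Nat.not_even_iff_odd.mpr hpodd) h7
  rw [hc'] at heven
  have hq2 : q = 2 := by
    have h8 : 2 ∣ q ^ c' := even_iff_two_dvd.mp heven
    have h9 : 2 ∣ q := Nat.Prime.dvd_of_dvd_pow Nat.prime_two h8
    exact ((Nat.prime_dvd_prime_iff_eq Nat.prime_two hq).mp h9).symm
  exact ⟨c', by rw [hc', hq2]⟩

end ItoP2

end Cfsg.Agent.H4
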