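import Cfsg.Agent.H64.JzDefs
import Cfsg.Agent.H64.JzAsm2
import Cfsg.Agent.H58.Q46.Final
import Cfsg.Agent.H87.ZcLtJz
import Cfsg.Agent.H15.JzSC
import Cfsg.Agent.H3.JzOut1
import Cfsg.Agent.H25.JzOut2
import Cfsg.Agent.H90.JzSetup
import Cfsg.Agent.H46.JzNSE
import Cfsg.Agent.H91.JzMaxS
import Cfsg.Agent.H26.JzResAof
import Cfsg.Agent.H91.JzResNof
import Cfsg.Agent.H61.JzNorm
import Cfsg.Agent.H4.JzZ2of
import Cfsg.Agent.H28.JkMain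
import Cfsg.Agent.H52.SrMain
import Cfsg.Agent.H4.JkA
import Cfsg.Agent.H65.JkFix
import Cfsg.Agent.H24.JkZ
import Cfsg.Agent.H5.JkTrCore
import Cfsg.Agent.H3.JkTI28
import Cfsg.Agent.H4.JkF1

/-!
# JZ (S2951 / S2952): integration of the landed pieces (route 28 for JZ-KILL)

`stMain : Cfsg.Agent.H64.Jz.StMain` (the clause statement of S2951) and
`stNorm : Cfsg.Agent.H64.Jz.StNorm`, hypothesis-free, from the pieces on main and the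
clash-free copy `Cfsg.Agent.H58.Q46.s2946` of S2946.
-/

set_option autoImplicit false
open Cfsg

namespace Cfsg.Agent.H4.JzI

universe u

open Cfsg.Agent.H64.Jz

theorem stZ2 : StZ2.{u} :=
  Cfsg.Agent.H4.Jz.z2_of
    (fun hL hN hZ T hT hT1 K hK Z₀ hZ₀ => Cfsg.Agent.H58.Q46.s2946 hL hN hZ T hT hT1 K hK Z₀ hZ₀)

theorem stLt : StLt.{u} :=
  Cfsg.Agent.H87.Zc.stLt_of46
    (fun hL hN hZ T hT hT1 K hK Z₀ hZ₀ => Cfsg.Agent.H58.Q46.s2946 hL hN hZ T hT hT1 K hK Z₀ hZ₀)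

theorem stNorm : StNorm.{u} :=
  Cfsg.Agent.H61.Jz.norm_of
    (fun hL hN hZ T hT hT1 K hK Z₀ hZ₀ => Cfsg.Agent.H58.Q46.s2946 hL hN hZ T hT hT1 K hK Z₀ hZ₀)

theorem stResA : StResA.{u} :=
  Cfsg.Agent.H26.JzA.resA_of
    (fun hL hN hZ T hT hT1 K hK Z₀ hZ₀ => Cfsg.Agent.H58.Q46.s2946 hL hN hZ T hT hT1 K hK Z₀ hZ₀)

theorem stResN : StResN.{u} :=
  Cfsg.Agent.H91.JzR.resN_of
    (fun hL hN hZ T hT hT1 K hK Z₀ hZ₀ => Cfsg.Agent.H58.Q46.s2946 hL hN hZ T hT hT1 K hK Z₀ hZ₀)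
    stZ2

theorem stSetup : StSetup.{u} :=
  Cfsg.Agent.H90.Jz.setup Cfsg.Agent.H46.Jz.nse Cfsg.Agent.H91.Jz.maxS

theorem stKTr : Cfsg.Agent.H28.Jk.StKTr.{u} :=
  Cfsg.Agent.H5.Jk.ktr_of
    (fun hZN T K hT hT1 hK =>
      (Cfsg.Agent.H58.Q46.s2946 hZN.1 hZN.2.1 hZN.2.2 T hT hT1 K hK _ rfl).1)

theorem stKill : StKill.{u} :=
  Cfsg.Agent.H28.Jk.kill Cfsg.Agent.H52.Sr.struct Cfsg.Agent.H4.Jk.ka Cfsg.Agent.H65.Jk.kfix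
    Cfsg.Agent.H24.Jk.kz stKTr Cfsg.Agent.H3.Jk28.kti Cfsg.Agent.H4.Jk.kf1 stZ2 stLt stNorm

theorem stMain : StMain.{u} :=
  main stLt Cfsg.Agent.H15.Jz.sc Cfsg.Agent.H3.Jz.out1 Cfsg.Agent.H25.Jz.out2 stSetup stResA
    stResN stKill

end Cfsg.Agent.H4.JzI
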