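import Mathlib
import Cfsg.Agent.H64.JzDefs
import Cfsg.Agent.Helper55.J48
import Cfsg.Agent.H13.Basic

/-!
# JZ-Z2 (core): for `T < S`, `Ω₁Z(S)` has order 2

The core takes the consequences of S2950 (uniqueness of `L`, `T` Sylow in `L`), S2946 and the
existence of maximal 2-locals as hypotheses.
-/

set_option autoImplicit false
set_option linter.unusedSectionVars false
open Cfsg

namespace Cfsg.Agent.H4.Jz

universe u

open Cfsg.Agent.Helper55

variable {G : Type u} [Group G] [Finite G]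

theorem z2_omega_le (X : Subgroup G) :
    omegaCenterOf X ≤ X ⊓ Subgroup.centralizer (X : Set G) := by
  unfold omegaCenterOf omegaOne
  rw [Subgroup.closure_le]
  intro x hx
  exact hx.1

theorem z2_omega_ne_bot {P : Subgroup G} (hP : IsPGroup 2 ↥P) (hne : P ≠ ⊥) :
    omegaCenterOf P ≠ ⊥ := by
  haveI : Fact (Nat.Prime 2) := ⟨Nat.prime_two⟩
  haveI : Nontrivial ↥P := (Subgroup.nontrivial_iff_ne_bot P).mpr hne
  haveI := hP.center_nontrivial
  have hZ : IsPGroup 2 ↥(Subgroup.center ↥P) := hP.to_subgroup _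
  have hdvd : 2 ∣ Nat.card ↥(Subgroup.center ↥P) := by
    obtain ⟨k, hk⟩ := hZ.exists_card_eq
    have hk0 : k ≠ 0 := by
      rintro rfl
      rw [pow_zero] at hk
      have := (Subgroup.center ↥P).one_lt_card_iff_ne_bot.mpr
        ((Subgroup.nontrivial_iff_ne_bot _).mp inferInstance)
      omega
    rw [hk]
    exact dvd_pow_self 2 hk0
  obtain ⟨w, hw⟩ := exists_prime_orderOf_dvd_card' 2 hdvd
  have hw1 : ((w : ↥P) : G) ∈ omegaCenterOf P := by
    unfold omegaCenterOf omegaOne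
    apply Subgroup.subset_closure
    refine ⟨Subgroup.mem_inf.mpr ⟨(w : ↥P).2, ?_⟩, ?_⟩
    · refine Subgroup.mem_centralizer_iff.mpr ?_
      intro a ha
      have h1 := Subgroup.mem_center_iff.mp w.2 ⟨a, ha⟩
      exact congrArg Subtype.val h1
    · have h1 : w ^ 2 = 1 := by rw [← hw]; exact pow_orderOf_eq_one w
      have h2 := congrArg (fun x : ↥(Subgroup.center ↥P) => ((x : ↥P) : G)) h1
      simpa using h2
  intro hbot
  rw [hbot, Subgroup.mem_bot] at hw1
  have h3 : w = 1 := by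
    apply Subtype.ext
    apply Subtype.ext
    simpa using hw1
  rw [h3, orderOf_one] at hw
  omega

/-- A central involution of `T` lies in `J(T)`. -/
theorem z2_mem_J (T : Subgroup G) (x : G) (hxT : x ∈ T) (hx2 : x ^ 2 = 1)
    (hxc : ∀ t ∈ T, t * x = x * t) : x ∈ thompsonSubgroupOf 2 T := by
  obtain ⟨A, hA⟩ := ThJ.gens_nonempty T
  suffices hxA : x ∈ A from ThJ.gen_le_J hA hxA
  have hzp : IsElementaryAbelian 2 (Subgroup.zpowers x) := by
    refine ⟨inferInstance, ?_⟩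
    intro y hy
    obtain ⟨k, rfl⟩ := Subgroup.mem_zpowers_iff.mp hy
    rw [← zpow_natCast, ← zpow_mul, mul_comm, zpow_mul, zpow_natCast, hx2, one_zpow]
  have hB : IsElementaryAbelian 2 (A ⊔ Subgroup.zpowers x) := by
    refine Cfsg.Agent.H13.ea_sup hA.2.1 hzp ?_
    intro a ha b hb
    obtain ⟨k, rfl⟩ := Subgroup.mem_zpowers_iff.mp hb
    exact (Commute.zpow_right (show Commute a x from hxc a (hA.1 ha)) k).eq
  have hBT : A ⊔ Subgroup.zpowers x ≤ T :=
    sup_le hA.1 (Subgroup.zpowers_le.mpr hxT)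
  have hcard := ThJ.card_le_a T hBT hB
  rw [← hA.2.2] at hcard
  have hAB : A = A ⊔ Subgroup.zpowers x := Subgroup.eq_of_le_of_card_ge le_sup_left hcard
  rw [hAB]
  exact (le_sup_right : Subgroup.zpowers x ≤ A ⊔ Subgroup.zpowers x) (Subgroup.mem_zpowers x)

theorem z2_core (hL : IsCharacteristicTwoType G) (S : Sylow 2 G) (T K L : Subgroup G)
    (hT1 : T ≠ ⊥) (hTS : T ≤ (S : Subgroup G)) (hne : T ≠ (S : Subgroup G))
    (hLmax : IsMaximalTwoLocal L)
    (huniq : ∀ L' : Subgroup G, IsMaximalTwoLocal L' → K ⊔ thompsonSubgroupOf 2 T ≤ L' → L' = L)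
    (hsyl : IsSylowTwoIn T L)
    (hmaxex : ∀ X : Subgroup G, IsTwoLocal X → ∃ L' : Subgroup G, IsMaximalTwoLocal L' ∧ X ≤ L')
    (h46a : Nat.card ↥(omegaCenterOf (thompsonSubgroupOf 2 T) ⊓ wOf K) = 2)
    (h46b : (omegaCenterOf (thompsonSubgroupOf 2 T) ⊓ ((K ⊔ thompsonSubgroupOf 2 T) ⊓
        Subgroup.centralizer ((K ⊔ thompsonSubgroupOf 2 T : Subgroup G) : Set G))) ⊔
        (omegaCenterOf (thompsonSubgroupOf 2 T) ⊓ wOf K) =
        omegaCenterOf (thompsonSubgroupOf 2 T)) :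
    Nat.card ↥(omegaCenterOf (S : Subgroup G)) = 2 := by
  have hS2 : IsPGroup 2 ↥(S : Subgroup G) := S.isPGroup'
  have hJT : thompsonSubgroupOf 2 T ≤ T := ThJ.J_le T
  have hZle := z2_omega_le (S : Subgroup G)
  -- Step 1: `Z ≤ T`
  have hOT : pCoreOf 2 L ≤ T := J48.pCoreOf_le_of_sylowIn hsyl
  have hZT : omegaCenterOf (S : Subgroup G) ≤ T := by
    intro x hx
    have hx' := hZle hx
    have h1 : x ∈ Subgroup.centralizer (pCoreOf 2 L : Set G) :=
      Subgroup.centralizer_le (SetLike.coe_subset_coe.mpr (hOT.trans hTS))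
        (Subgroup.mem_inf.mp hx').2
    exact hOT (J48.centralizer_pCoreOf_le hL hLmax.1 h1)
  -- Step 2: `Z ≤ Z₀`
  have hZZ0 : omegaCenterOf (S : Subgroup G) ≤ omegaCenterOf (thompsonSubgroupOf 2 T) := by
    have hgen : ∀ x : G, x ∈ (S : Subgroup G) ⊓ Subgroup.centralizer ((S : Subgroup G) : Set G) →
        x ^ 2 = 1 → x ∈ thompsonSubgroupOf 2 T := by
      intro x hx hx2
      have hxZ : x ∈ omegaCenterOf (S : Subgroup G) := by
        unfold omegaCenterOf omegaOne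
        exact Subgroup.subset_closure ⟨hx, hx2⟩
      refine z2_mem_J T x (hZT hxZ) hx2 ?_
      intro t ht
      exact Subgroup.mem_centralizer_iff.mp (Subgroup.mem_inf.mp hx).2 t (hTS ht)
    unfold omegaCenterOf omegaOne
    apply Subgroup.closure_mono
    rintro x ⟨hx, hx2⟩
    refine ⟨Subgroup.mem_inf.mpr ⟨hgen x hx hx2, ?_⟩, hx2⟩
    exact Subgroup.centralizer_le (SetLike.coe_subset_coe.mpr (hJT.trans hTS))
      (Subgroup.mem_inf.mp hx).2
  -- Step 3: `Z ∩ C(K J) = 1`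
  have hdisj : ∀ y ∈ omegaCenterOf (S : Subgroup G),
      y ∈ Subgroup.centralizer ((K ⊔ thompsonSubgroupOf 2 T : Subgroup G) : Set G) → y = 1 := by
    intro y hyZ hyC
    by_contra hy1
    have hyS := hZle hyZ
    have hX : IsTwoLocal (Subgroup.normalizer ((Subgroup.zpowers y : Subgroup G) : Set G)) := by
      refine ⟨Subgroup.zpowers y, ?_, ?_, rfl⟩
      · exact hS2.to_le (Subgroup.zpowers_le.mpr (Subgroup.mem_inf.mp hyS).1)
      · intro h
        apply hy1
        have h' : y ∈ Subgroup.zpowers y := Subgroup.mem_zpowers y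
        rw [h] at h'
        exact Subgroup.mem_bot.mp h'
    obtain ⟨L', hL'max, hXL'⟩ := hmaxex _ hX
    have hcenX : ∀ g : G, g * y = y * g →
        g ∈ Subgroup.normalizer ((Subgroup.zpowers y : Subgroup G) : Set G) := by
      intro g hg
      apply Subgroup.centralizer_le_normalizer
      rw [Subgroup.mem_centralizer_iff]
      intro h hh
      obtain ⟨k, rfl⟩ := Subgroup.mem_zpowers_iff.mp hh
      exact ((Commute.zpow_right (show Commute g y from hg) k).eq).symm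
    have hKJX : K ⊔ thompsonSubgroupOf 2 T ≤ L' := by
      intro g hg
      exact hXL' (hcenX g (Subgroup.mem_centralizer_iff.mp hyC g hg))
    have hL'L : L' = L := huniq L' hL'max hKJX
    have hSL : (S : Subgroup G) ≤ L := by
      intro s hs
      rw [← hL'L]
      exact hXL' (hcenX s (Subgroup.mem_centralizer_iff.mp (Subgroup.mem_inf.mp hyS).2 s hs))
    apply hne
    have hdvd : T.relIndex (S : Subgroup G) ∣ T.relIndex L :=
      Dvd.intro _ (Subgroup.relIndex_mul_relIndex T (S : Subgroup G) L hTS hSL)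
    obtain ⟨n, hn⟩ := hS2.index (T.subgroupOf (S : Subgroup G))
    have hodd : Odd (T.relIndex (S : Subgroup G)) := Odd.of_dvd_nat hsyl.2.2 hdvd
    have h1 : T.relIndex (S : Subgroup G) = 1 := by
      have hn' : T.relIndex (S : Subgroup G) = 2 ^ n := hn
      rw [hn'] at hodd ⊢
      cases n with
      | zero => rfl
      | succ n =>
        exfalso
        rw [pow_succ] at hodd
        exact (Nat.not_even_iff_odd.mpr hodd) (even_two.mul_left _)
    exact le_antisymm hTS (Subgroup.relIndex_eq_one.mp h1)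
  -- Step 4: counting
  have hZ0le := z2_omega_le (thompsonSubgroupOf 2 T)
  obtain ⟨D, hDdef⟩ : ∃ D : Subgroup G, D = omegaCenterOf (thompsonSubgroupOf 2 T) ⊓
      ((K ⊔ thompsonSubgroupOf 2 T) ⊓
        Subgroup.centralizer ((K ⊔ thompsonSubgroupOf 2 T : Subgroup G) : Set G)) := ⟨_, rfl⟩
  obtain ⟨Y, hYdef⟩ : ∃ Y : Subgroup G, Y = omegaCenterOf (thompsonSubgroupOf 2 T) ⊓ wOf K :=
    ⟨_, rfl⟩
  rw [← hDdef, ← hYdef] at h46b
  rw [← hYdef] at h46a
  have hDcen : ∀ c ∈ D, c ∈ Subgroup.centralizer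
      ((K ⊔ thompsonSubgroupOf 2 T : Subgroup G) : Set G) := by
    intro c hc
    rw [hDdef] at hc
    exact (Subgroup.mem_inf.mp (Subgroup.mem_inf.mp hc).2).2
  have hcomm : ∀ a ∈ omegaCenterOf (thompsonSubgroupOf 2 T),
      ∀ b ∈ omegaCenterOf (thompsonSubgroupOf 2 T), a * b = b * a := by
    intro a ha b hb
    exact Subgroup.mem_centralizer_iff.mp (Subgroup.mem_inf.mp (hZ0le hb)).2 a
      (Subgroup.mem_inf.mp (hZ0le ha)).1
  have hDZ0 : D ≤ omegaCenterOf (thompsonSubgroupOf 2 T) := by rw [hDdef]; exact inf_le_left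
  have hYZ0 : Y ≤ omegaCenterOf (thompsonSubgroupOf 2 T) := by rw [hYdef]; exact inf_le_left
  obtain ⟨F, hF⟩ : ∃ F : Subgroup G, ∀ g, g ∈ F ↔ ∃ c ∈ D, ∃ y ∈ Y, g = c * y := by
    refine ⟨{ carrier := {g | ∃ c ∈ D, ∃ y ∈ Y, g = c * y}
              mul_mem' := ?_
              one_mem' := ⟨1, D.one_mem, 1, Y.one_mem, by simp⟩
              inv_mem' := ?_ }, fun _ => Iff.rfl⟩
    · rintro _ _ ⟨c, hc, y, hy, rfl⟩ ⟨c', hc', y', hy', rfl⟩
      refine ⟨c * c', D.mul_mem hc hc', y * y', Y.mul_mem hy hy', ?_⟩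
      have h1 : y * c' = c' * y := hcomm y (hYZ0 hy) c' (hDZ0 hc')
      calc c * y * (c' * y') = c * (y * c') * y' := by group
        _ = c * (c' * y) * y' := by rw [h1]
        _ = c * c' * (y * y') := by group
    · rintro _ ⟨c, hc, y, hy, rfl⟩
      refine ⟨c⁻¹, D.inv_mem hc, y⁻¹, Y.inv_mem hy, ?_⟩
      have h1 : y⁻¹ * c⁻¹ = c⁻¹ * y⁻¹ :=
        hcomm _ (hYZ0 (Y.inv_mem hy)) _ (hDZ0 (D.inv_mem hc))
      rw [mul_inv_rev, h1]
  have hZ0F : omegaCenterOf (thompsonSubgroupOf 2 T) ≤ F := by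
    rw [← h46b]
    refine sup_le ?_ ?_
    · intro c hc
      exact (hF c).mpr ⟨c, hc, 1, Y.one_mem, by simp⟩
    · intro y hy
      exact (hF y).mpr ⟨1, D.one_mem, y, hy, by simp⟩
  -- the nontrivial element of `Y`
  obtain ⟨w, -, hwuniq⟩ := (Nat.card_eq_two_iff' (1 : ↥Y)).mp h46a
  have hYw : ∀ y ∈ Y, y = 1 ∨ y = (w : G) := by
    intro y hy
    by_cases h1 : y = 1
    · exact Or.inl h1
    · right
      have h2 := hwuniq ⟨y, hy⟩ (fun h => h1 (congrArg Subtype.val h))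
      exact congrArg Subtype.val h2
  have hdec : ∀ z ∈ omegaCenterOf (S : Subgroup G), z ≠ 1 → ∃ c ∈ D, z = c * (w : G) := by
    intro z hz hz1
    obtain ⟨c, hc, y, hy, rfl⟩ := (hF z).mp (hZ0F (hZZ0 hz))
    rcases hYw y hy with rfl | rfl
    · exfalso
      apply hz1
      rw [mul_one] at hz ⊢
      exact hdisj c hz (hDcen c hc)
    · exact ⟨c, hc, rfl⟩
  have hall : ∀ z ∈ omegaCenterOf (S : Subgroup G), ∀ z' ∈ omegaCenterOf (S : Subgroup G),
      z ≠ 1 → z' ≠ 1 → z = z' := by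
    intro z hz z' hz' hz1 hz'1
    obtain ⟨c, hc, rfl⟩ := hdec z hz hz1
    obtain ⟨c', hc', rfl⟩ := hdec z' hz' hz'1
    have h1 : c * (w : G) * (c' * (w : G))⁻¹ = c * c'⁻¹ := by group
    have h2 : c * c'⁻¹ = 1 := by
      apply hdisj
      · rw [← h1]
        exact Subgroup.mul_mem _ hz (Subgroup.inv_mem _ hz')
      · exact hDcen _ (D.mul_mem hc (D.inv_mem hc'))
    have h3 : c = c' := by
      rw [mul_inv_eq_one] at h2
      exact h2
    rw [h3]
  have hS1 : (S : Subgroup G) ≠ ⊥ := by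
    intro h
    apply hT1
    rw [eq_bot_iff, ← h]
    exact hTS
  have hZne := z2_omega_ne_bot hS2 hS1
  obtain ⟨z₁, hz₁1⟩ := (Subgroup.ne_bot_iff_exists_ne_one).mp hZne
  refine (Nat.card_eq_two_iff' (1 : ↥(omegaCenterOf (S : Subgroup G)))).mpr ⟨z₁, hz₁1, ?_⟩
  intro z hz
  apply Subtype.ext
  exact hall z z.2 z₁ z₁.2 (fun h => hz (Subtype.ext h)) (fun h => hz₁1 (Subtype.ext h))

end Cfsg.Agent.H4.Jz
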