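import Mathlib
import Cfsg.Agent.H95.OhDefs
import Cfsg.Agent.H60.OtCommon

/-!
# S5992/S5993 piece CNTORB (helper4)

If the fixed space `K` of an isometry `x` of odd prime order `r ≠ p` has dimension `< c`, the
number of nondegenerate `m`-spaces of given type inside `K` is prime to `r`: the pointwise
stabiliser of `R = range (x - 1)` in the isometry group acts transitively on them (Witt) and has
order prime to `r`.
-/

set_option autoImplicit false

namespace Cfsg.Agent.H4.Oh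

open Cfsg.Agent.H45 Cfsg.Agent.H42.Spd Cfsg.Agent.H42.Ti Cfsg.Agent.H14.Ot Cfsg.Agent.H95.Oh Module

universe u v

section Abstract

variable {F : Type u} [Field F] {V : Type v} [AddCommGroup V] [Module F V]

theorem co_map_nondeg (B : V →ₗ[F] V →ₗ[F] F) (T : Module.End F V)
    (hT : ∀ x y, B (T x) (T y) = B x y) (W : Submodule F V) (hW : W ⊓ perp B W = ⊥) :
    W.map T ⊓ perp B (W.map T) = ⊥ := by
  rw [eq_bot_iff]
  rintro v ⟨hv1, hv2⟩
  obtain ⟨w, hw, rfl⟩ := hv1
  have hmem : w ∈ W ⊓ perp B W := by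
    refine ⟨hw, ?_⟩
    intro u hu
    rw [← hT]
    exact hv2 (T u) (Submodule.mem_map_of_mem hu)
  rw [hW, Submodule.mem_bot] at hmem
  rw [hmem, map_zero]
  exact Submodule.zero_mem _

theorem co_finrank_map (T : Module.End F V) (hinj : Function.Injective T) (W : Submodule F V) :
    Module.finrank F ↥(W.map T) = Module.finrank F ↥W :=
  (Submodule.equivMapOfInjective T hinj W).finrank_eq.symm

theorem co_plus_map (B : V →ₗ[F] V →ₗ[F] F) (T : Module.End F V)
    (hT : ∀ x y, B (T x) (T y) = B x y) (hinj : Function.Injective T) (W : Submodule F V)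
    (hW : Plus B W) : Plus B (W.map T) := by
  obtain ⟨U, hUW, hTI, hfr⟩ := hW
  refine ⟨U.map T, Submodule.map_mono hUW, ?_, ?_⟩
  · rintro a ⟨a', ha', rfl⟩ b ⟨b', hb', rfl⟩
    rw [hT]
    exact hTI a' ha' b' hb'
  · rw [co_finrank_map T hinj, co_finrank_map T hinj, hfr]

theorem co_range_ker (B : V →ₗ[F] V →ₗ[F] F) (T : Module.End F V)
    (hT : ∀ x y, B (T x) (T y) = B x y) :
    ∀ u ∈ LinearMap.range (T - 1), ∀ k ∈ LinearMap.ker (T - 1), B u k = 0 := by
  rintro u ⟨a, rfl⟩ k hk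
  have hk' : T k = k := by
    have := LinearMap.mem_ker.mp hk
    rw [LinearMap.sub_apply, Module.End.one_apply, sub_eq_zero] at this
    exact this
  have h1 : B (T a) k = B a k := by
    have h3 := hT a k
    rw [hk'] at h3
    exact h3
  rw [LinearMap.sub_apply, Module.End.one_apply, map_sub, LinearMap.sub_apply, h1, sub_self]

theorem co_range_nondeg (B : V →ₗ[F] V →ₗ[F] F) (T : Module.End F V)
    (hsymm : ∀ x y, B x y = B y x) (hnd : ∀ x, (∀ y, B x y = 0) → x = 0)
    (hKU : LinearMap.ker (T - 1) ⊔ LinearMap.range (T - 1) = ⊤)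
    (hRK : ∀ u ∈ LinearMap.range (T - 1), ∀ k ∈ LinearMap.ker (T - 1), B u k = 0) :
    LinearMap.range (T - 1) ⊓ perp B (LinearMap.range (T - 1)) = ⊥ := by
  rw [eq_bot_iff]
  rintro v ⟨hv1, hv2⟩
  rw [Submodule.mem_bot]
  apply hnd
  intro y
  have hy : y ∈ LinearMap.ker (T - 1) ⊔ LinearMap.range (T - 1) := by
    rw [hKU]
    trivial
  obtain ⟨k, hk, ρ, hρ, rfl⟩ := Submodule.mem_sup.mp hy
  rw [map_add, hRK v hv1 k hk, zero_add, hsymm]
  exact hv2 ρ hρ

theorem co_perp_range_le (B : V →ₗ[F] V →ₗ[F] F) (T : Module.End F V)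
    (hKU : LinearMap.ker (T - 1) ⊔ LinearMap.range (T - 1) = ⊤)
    (hRK : ∀ u ∈ LinearMap.range (T - 1), ∀ k ∈ LinearMap.ker (T - 1), B u k = 0)
    (hRnd : LinearMap.range (T - 1) ⊓ perp B (LinearMap.range (T - 1)) = ⊥) :
    perp B (LinearMap.range (T - 1)) ≤ LinearMap.ker (T - 1) := by
  intro v hv
  have hv' : v ∈ LinearMap.ker (T - 1) ⊔ LinearMap.range (T - 1) := by
    rw [hKU]
    trivial
  obtain ⟨k, hk, ρ, hρ, rfl⟩ := Submodule.mem_sup.mp hv'
  have hρ0 : ρ ∈ LinearMap.range (T - 1) ⊓ perp B (LinearMap.range (T - 1)) := by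
    refine ⟨hρ, ?_⟩
    intro u hu
    have h1 := hv u hu
    rw [map_add, hRK u hu k hk, zero_add] at h1
    exact h1
  rw [hRnd, Submodule.mem_bot] at hρ0
  rw [hρ0, add_zero]
  exact hk

theorem co_map_le_ker (B : V →ₗ[F] V →ₗ[F] F) (T : Module.End F V)
    (hperp : perp B (LinearMap.range (T - 1)) ≤ LinearMap.ker (T - 1))
    (hRK : ∀ u ∈ LinearMap.range (T - 1), ∀ k ∈ LinearMap.ker (T - 1), B u k = 0)
    (g : Module.End F V) (hg : ∀ x y, B (g x) (g y) = B x y)
    (hgR : ∀ v ∈ LinearMap.range (T - 1), g v = v) (W : Submodule F V)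
    (hW : W ≤ LinearMap.ker (T - 1)) : W.map g ≤ LinearMap.ker (T - 1) := by
  rintro v ⟨w, hw, rfl⟩
  apply hperp
  intro ρ hρ
  have h1 := hg ρ w
  rw [hgR ρ hρ] at h1
  rw [h1]
  exact hRK ρ hρ w (hW hw)

theorem co_eq_one [Fintype F] [FiniteDimensional F V] (hM : StOModc.{u, v}) (r : ℕ)
    (B : V →ₗ[F] V →ₗ[F] F) (g : Module.End F V) (hO : OCtx r B g) (R : Submodule F V)
    (hR : R ≤ LinearMap.ker (g - 1)) (k : ℕ)
    (hk : Module.finrank F V ≤ Module.finrank F ↥R + k) (hkc : k < cc F r) : g = 1 := by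
  obtain ⟨s, hs⟩ := hM F V r B g hO
  have h1 : kk g ⊤ = Module.finrank F ↥(LinearMap.ker (g - 1)) := by
    unfold kk
    rw [top_inf_eq]
  have h3 := Submodule.finrank_mono hR
  have hs0 : s = 0 := by
    by_contra hne
    have : cc F r ≤ cc F r * s := Nat.le_mul_of_pos_right _ (Nat.pos_of_ne_zero hne)
    omega
  rw [hs0, mul_zero, add_zero, h1] at hs
  have h5 : LinearMap.ker (g - 1) = ⊤ := Submodule.eq_top_of_finrank_eq hs.symm
  have h6 : g - 1 = 0 := LinearMap.ker_eq_top.mp h5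
  exact sub_eq_zero.mp h6

end Abstract

section Concrete

variable {F : Type u} [Field F] {ι : Type} [Fintype ι] [DecidableEq ι]

/-- The linear map of an invertible matrix. -/
abbrev tl (g : Matrix.GeneralLinearGroup ι F) : Module.End F (ι → F) :=
  Matrix.toLin' (g : Matrix ι ι F)

theorem tl_one : tl (1 : Matrix.GeneralLinearGroup ι F) = 1 := by
  unfold tl
  rw [Units.val_one, Matrix.toLin'_one]
  rfl

theorem tl_mul (g h : Matrix.GeneralLinearGroup ι F) : tl (g * h) = tl g * tl h := by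
  unfold tl
  rw [Units.val_mul, Matrix.toLin'_mul]
  rfl

theorem tl_pow (g : Matrix.GeneralLinearGroup ι F) (k : ℕ) : tl (g ^ k) = tl g ^ k := by
  unfold tl
  rw [Units.val_pow_eq_pow_val, Matrix.toLin'_pow]

theorem tl_inv_apply (g : Matrix.GeneralLinearGroup ι F) (v : ι → F) :
    tl g⁻¹ (tl g v) = v := by
  rw [← Module.End.mul_apply, ← tl_mul, inv_mul_cancel, tl_one, Module.End.one_apply]

theorem tl_injective (g : Matrix.GeneralLinearGroup ι F) : Function.Injective (tl g) := by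
  intro a b hab
  have := congrArg (tl g⁻¹) hab
  rwa [tl_inv_apply, tl_inv_apply] at this

theorem tl_eq_one (g : Matrix.GeneralLinearGroup ι F) (h : tl g = 1) : g = 1 := by
  apply Units.ext
  apply Matrix.toLin'.injective
  rw [Units.val_one, Matrix.toLin'_one]
  exact h

/-- The pointwise fixer of a subspace. -/
def fixGrp (R : Submodule F (ι → F)) : Subgroup (Matrix.GeneralLinearGroup ι F) where
  carrier := {g | ∀ v ∈ R, tl g v = v}
  mul_mem' := by
    intro g h hg hh v hv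
    show tl (g * h) v = v
    rw [tl_mul, Module.End.mul_apply, hh v hv, hg v hv]
  one_mem' := by
    intro v _
    show tl 1 v = v
    rw [tl_one, Module.End.one_apply]
  inv_mem' := by
    intro g hg v hv
    show tl g⁻¹ v = v
    have h1 := tl_inv_apply g v
    rw [hg v hv] at h1
    exact h1

theorem mem_fixGrp (R : Submodule F (ι → F)) (g : Matrix.GeneralLinearGroup ι F) :
    g ∈ fixGrp R ↔ ∀ v ∈ R, tl g v = v := Iff.rfl

/-- The action of a subgroup of `GL` on subspaces. -/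
@[reducible] def subAct (G : Subgroup (Matrix.GeneralLinearGroup ι F)) :
    MulAction ↥G (Submodule F (ι → F)) where
  smul g W := W.map (tl (g : Matrix.GeneralLinearGroup ι F))
  one_smul := by
    intro W
    show W.map (tl ((1 : ↥G) : Matrix.GeneralLinearGroup ι F)) = W
    rw [Subgroup.coe_one, tl_one]
    exact Submodule.map_id W
  mul_smul := by
    intro g h W
    show W.map (tl ((g * h : ↥G) : Matrix.GeneralLinearGroup ι F)) =
      (W.map (tl (h : Matrix.GeneralLinearGroup ι F))).map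
        (tl (g : Matrix.GeneralLinearGroup ι F))
    rw [Subgroup.coe_mul, tl_mul]
    exact Submodule.map_comp _ _ W

end Concrete

section Main

/-- **S5992-CNTORB.** -/
theorem cntOrb (hBr : StBridge.{u}) (hTrans : StOrbTrans.{u}) (hBoth : StBoth.{u, u})
    (hS : StOSplit.{u, u}) (hM : StOModc.{u, u}) : StCntOrb.{u} := by
  intro F _ _ p _ _ r hr hr2 hrp h2 d m pl hmev hm2 x hx hxr hmK hKc
  classical
  obtain ⟨B, hB1, hBsymm, hBnd, -, hBnon, hBplus, hBiso⟩ := hBr F d h2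
  obtain ⟨T, hT⟩ : ∃ T : Module.End F (Unit ⊕ (Fin d ⊕ Fin d) → F), T = tl x := ⟨_, rfl⟩
  have hT' : Matrix.toLin' (x : Matrix (Unit ⊕ (Fin d ⊕ Fin d)) (Unit ⊕ (Fin d ⊕ Fin d)) F) = T :=
    hT.symm
  rw [hT'] at hmK hKc ⊢
  have hTiso : ∀ a b, B (T a) (T b) = B a b := by
    rw [hT]
    exact (hBiso x).mp hx
  have hrF : (r : F) ≠ 0 := by
    intro h
    rw [CharP.cast_eq_zero_iff F p] at h
    exact hrp ((Nat.prime_dvd_prime_iff_eq (Fact.out : p.Prime) hr).mp h).symm
  have hTr : T ^ r = 1 := by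
    rw [hT, ← tl_pow, hxr, tl_one]
  obtain ⟨-, hKU, -⟩ := hS F (Unit ⊕ (Fin d ⊕ Fin d) → F) r T hrF hTr
  have hRK := co_range_ker B T hTiso
  have hKnd := Cfsg.Agent.H60.Ot.ker_nondeg B T hBsymm hBnd hKU hRK
  have hRnd := co_range_nondeg B T hBsymm hBnd hKU hRK
  have hperp := co_perp_range_le B T hKU hRK hRnd
  -- a starting point
  obtain ⟨W₀, hW₀K, hW₀nd, hW₀m, hW₀pl⟩ := hBoth F (Unit ⊕ (Fin d ⊕ Fin d) → F) B h2 hBsymm
    (LinearMap.ker (T - 1)) hKnd m pl hmev hm2 (by omega)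
  -- the group
  obtain ⟨G, hG⟩ : ∃ G : Subgroup (Matrix.GeneralLinearGroup (Unit ⊕ (Fin d ⊕ Fin d)) F),
      G = Cfsg.isometryGroup F (Cfsg.quadFormOdd d F) ⊓ fixGrp (LinearMap.range (T - 1)) :=
    ⟨_, rfl⟩
  let _ : MulAction ↥G (Submodule F (Unit ⊕ (Fin d ⊕ Fin d) → F)) := subAct G
  have hsmul : ∀ (g : ↥G) (W : Submodule F (Unit ⊕ (Fin d ⊕ Fin d) → F)),
      g • W = W.map (tl (g : Matrix.GeneralLinearGroup (Unit ⊕ (Fin d ⊕ Fin d)) F)) :=
    fun _ _ => rfl
  have hGmem : ∀ g : ↥G, (g : Matrix.GeneralLinearGroup (Unit ⊕ (Fin d ⊕ Fin d)) F) ∈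
      Cfsg.isometryGroup F (Cfsg.quadFormOdd d F) ⊓ fixGrp (LinearMap.range (T - 1)) := by
    intro g
    rw [← hG]
    exact g.2
  have hGiso : ∀ g : ↥G, ∀ a b,
      B (tl (g : Matrix.GeneralLinearGroup (Unit ⊕ (Fin d ⊕ Fin d)) F) a)
        (tl (g : Matrix.GeneralLinearGroup (Unit ⊕ (Fin d ⊕ Fin d)) F) b) = B a b :=
    fun g => (hBiso g).mp (hGmem g).1
  have hGfix : ∀ g : ↥G, ∀ v ∈ LinearMap.range (T - 1),
      tl (g : Matrix.GeneralLinearGroup (Unit ⊕ (Fin d ⊕ Fin d)) F) v = v :=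
    fun g => (hGmem g).2
  -- the set is the orbit of `W₀`
  have horb : ∀ W : Submodule F (Unit ⊕ (Fin d ⊕ Fin d) → F),
      (IsHE F d m pl W ∧ W ≤ LinearMap.ker (T - 1)) ↔ W ∈ MulAction.orbit ↥G W₀ := by
    intro W
    constructor
    · rintro ⟨⟨hWm, hWnd, hWpl⟩, hWK⟩
      obtain ⟨g, hg1, hg2, hg3⟩ := hTrans F d h2 (LinearMap.range (T - 1)) W₀ W
        ((hBnon _).mpr hRnd) ((hBnon _).mpr hW₀nd) hWnd
        (by
          intro u hu v hv
          rw [← hB1, hBsymm]
          exact hRK v hv u (hW₀K hu))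
        (by
          intro u hu v hv
          rw [← hB1, hBsymm]
          exact hRK v hv u (hWK hu))
        (by rw [hW₀m, hWm]) (by rw [hW₀m]; exact hmev)
        ((hBplus W₀).trans (hW₀pl.trans hWpl.symm))
      have hgG : g ∈ G := by
        rw [hG]
        exact ⟨hg1, hg2⟩
      exact ⟨⟨g, hgG⟩, hg3⟩
    · rintro ⟨g, rfl⟩
      beta_reduce
      have hinj := tl_injective (g : Matrix.GeneralLinearGroup (Unit ⊕ (Fin d ⊕ Fin d)) F)
      refine ⟨⟨?_, ?_, ?_⟩, ?_⟩
      · show Module.finrank F ↥(g • W₀) = m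
        rw [hsmul, co_finrank_map _ hinj, hW₀m]
      · rw [hBnon, hsmul]
        exact co_map_nondeg B _ (hGiso g) W₀ hW₀nd
      · rw [hBplus, ← hW₀pl]
        constructor
        · intro h
          have hh := co_plus_map B _ (hGiso g⁻¹) (tl_injective _) (g • W₀) h
          rw [← hsmul, inv_smul_smul] at hh
          exact hh
        · intro h
          rw [hsmul]
          exact co_plus_map B _ (hGiso g) hinj W₀ h
      · show g • W₀ ≤ LinearMap.ker (T - 1)
        rw [hsmul]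
        exact co_map_le_ker B T hperp hRK _ (hGiso g) (hGfix g) W₀ hW₀K
  have hcard : Nat.card {W : Submodule F (Unit ⊕ (Fin d ⊕ Fin d) → F) //
      IsHE F d m pl W ∧ W ≤ LinearMap.ker (T - 1)} = Nat.card ↥(MulAction.orbit ↥G W₀) :=
    Nat.card_congr (Equiv.subtypeEquivRight horb)
  have hdvd : Nat.card ↥(MulAction.orbit ↥G W₀) ∣ Nat.card ↥G := by
    have h := Nat.card_congr (MulAction.orbitProdStabilizerEquivGroup ↥G W₀)
    rw [Nat.card_prod] at h
    exact Dvd.intro _ h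
  intro hdiv
  rw [hcard] at hdiv
  have hrG : r ∣ Nat.card ↥G := hdiv.trans hdvd
  have hfact : Fact r.Prime := ⟨hr⟩
  obtain ⟨g, hg⟩ := exists_prime_orderOf_dvd_card' r hrG
  have hgr : g ^ r = 1 := by
    rw [← hg]
    exact pow_orderOf_eq_one g
  have hgO : OCtx r B (tl (g : Matrix.GeneralLinearGroup (Unit ⊕ (Fin d ⊕ Fin d)) F)) :=
    { prime := hr
      ne_two := hr2
      cast_ne := hrF
      two_ne := h2
      symm := hBsymm
      nondeg := hBnd
      isom := hGiso g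
      pow := by rw [← tl_pow, ← Subgroup.coe_pow, hgr, Subgroup.coe_one, tl_one] }
  have h1 := co_eq_one hM r B _ hgO (LinearMap.range (T - 1))
    (by
      intro v hv
      rw [LinearMap.mem_ker, LinearMap.sub_apply, Module.End.one_apply, hGfix g v hv, sub_self])
    (Module.finrank F ↥(LinearMap.ker (T - 1)))
    (le_of_eq (LinearMap.finrank_range_add_finrank_ker (T - 1)).symm) hKc
  have hg1 : g = 1 := Subtype.ext (tl_eq_one _ h1)
  rw [hg1, orderOf_one] at hg
  exact hr.one_lt.ne hg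

end Main

section check

example (hBr : StBridge.{u}) (hTrans : StOrbTrans.{u}) (hBoth : StBoth.{u, u})
    (hS : StOSplit.{u, u}) (hM : StOModc.{u, u}) : StCntOrb.{u} :=
  cntOrb hBr hTrans hBoth hS hM

end check

end Cfsg.Agent.H4.Oh
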