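import Mathlib
import Cfsg.Agent.H99.OrtDefs

/-!
# S5981-DIAGW (for helper99)

A diagonal matrix whose multiplicities are not symmetric under `ν ↦ c / ν` is not conjugate to a
similarity of a non-degenerate bilinear form.
-/

set_option autoImplicit false
open scoped MatrixGroups

namespace Cfsg.Agent.H4.Ort

open Cfsg.Agent.H99.Ort

universe u

section Core

variable {F : Type u} [Field F]

/-- A similarity `s` of a non-degenerate form: `rank (s - ν) = rank (s - c / ν)`. -/
theorem rank_sim_symm {n : ℕ} (s A : Matrix (Fin n) (Fin n) F) (c : F) (hA : IsUnit A.det)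
    (hc : c ≠ 0) (hs : s.transpose * A * s = c • A) (ν : F) (hν : ν ≠ 0) :
    (s - ν • (1 : Matrix (Fin n) (Fin n) F)).rank
      = (s - (c * ν⁻¹) • (1 : Matrix (Fin n) (Fin n) F)).rank := by
  have hsdet : IsUnit s.det := by
    have h1 := congrArg Matrix.det hs
    rw [Matrix.det_mul, Matrix.det_mul, Matrix.det_transpose, Matrix.det_smul] at h1
    rw [isUnit_iff_ne_zero] at hA ⊢
    intro h0
    rw [h0, zero_mul, zero_mul] at h1
    exact mul_ne_zero (pow_ne_zero _ hc) hA h1.symm
  have hAs : IsUnit (A * s).det := by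
    rw [Matrix.det_mul]
    exact hA.mul hsdet
  have hcν : -ν * (c * ν⁻¹) = -c := by
    field_simp
  have e : (s - ν • (1 : Matrix (Fin n) (Fin n) F)).transpose * (A * s)
      = (-ν) • (A * (s - (c * ν⁻¹) • (1 : Matrix (Fin n) (Fin n) F))) := by
    rw [Matrix.transpose_sub, Matrix.transpose_smul, Matrix.transpose_one, Matrix.sub_mul,
      Matrix.smul_mul, Matrix.one_mul, ← Matrix.mul_assoc, hs, Matrix.mul_sub, Matrix.mul_smul,
      Matrix.mul_one, smul_sub, smul_smul, hcν, neg_smul, neg_smul]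
    abel
  calc (s - ν • (1 : Matrix (Fin n) (Fin n) F)).rank
      = (s - ν • (1 : Matrix (Fin n) (Fin n) F)).transpose.rank := (Matrix.rank_transpose _).symm
    _ = ((s - ν • (1 : Matrix (Fin n) (Fin n) F)).transpose * (A * s)).rank :=
        (Matrix.rank_mul_eq_left_of_isUnit_det _ _ hAs).symm
    _ = ((-ν) • (A * (s - (c * ν⁻¹) • (1 : Matrix (Fin n) (Fin n) F)))).rank := by rw [e]
    _ = (A * (s - (c * ν⁻¹) • (1 : Matrix (Fin n) (Fin n) F))).rank := by
        have e2 : (-ν) • (A * (s - (c * ν⁻¹) • (1 : Matrix (Fin n) (Fin n) F)))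
            = ((-ν) • (1 : Matrix (Fin n) (Fin n) F))
              * (A * (s - (c * ν⁻¹) • (1 : Matrix (Fin n) (Fin n) F))) := by
          rw [Matrix.smul_mul, Matrix.one_mul]
        have hu : IsUnit ((-ν) • (1 : Matrix (Fin n) (Fin n) F)).det := by
          rw [Matrix.det_smul, Matrix.det_one, mul_one]
          exact isUnit_iff_ne_zero.2 (pow_ne_zero _ (neg_ne_zero.mpr hν))
        rw [e2, Matrix.rank_mul_eq_right_of_isUnit_det _ _ hu]
    _ = (s - (c * ν⁻¹) • (1 : Matrix (Fin n) (Fin n) F)).rank :=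
        Matrix.rank_mul_eq_right_of_isUnit_det _ _ hA

/-- Conjugate matrices minus the same scalar have the same rank. -/
theorem rank_sub_smul_conj {n : ℕ} (x P s : Matrix (Fin n) (Fin n) F) (hP : IsUnit P.det)
    (h : x * P = P * s) (μ : F) :
    (x - μ • (1 : Matrix (Fin n) (Fin n) F)).rank
      = (s - μ • (1 : Matrix (Fin n) (Fin n) F)).rank := by
  have e : (x - μ • (1 : Matrix (Fin n) (Fin n) F)) * P
      = P * (s - μ • (1 : Matrix (Fin n) (Fin n) F)) := by
    rw [Matrix.sub_mul, Matrix.mul_sub, h, Matrix.smul_mul, Matrix.mul_smul, Matrix.one_mul,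
      Matrix.mul_one]
  rw [← Matrix.rank_mul_eq_left_of_isUnit_det P _ hP, e,
    Matrix.rank_mul_eq_right_of_isUnit_det P _ hP]

/-- The rank of `diagonal d - μ`. -/
theorem rank_diag_sub {n : ℕ} (d : Fin n → F) (μ : F) :
    (Matrix.diagonal d - μ • (1 : Matrix (Fin n) (Fin n) F)).rank
      + Nat.card {i : Fin n // d i = μ} = n := by
  classical
  have e : Matrix.diagonal d - μ • (1 : Matrix (Fin n) (Fin n) F)
      = Matrix.diagonal (fun i => d i - μ) := by
    rw [Matrix.smul_one_eq_diagonal, Matrix.diagonal_sub]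
  rw [e, Matrix.rank_diagonal, Nat.card_eq_fintype_card]
  have h1 := Fintype.card_subtype_compl (fun i : Fin n => d i = μ)
  have h2 : Fintype.card {i : Fin n // d i - μ ≠ 0} = Fintype.card {i : Fin n // ¬ d i = μ} := by
    apply Fintype.card_congr
    exact Equiv.subtypeEquivRight (fun i => by rw [Ne, sub_eq_zero])
  have h3 := Fintype.card_subtype_le (fun i : Fin n => d i = μ)
  rw [Fintype.card_fin] at h1 h3
  rw [h2, h1]
  omega

end Core

theorem diagW : Cfsg.Agent.H99.Ort.StDiagW.{u} := by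
  intro F _ _ n r d z hprod hd hnc hasym A hA
  classical
  refine ⟨Matrix.diagonal d, ?_, ?_, ?_, ?_⟩
  · rw [Matrix.det_diagonal, hprod]
  · rw [Matrix.diagonal_pow, Matrix.smul_one_eq_diagonal]
    congr 1
    funext i
    exact hd i
  · intro w hw
    obtain ⟨i, j, hij⟩ := hnc
    apply hij
    have hi := congrFun (congrFun hw i) i
    have hj := congrFun (congrFun hw j) j
    rw [Matrix.diagonal_apply_eq, Matrix.smul_apply, Matrix.one_apply_eq, smul_eq_mul, mul_one]
      at hi hj
    rw [hi, hj]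
  · rintro ⟨P, s, c, hP, hc, hMP, hs⟩
    apply hasym
    refine ⟨c, hc, ?_⟩
    intro ν hν
    have h1 := rank_diag_sub d ν
    have h2 := rank_diag_sub d (c * ν⁻¹)
    have h3 := rank_sub_smul_conj (Matrix.diagonal d) P s hP hMP ν
    have h4 := rank_sub_smul_conj (Matrix.diagonal d) P s hP hMP (c * ν⁻¹)
    have h5 := rank_sim_symm s A c hA hc hs ν hν
    omega

section check

example : Cfsg.Agent.H99.Ort.StDiagW.{u} := diagW

end check

end Cfsg.Agent.H4.Ort
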