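import Mathlib
import Cfsg.Agent.H99.OrtDefs
import Cfsg.Agent.H77.SubNT
import Cfsg.Agent.H99.ElKUM
import Cfsg.Agent.H61.SubDIAGZ

/-!
# S5981-E35 (for helper99)

The exceptional cases `n = r ∈ {3, 5}`, `(q - 1)_r = r`: every `x` of determinant `1` with `x ^ r`
scalar is conjugate (with prescribed determinant of the base change) to a similarity of
`diagonal (dgn r δ)`.
-/

set_option autoImplicit false
open scoped MatrixGroups

namespace Cfsg.Agent.H4.Ort

open Cfsg.Agent.H99.Ort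

universe u

theorem e35 : Cfsg.Agent.H99.Ort.StE35.{u} := by
  intro F _ _ q r hq hr h35 hv h2 x hdet z hx δ d₀ hδ hd₀ hcomb hcong
  classical
  have hr0 : 0 < r := hr.pos
  have hq1 : 1 ≤ q := by
    rw [← hq]
    exact Fintype.card_pos
  have hrodd : Even (r + 1) := by
    rcases h35 with h | h
    · rw [h]
      decide
    · rw [h]
      decide
  have hdvd : r ∣ q - 1 := by
    apply dvd_of_one_le_padicValNat
    omega
  have hrF : (r : F) ≠ 0 := by
    intro h0
    obtain ⟨m, hm⟩ := hdvd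
    have h1 : ((q - 1 : ℕ) : F) = 0 := by rw [hm, Nat.cast_mul, h0, zero_mul]
    rw [Nat.cast_sub hq1, Nat.cast_one, ← hq, FiniteField.cast_card_eq_zero, zero_sub] at h1
    exact one_ne_zero (neg_eq_zero.mp h1)
  -- `z ^ r = 1`
  have hzr : z ^ r = 1 := by
    have h1 := congrArg Matrix.det hx
    rw [Matrix.det_pow, hdet, one_pow, Matrix.det_smul, Matrix.det_one, mul_one,
      Fintype.card_fin] at h1
    exact h1.symm
  -- `z = 1`
  have hz1 : z = 1 := by
    by_contra hne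
    have hnp : ∀ b : F, b ^ r ≠ z := by
      intro b hb
      have h1 : b ^ (r ^ 2) = 1 := by rw [pow_two, pow_mul, hb, hzr]
      have h3 := Cfsg.Agent.H77.Sub.pow_eq_one_of_val_one r hr (by rw [hq]; exact hv) b h1
      rw [hb] at h3
      exact hne h3
    have hT : (Matrix.toLinAlgEquiv' x) ^ r = z • (1 : Module.End F (Fin r → F)) := by
      rw [← map_pow, hx, map_smul, map_one]
    have hdetT : LinearMap.det (Matrix.toLinAlgEquiv' x) = x.det := LinearMap.det_toLin' x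
    have h4 := Cfsg.Agent.H99.Kum.kummer_det (Matrix.toLinAlgEquiv' x) r hr z hnp hT
    rw [hdetT, hdet, Module.finrank_fin_fun, Nat.div_self hr0, pow_one, hrodd.neg_one_pow,
      one_mul] at h4
    exact hne h4.symm
  subst hz1
  rw [one_smul] at hx
  have hc : orderOf (Fintype.card F : ZMod r) = 1 := by
    rw [hq]
    exact (Cfsg.Agent.H77.Sub.dvd_sub_one_iff_order_one q r hr (by omega)).mp hdvd
  obtain ⟨Q₁, d, hQ₁, hd, hxQ⟩ := Cfsg.Agent.H61.Sub.exists_diagonalization r r hr hrF hc x hx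
  have hprod : ∏ i, d i = 1 := by
    have h1 := congrArg Matrix.det hxQ
    rw [Matrix.det_mul, Matrix.det_mul, hdet, one_mul, Matrix.det_diagonal] at h1
    have h3 : Q₁.det ≠ 0 := hQ₁.ne_zero
    have h4 : Q₁.det * 1 = Q₁.det * ∏ i, d i := by
      rw [mul_one]
      exact h1
    exact (mul_left_cancel₀ h3 h4).symm
  obtain ⟨π, c, hc0, hπ, hdπ⟩ := hcomb d hd hprod
  obtain ⟨D, hD⟩ : ∃ D : Matrix (Fin r) (Fin r) F, D = Matrix.diagonal d := ⟨_, rfl⟩
  obtain ⟨Pm, hPm⟩ : ∃ Pm : Matrix (Fin r) (Fin r) F, Pm = π.permMatrix F := ⟨_, rfl⟩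
  have hPmap : ∀ i j, Pm i j = if π i = j then 1 else 0 := by
    intro i j
    rw [hPm]
    simp [Equiv.Perm.permMatrix, PEquiv.toMatrix_apply, Equiv.toPEquiv_apply]
  have hPmT : Pm.transpose = Pm := by
    ext i j
    rw [Matrix.transpose_apply, hPmap, hPmap]
    by_cases h : π j = i
    · have h' : π i = j := by rw [← h, hπ]
      rw [if_pos h, if_pos h']
    · have h' : ¬ π i = j := by
        intro h''
        apply h
        rw [← h'', hπ]
      rw [if_neg h, if_neg h']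
  have hPmdet : Pm.det ≠ 0 := by
    rw [hPm, Matrix.det_permutation]
    rcases Int.units_eq_one_or (Equiv.Perm.sign π) with h | h <;> rw [h] <;> simp
  have hDPD : D * Pm * D = c • Pm := by
    ext i j
    rw [hD, Matrix.mul_diagonal, Matrix.diagonal_mul, Matrix.smul_apply, hPmap, smul_eq_mul]
    by_cases h : π i = j
    · rw [if_pos h, mul_one, mul_one, ← h]
      exact hdπ i
    · rw [if_neg h, mul_zero, zero_mul, mul_zero]
  -- the two forms
  obtain ⟨A₀, hA₀⟩ : ∃ A₀ : Matrix (Fin r) (Fin r) F, A₀ = Matrix.diagonal (dgn r δ) :=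
    ⟨_, rfl⟩
  have hA₀T : A₀.transpose = A₀ := by rw [hA₀, Matrix.diagonal_transpose]
  have hA₀d : A₀.det = δ := by
    rw [hA₀]
    exact det_diagonal_dgn r hr0 δ
  obtain ⟨e, he⟩ : ∃ e : F, e = δ * Pm.det := ⟨_, rfl⟩
  have he0 : e ≠ 0 := by
    rw [he]
    exact mul_ne_zero hδ hPmdet
  have hA'T : (e • Pm).transpose = e • Pm := by rw [Matrix.transpose_smul, hPmT]
  have hA'd : (e • Pm).det = e ^ r * Pm.det := by rw [Matrix.det_smul, Fintype.card_fin]
  have hsq : IsSquare (A₀.det * (e • Pm).det) := by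
    obtain ⟨k, hk⟩ := hrodd
    refine ⟨e ^ k, ?_⟩
    rw [hA₀d, hA'd, ← pow_add, ← hk, pow_succ]
    have h1 : δ * (e ^ r * Pm.det) = e ^ r * (δ * Pm.det) := by ring
    rw [h1, ← he]
  obtain ⟨T, hT, hTA⟩ := hcong A₀ (e • Pm) hA₀T hA'T
    (by rw [hA₀d]; exact isUnit_iff_ne_zero.mpr hδ)
    (by rw [hA'd]; exact isUnit_iff_ne_zero.mpr (mul_ne_zero (pow_ne_zero _ he0) hPmdet)) hsq
  have hTi : T * T⁻¹ = 1 := Matrix.mul_nonsing_inv T hT
  have hiT : T⁻¹ * T = 1 := Matrix.nonsing_inv_mul T hT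
  obtain ⟨s, hs⟩ : ∃ s : Matrix (Fin r) (Fin r) F, s = T * D * T⁻¹ := ⟨_, rfl⟩
  have hDT : D.transpose = D := by rw [hD, Matrix.diagonal_transpose]
  have hsim : s.transpose * A₀ * s = c • A₀ := by
    have e1 : s.transpose * A₀ * s
        = T⁻¹.transpose * (D * (T.transpose * A₀ * T) * D) * T⁻¹ := by
      rw [hs, Matrix.transpose_mul, Matrix.transpose_mul, hDT]
      simp only [Matrix.mul_assoc]
    have e2 : T⁻¹.transpose * (T.transpose * A₀ * T) * T⁻¹
        = (T * T⁻¹).transpose * A₀ * (T * T⁻¹) := by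
      rw [Matrix.transpose_mul]
      simp only [Matrix.mul_assoc]
    rw [e1, hTA, Matrix.mul_smul, Matrix.smul_mul, hDPD, smul_smul, mul_comm e c, ← smul_smul,
      ← hTA, Matrix.mul_smul, Matrix.smul_mul, e2, hTi, Matrix.transpose_one, Matrix.one_mul,
      Matrix.mul_one]
  -- the base change
  obtain ⟨t, ht⟩ : ∃ t : F, t = d₀ * T.det / Q₁.det := ⟨_, rfl⟩
  obtain ⟨H, hH⟩ : ∃ H : Matrix (Fin r) (Fin r) F, H = Matrix.diagonal (dgn r t) := ⟨_, rfl⟩
  have hHd : H.det = t := by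
    rw [hH]
    exact det_diagonal_dgn r hr0 t
  have hHD : D * H = H * D := by
    rw [hH, hD, Matrix.diagonal_mul_diagonal, Matrix.diagonal_mul_diagonal]
    congr 1
    funext i
    exact mul_comm _ _
  refine ⟨Q₁ * H * T⁻¹, s, c, ?_, hc0, ?_, ?_⟩
  · rw [Matrix.det_mul, Matrix.det_mul, hHd, Matrix.det_nonsing_inv, Ring.inverse_eq_inv', ht]
    have h3 : Q₁.det ≠ 0 := hQ₁.ne_zero
    have h4 : T.det ≠ 0 := hT.ne_zero
    field_simp
  · rw [hs]
    calc x * (Q₁ * H * T⁻¹) = (x * Q₁) * H * T⁻¹ := by simp only [Matrix.mul_assoc]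
      _ = Q₁ * (D * H) * T⁻¹ := by
          rw [hxQ, ← hD]
          simp only [Matrix.mul_assoc]
      _ = Q₁ * (H * D) * T⁻¹ := by rw [hHD]
      _ = Q₁ * H * T⁻¹ * (T * D * T⁻¹) := by
          have h5 : Q₁ * H * T⁻¹ * (T * D * T⁻¹) = Q₁ * H * (T⁻¹ * T) * D * T⁻¹ := by
            simp only [Matrix.mul_assoc]
          rw [h5, hiT, Matrix.mul_one]
          simp only [Matrix.mul_assoc]
  · rw [← hA₀]
    exact hsim

section check

example : Cfsg.Agent.H99.Ort.StE35.{u} := e35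

end check

end Cfsg.Agent.H4.Ort
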