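import Mathlib
import Cfsg.Agent.H99.OrtDefs
import Cfsg.Agent.H4.OrtDIAGW

/-!
# S5981-WP (for helper99)

A transvection is not conjugate to a similarity of a non-degenerate symmetric bilinear form
(odd characteristic).
-/

set_option autoImplicit false
open scoped MatrixGroups

namespace Cfsg.Agent.H4.Ort

open Cfsg.Agent.H99.Ort

universe u

theorem wp : Cfsg.Agent.H99.Ort.StWP.{u} := by
  intro F _ _ p _ _ n hn h2 A hA hAs
  classical
  obtain ⟨i, hi⟩ : ∃ i : Fin n, i = ⟨0, by omega⟩ := ⟨_, rfl⟩
  obtain ⟨j, hj⟩ : ∃ j : Fin n, j = ⟨1, by omega⟩ := ⟨_, rfl⟩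
  have hij : i ≠ j := by
    rw [hi, hj]
    simp [Fin.ext_iff]
  obtain ⟨E, hE⟩ : ∃ E : Matrix (Fin n) (Fin n) F, E = Matrix.single i j 1 := ⟨_, rfl⟩
  have hEE : E * E = 0 := by
    rw [hE]
    exact Matrix.single_mul_single_of_ne _ i j i (Ne.symm hij) _
  have hEv : E = Matrix.vecMulVec (Pi.single i (1 : F)) (Pi.single j (1 : F)) := by
    rw [hE]
    ext a b
    simp only [Matrix.vecMulVec_apply, Matrix.single_apply, Pi.single_apply]
    by_cases ha : a = i
    · by_cases hb : b = j
      · subst ha hb
        simp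
      · subst ha
        simp [hb, Ne.symm hb]
    · simp [ha, Ne.symm ha]
  have hEij : E i j = 1 := by
    rw [hE]
    simp
  have hM : Matrix.transvection i j (1 : F) = 1 + E := by
    rw [hE]
    rfl
  refine ⟨Matrix.transvection i j 1, Matrix.det_transvection_of_ne i j hij 1, ?_, ?_, ?_⟩
  · have hpow : ∀ k : ℕ, (Matrix.transvection i j (1 : F)) ^ k
        = Matrix.transvection i j (k : F) := by
      intro k
      induction k with
      | zero => simp [Matrix.transvection_zero]
      | succ k ih =>
        rw [pow_succ, ih, Matrix.transvection_mul_transvection_same i j hij]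
        push_cast
        rfl
    rw [hpow, CharP.cast_eq_zero, Matrix.transvection_zero]
  · intro z hz
    have h1 := congrFun (congrFun hz i) j
    simp [Matrix.transvection, Matrix.single, hij] at h1
  · rintro ⟨P, s, c, hP, hc, hMP, hs⟩
    obtain ⟨N, hN⟩ : ∃ N : Matrix (Fin n) (Fin n) F, N = s - 1 := ⟨_, rfl⟩
    have hsN : s = 1 + N := by
      rw [hN]
      abel
    have hEP : E * P = P * N := by
      rw [hM, hsN, Matrix.add_mul, Matrix.mul_add, Matrix.one_mul, Matrix.mul_one] at hMP
      exact add_left_cancel hMP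
    have hPiP : P⁻¹ * P = 1 := Matrix.nonsing_inv_mul P hP
    have hNeq : N = P⁻¹ * (E * P) := by
      rw [hEP, ← Matrix.mul_assoc, hPiP, Matrix.one_mul]
    have hNN : N * N = 0 := by
      have h1 : P * (N * N) = 0 := by
        rw [← Matrix.mul_assoc, ← hEP, Matrix.mul_assoc, ← hEP, ← Matrix.mul_assoc, hEE,
          Matrix.zero_mul]
      have h3 : P⁻¹ * (P * (N * N)) = 0 := by rw [h1, Matrix.mul_zero]
      rw [← Matrix.mul_assoc, hPiP, Matrix.one_mul] at h3
      exact h3
    have hN0 : N ≠ 0 := by
      intro h0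
      rw [h0, Matrix.mul_zero] at hEP
      have h1 : E * P * P⁻¹ = 0 := by rw [hEP, Matrix.zero_mul]
      rw [Matrix.mul_assoc, Matrix.mul_nonsing_inv P hP, Matrix.mul_one] at h1
      rw [h1] at hEij
      simp at hEij
    have hNr : N.rank ≤ 1 := by
      have h1 : N.rank = (P * N).rank := (Matrix.rank_mul_eq_right_of_isUnit_det P N hP).symm
      rw [h1, ← hEP, Matrix.rank_mul_eq_left_of_isUnit_det P E hP, hEv]
      exact Matrix.rank_vecMulVec_le _ _
    -- `c = 1`
    have hc1 : c = 1 := by
      by_contra hne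
      have h1 := rank_sim_symm s A c hA hc hs 1 one_ne_zero
      have e1 : s - (1 : F) • (1 : Matrix (Fin n) (Fin n) F) = N := by rw [one_smul, hN]
      obtain ⟨a, ha⟩ : ∃ a : F, a = 1 - c := ⟨_, rfl⟩
      have ha0 : a ≠ 0 := by
        rw [ha]
        exact sub_ne_zero.mpr (Ne.symm hne)
      have e2 : s - (c * 1⁻¹) • (1 : Matrix (Fin n) (Fin n) F) = N + a • 1 := by
        rw [hsN, ha, inv_one, mul_one, sub_smul, one_smul]
        abel
      rw [e1, e2] at h1
      have e3 : (N + a • (1 : Matrix (Fin n) (Fin n) F)) * (N - a • 1) = (-(a * a)) • 1 := by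
        rw [Matrix.add_mul, Matrix.mul_sub, Matrix.mul_sub, hNN, Matrix.mul_smul, Matrix.mul_one,
          Matrix.smul_mul, Matrix.one_mul, Matrix.smul_mul, Matrix.one_mul, smul_smul, neg_smul]
        abel
      have hdet : IsUnit (N + a • (1 : Matrix (Fin n) (Fin n) F)).det := by
        have h3 := congrArg Matrix.det e3
        rw [Matrix.det_mul, Matrix.det_smul, Matrix.det_one, mul_one] at h3
        rw [isUnit_iff_ne_zero]
        intro h0
        rw [h0, zero_mul] at h3
        exact pow_ne_zero _ (neg_ne_zero.mpr (mul_ne_zero ha0 ha0)) h3.symm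
      have h4 := Matrix.rank_of_isUnit _ ((Matrix.isUnit_iff_isUnit_det _).mpr hdet)
      rw [Fintype.card_fin] at h4
      omega
    subst hc1
    rw [one_smul] at hs
    have h5 : N.transpose * A + A * N + N.transpose * A * N = 0 := by
      have e : s.transpose * A * s
          = A + (N.transpose * A + A * N + N.transpose * A * N) := by
        rw [hsN, Matrix.transpose_add, Matrix.transpose_one]
        noncomm_ring
      rw [e] at hs
      simpa using hs
    have h6 : N.transpose * A * N = 0 := by
      have h := congrArg (fun X => X * N) h5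
      simp only [Matrix.add_mul, Matrix.zero_mul, Matrix.mul_assoc, hNN, Matrix.mul_zero,
        add_zero] at h
      rw [Matrix.mul_assoc]
      exact h
    have h7 : N.transpose * A = -(A * N) := by
      rw [h6, add_zero] at h5
      exact eq_neg_of_add_eq_zero_left h5
    obtain ⟨a, ha⟩ : ∃ a : Fin n → F, a = A.mulVec (P⁻¹.mulVec (Pi.single i 1)) := ⟨_, rfl⟩
    obtain ⟨w, hw⟩ : ∃ w : Fin n → F, w = Matrix.vecMul (Pi.single j 1) P := ⟨_, rfl⟩
    have hK : A * N = Matrix.vecMulVec a w := by
      rw [hNeq, hEv, Matrix.vecMulVec_mul, Matrix.mul_vecMulVec, Matrix.mul_vecMulVec, ha, hw]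
    have hskew : ∀ k l, a k * w l = -(a l * w k) := by
      intro k l
      have h8 : (A * N).transpose = -(A * N) := by rw [Matrix.transpose_mul, hAs, h7]
      have h9 := congrFun (congrFun h8 l) k
      rw [Matrix.transpose_apply, Matrix.neg_apply, hK, Matrix.vecMulVec_apply,
        Matrix.vecMulVec_apply] at h9
      exact h9
    have hK0 : A * N ≠ 0 := by
      intro h0
      have h1 : A⁻¹ * (A * N) = 0 := by rw [h0, Matrix.mul_zero]
      rw [← Matrix.mul_assoc, Matrix.nonsing_inv_mul A hA, Matrix.one_mul] at h1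
      exact hN0 h1
    have hex : ∃ k l, a k * w l ≠ 0 := by
      by_contra hcon
      apply hK0
      rw [hK]
      ext k l
      rw [Matrix.vecMulVec_apply, Matrix.zero_apply]
      by_contra h
      exact hcon ⟨k, l, h⟩
    obtain ⟨k, l, hkl⟩ := hex
    have hak : a k ≠ 0 := left_ne_zero_of_mul hkl
    have hwk : w k = 0 := by
      have h1 := hskew k k
      have h3 : (2 : F) * (a k * w k) = 0 := by linear_combination h1
      rcases mul_eq_zero.mp h3 with h4 | h4
      · exact absurd h4 h2
      · rcases mul_eq_zero.mp h4 with h5 | h5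
        · exact absurd h5 hak
        · exact h5
    have h1 := hskew k l
    rw [hwk, mul_zero, neg_zero] at h1
    exact hkl h1

section check

example : Cfsg.Agent.H99.Ort.StWP.{u} := wp

end check

end Cfsg.Agent.H4.Ort
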