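import Mathlib
import Cfsg.Prelude.Def_GeometricClasses
import Cfsg.Prelude.Def_LieClassical
import Cfsg.Agent.H95.PairSU2
import Cfsg.Agent.H17.GUBlock

/-!
Common lemmas for the pieces S5984-TA / S5984-TB: dual families of a good pair of totally
singular subspaces for the Hermitian form.
-/

set_option autoImplicit false

namespace Cfsg.Agent.H4.Pair

open scoped MatrixGroups
open Cfsg Cfsg.Agent.H95

variable {F : Type*} [Field F] [Fintype F]

/-- A pair of dual families for two complementary totally singular subspaces. -/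
structure DualFam (q : ℕ) {n : ℕ} (U U' : Submodule F (Fin n → F)) {κ : Type} [Fintype κ]
    [DecidableEq κ] (e f : κ → Fin n → F) : Prop where
  he : ∀ i, e i ∈ U
  hf : ∀ i, f i ∈ U'
  hee : ∀ i j, hermForm n F q (e i) (e j) = 0
  hff : ∀ i j, hermForm n F q (f i) (f j) = 0
  hef : ∀ i j, hermForm n F q (e i) (f j) = if i = j then 1 else 0
  hfe : ∀ i j, hermForm n F q (f i) (e j) = if i = j then 1 else 0
  hU : ∀ x ∈ U, x = ∑ i, hermForm n F q x (f i) • e i
  hU' : ∀ x ∈ U', x = ∑ i, hermForm n F q x (e i) • f i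
  hUe : ∀ x ∈ U, ∀ i, hermForm n F q x (e i) = 0
  hU'f : ∀ x ∈ U', ∀ i, hermForm n F q x (f i) = 0
  decomp : ∀ x : Fin n → F,
    x = ∑ i, hermForm n F q x (f i) • e i + ∑ i, hermForm n F q x (e i) • f i

omit [Fintype F] in
theorem iSup_fin_two {n : ℕ} (D : Fin 2 → Submodule F (Fin n → F)) : iSup D = D 0 ⊔ D 1 := by
  apply le_antisymm
  · apply iSup_le
    intro i
    fin_cases i
    · exact le_sup_left
    · exact le_sup_right
  · exact sup_le (le_iSup D 0) (le_iSup D 1)

theorem exists_dualFam {q n : ℕ} (hq : Fintype.card F = q ^ 2)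
    (D : Fin 2 → Submodule F (Fin n → F))
    (hD : Cfsg.Geo.IsMDecomposition (n / 2) D)
    (hDs : ∀ i, Cfsg.Geo.IsTotallySingularFor (Cfsg.hermForm n F q) (D i)) :
    ∃ e f : Fin (n / 2) → Fin n → F, DualFam q (D 0) (D 1) e f := by
  have hsup : D 0 ⊔ D 1 = ⊤ := by rw [← iSup_fin_two, hD.iSup_eq_top]
  obtain ⟨e, f, he, hf, hef, hfe, hU, hU'⟩ := exists_dual_families_u hq (D 0) (D 1) (hDs 0)
    (hDs 1) (Fin (n / 2)) (by rw [hD.finrank_eq, Fintype.card_fin])
    (by rw [hD.finrank_eq, Fintype.card_fin]) hsup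
  refine ⟨e, f, he, hf, fun i j => hDs 0 _ (he i) _ (he j), fun i j => hDs 1 _ (hf i) _ (hf j),
    hef, hfe, hU, hU', fun x hx i => hDs 0 _ hx _ (he i), fun x hx i => hDs 1 _ hx _ (hf i), ?_⟩
  intro x
  have hx : x ∈ D 0 ⊔ D 1 := by rw [hsup]; exact Submodule.mem_top
  obtain ⟨a, ha, b, hb, rfl⟩ := Submodule.mem_sup.mp hx
  have h1 : ∀ i, hermForm n F q (a + b) (f i) = hermForm n F q a (f i) := by
    intro i
    rw [hermForm_add_left, hDs 1 _ hb _ (hf i), add_zero]
  have h2 : ∀ i, hermForm n F q (a + b) (e i) = hermForm n F q b (e i) := by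
    intro i
    rw [hermForm_add_left, hDs 0 _ ha _ (he i), zero_add]
  simp only [h1, h2]
  rw [← hU a ha, ← hU' b hb]

/-- The form in terms of coordinates with respect to dual families. -/
theorem form_expand {q n : ℕ} (hq : Fintype.card F = q ^ 2) {U U' : Submodule F (Fin n → F)}
    {κ : Type} [Fintype κ] [DecidableEq κ] {e f : κ → Fin n → F} (h : DualFam q U U' e f)
    (α β γ δ : κ → F) :
    hermForm n F q (∑ i, α i • e i + ∑ i, β i • f i) (∑ i, γ i • e i + ∑ i, δ i • f i)
      = ∑ i, (α i * (δ i) ^ q + β i * (γ i) ^ q) := by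
  rw [hermForm_add_left, hermForm_add_right hq, hermForm_add_right hq,
    Cfsg.Agent.H17.hermForm_sum_left, Cfsg.Agent.H17.hermForm_sum_left,
    Cfsg.Agent.H17.hermForm_sum_left, Cfsg.Agent.H17.hermForm_sum_left]
  simp only [Cfsg.Agent.H17.hermForm_sum_right hq, h.hee, h.hff, h.hef, h.hfe, mul_zero,
    Finset.sum_const_zero, mul_ite, mul_one, Finset.sum_ite_eq, Finset.mem_univ, if_true,
    zero_add, add_zero]
  rw [← Finset.sum_add_distrib]

/-- Both sides of an isometry statement in coordinates. -/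
theorem form_coord {q n : ℕ} (hq : Fintype.card F = q ^ 2) {U U' : Submodule F (Fin n → F)}
    {κ : Type} [Fintype κ] [DecidableEq κ] {e f : κ → Fin n → F} (h : DualFam q U U' e f)
    (x y : Fin n → F) :
    hermForm n F q x y = ∑ i, (hermForm n F q x (f i) * (hermForm n F q y (e i)) ^ q
      + hermForm n F q x (e i) * (hermForm n F q y (f i)) ^ q) := by
  conv_lhs => rw [h.decomp x, h.decomp y]
  exact form_expand hq h _ _ _ _

/-- An injective endomorphism mapping a finite-dimensional subspace into itself maps it onto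
itself. -/
theorem map_eq_self_of_le {K V : Type*} [Field K] [AddCommGroup V] [Module K V]
    (W : Submodule K V) [FiniteDimensional K W] (φ : V →ₗ[K] V) (hinj : Function.Injective φ)
    (hle : ∀ x ∈ W, φ x ∈ W) : W.map φ = W := by
  apply le_antisymm
  · rintro y ⟨x, hx, rfl⟩
    exact hle x hx
  · intro y hy
    have hinj' : Function.Injective (φ.restrict hle) := by
      intro a b hab
      apply Subtype.ext
      apply hinj
      have := congrArg Subtype.val hab
      simpa using this
    obtain ⟨x, hx⟩ := LinearMap.surjective_of_injective hinj' ⟨y, hy⟩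
    exact ⟨x, x.2, congrArg Subtype.val hx⟩

end Cfsg.Agent.H4.Pair
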