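import Mathlib
import Cfsg.Prelude.Def_GeometricClasses
import Cfsg.Prelude.Def_LieClassical
import Cfsg.Agent.H4.PairBase

/-!
Piece S5984-TA: the unitary group is transitive on good pairs of complementary totally
singular subspaces.
-/

set_option autoImplicit false

namespace Cfsg.Agent.H4.Pair

open scoped MatrixGroups
open Cfsg Cfsg.Agent.H95

variable {F : Type*} [Field F] [Fintype F]

theorem exists_GU_map_pair {q n : ℕ} (hq : Fintype.card F = q ^ 2)
    (D E : Fin 2 → Submodule F (Fin n → F))
    (hD : Cfsg.Geo.IsMDecomposition (n / 2) D)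
    (hDs : ∀ i, Cfsg.Geo.IsTotallySingularFor (Cfsg.hermForm n F q) (D i))
    (hE : Cfsg.Geo.IsMDecomposition (n / 2) E)
    (hEs : ∀ i, Cfsg.Geo.IsTotallySingularFor (Cfsg.hermForm n F q) (E i)) :
    ∃ g : GL (Fin n) F, g ∈ Cfsg.GU n F q ∧
      ∀ i, (D i).map (Matrix.toLin' (g : Matrix (Fin n) (Fin n) F)) = E i := by
  classical
  obtain ⟨e, f, hd⟩ := exists_dualFam hq D hD hDs
  obtain ⟨e', f', hd'⟩ := exists_dualFam hq E hE hEs
  -- the linear map
  have hex : ∃ φ : (Fin n → F) →ₗ[F] (Fin n → F), ∀ x, φ x =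
      ∑ i, hermForm n F q x (f i) • e' i + ∑ i, hermForm n F q x (e i) • f' i := by
    refine ⟨∑ i, (hermL q (f i)).smulRight (e' i) + ∑ i, (hermL q (e i)).smulRight (f' i), ?_⟩
    intro x
    simp only [LinearMap.add_apply, LinearMap.sum_apply, LinearMap.smulRight_apply, hermL_apply]
  obtain ⟨φ, hφ⟩ := hex
  have hpres : ∀ x y, hermForm n F q (φ x) (φ y) = hermForm n F q x y := by
    intro x y
    rw [hφ x, hφ y, form_expand hq hd', form_coord hq hd x y]
  have hinj : Function.Injective φ := by
    rw [← LinearMap.ker_eq_bot, LinearMap.ker_eq_bot']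
    intro x hx
    apply Cfsg.Agent.H17.hermForm_nd_right hq n x
    intro c
    rw [← hpres, hx, hermForm_zero_left]
  have hφe : ∀ j, φ (e j) = e' j := by
    intro j
    rw [hφ]
    simp only [hd.hef, hd.hee, ite_smul, one_smul, zero_smul, Finset.sum_ite_eq, Finset.mem_univ,
      if_true, Finset.sum_const_zero, add_zero]
  have hφf : ∀ j, φ (f j) = f' j := by
    intro j
    rw [hφ]
    simp only [hd.hfe, hd.hff, ite_smul, one_smul, zero_smul, Finset.sum_ite_eq, Finset.mem_univ,
      if_true, Finset.sum_const_zero, zero_add]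
  have h0 : (D 0).map φ = E 0 := by
    apply le_antisymm
    · rintro y ⟨x, hx, rfl⟩
      rw [hd.hU x hx, map_sum]
      apply Submodule.sum_mem
      intro i _
      rw [map_smul, hφe]
      exact Submodule.smul_mem _ _ (hd'.he i)
    · intro y hy
      refine ⟨∑ i, hermForm n F q y (f' i) • e i, ?_, ?_⟩
      · apply Submodule.sum_mem
        intro i _
        exact Submodule.smul_mem _ _ (hd.he i)
      · rw [map_sum]
        conv_rhs => rw [hd'.hU y hy]
        apply Finset.sum_congr rfl
        intro i _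
        rw [map_smul, hφe]
  have h1 : (D 1).map φ = E 1 := by
    apply le_antisymm
    · rintro y ⟨x, hx, rfl⟩
      rw [hd.hU' x hx, map_sum]
      apply Submodule.sum_mem
      intro i _
      rw [map_smul, hφf]
      exact Submodule.smul_mem _ _ (hd'.hf i)
    · intro y hy
      refine ⟨∑ i, hermForm n F q y (e' i) • f i, ?_, ?_⟩
      · apply Submodule.sum_mem
        intro i _
        exact Submodule.smul_mem _ _ (hd.hf i)
      · rw [map_sum]
        conv_rhs => rw [hd'.hU' y hy]
        apply Finset.sum_congr rfl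
        intro i _
        rw [map_smul, hφf]
  refine ⟨glOf (LinearEquiv.ofInjectiveEndo φ hinj), ?_, ?_⟩
  · rw [mem_GU_iff]
    intro u v
    rw [glOf_mulVec, glOf_mulVec]
    exact hpres u v
  · intro i
    rw [glOf_toLin']
    have hco : ((LinearEquiv.ofInjectiveEndo φ hinj : (Fin n → F) ≃ₗ[F] (Fin n → F)) :
        (Fin n → F) →ₗ[F] (Fin n → F)) = φ := by
      ext x
      simp
    rw [hco]
    fin_cases i
    · exact h0
    · exact h1

section check

example {q n : ℕ} (hq : Fintype.card F = q ^ 2)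
    (D E : Fin 2 → Submodule F (Fin n → F))
    (hD : Cfsg.Geo.IsMDecomposition (n / 2) D)
    (hDs : ∀ i, Cfsg.Geo.IsTotallySingularFor (Cfsg.hermForm n F q) (D i))
    (hE : Cfsg.Geo.IsMDecomposition (n / 2) E)
    (hEs : ∀ i, Cfsg.Geo.IsTotallySingularFor (Cfsg.hermForm n F q) (E i)) :
    ∃ g : GL (Fin n) F, g ∈ Cfsg.GU n F q ∧
      ∀ i, (D i).map (Matrix.toLin' (g : Matrix (Fin n) (Fin n) F)) = E i :=
  exists_GU_map_pair hq D E hD hDs hE hEs

end check

end Cfsg.Agent.H4.Pair
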