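import Mathlib

/-!
Piece S5982-CENT2: an involution of `GL_n` over a finite field of characteristic 2 commutes
with a matrix of any prescribed nonzero determinant.
-/

set_option autoImplicit false

namespace Cfsg.Agent.H4.Uni

open scoped MatrixGroups

variable {F : Type*} [Field F] [Fintype F]

/-- A vector outside a subspace is separated from it by a dual vector. -/
theorem exists_dual_vec {K : Type*} [Field K] {n : ℕ} (p : Submodule K (Fin n → K))
    (x : Fin n → K) (hx : x ∉ p) :
    ∃ w : Fin n → K, dotProduct w x = 1 ∧ ∀ y ∈ p, dotProduct w y = 0 := by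
  obtain ⟨f, hf, hfp⟩ := Submodule.exists_dual_map_eq_bot_of_notMem hx inferInstance
  have key : ∀ y : Fin n → K, dotProduct (fun i => (f x)⁻¹ * f (Pi.single i 1)) y
      = (f x)⁻¹ * f y := by
    intro y
    have h1 : f y = ∑ i, y i * f (Pi.single i 1) := by
      conv_lhs => rw [LinearMap.pi_apply_eq_sum_univ f y]
      apply Finset.sum_congr rfl
      intro i _
      rw [smul_eq_mul]
      congr 2
      funext j
      rw [Pi.single_apply]
      by_cases hij : i = j
      · rw [if_pos hij, if_pos hij.symm]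
      · rw [if_neg hij, if_neg (Ne.symm hij)]
    rw [h1, dotProduct, Finset.mul_sum]
    apply Finset.sum_congr rfl
    intro i _
    ring
  refine ⟨fun i => (f x)⁻¹ * f (Pi.single i 1), ?_, ?_⟩
  · rw [key, inv_mul_cancel₀ hf]
  · intro y hy
    rw [key]
    have h2 : f y ∈ p.map f := Submodule.mem_map_of_mem hy
    rw [hfp, Submodule.mem_bot] at h2
    rw [h2, mul_zero]

theorem det_one_add_vecMulVec {K : Type*} [Field K] {n : ℕ} (a b : Fin n → K) :
    (1 + Matrix.vecMulVec a b).det = 1 + dotProduct b a := by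
  rw [Matrix.vecMulVec_eq (ι := Unit), Matrix.det_one_add_replicateCol_mul_replicateRow]

set_option linter.unusedVariables false in
theorem exists_commuting_det_char_two (n : ℕ) (hn : 0 < n) (h2 : (2 : F) = 0)
    (u : Matrix (Fin n) (Fin n) F) (hu : u ^ 2 = 1) (d : F) (hd : d ≠ 0) :
    ∃ h : Matrix (Fin n) (Fin n) F, h.det = d ∧ h * u = u * h := by
  classical
  have h11 : (1 : Matrix (Fin n) (Fin n) F) + 1 = 0 := by
    rw [← two_smul F (1 : Matrix (Fin n) (Fin n) F), h2, zero_smul]
  have huu : u + u = 0 := by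
    rw [← two_smul F u, h2, zero_smul]
  have hNN : (u - 1) * (u - 1) = 0 := by
    have h3 : (u - 1) * (u - 1) = u ^ 2 - (u + u) + 1 := by
      rw [pow_two, sub_mul, mul_sub, mul_sub, mul_one, one_mul, mul_one]
      abel
    rw [h3, hu, huu, sub_zero, h11]
  have key : ∀ h : Matrix (Fin n) (Fin n) F, h * (u - 1) = (u - 1) * h → h * u = u * h := by
    intro h hh
    rw [mul_sub, sub_mul, mul_one, one_mul] at hh
    exact sub_left_injective hh
  by_cases hN0 : u - 1 = 0
  · refine ⟨Matrix.diagonal (Function.update (fun _ => 1) (⟨0, hn⟩ : Fin n) d), ?_, ?_⟩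
    · rw [Matrix.det_diagonal, Finset.prod_update_of_mem (Finset.mem_univ _)]
      simp
    · rw [sub_eq_zero.mp hN0, mul_one, one_mul]
  · obtain ⟨e, he⟩ : ∃ e : Fin n → F, (u - 1).mulVec e ≠ 0 := by
      by_contra hcon
      apply hN0
      have hall : ∀ e : Fin n → F, (u - 1).mulVec e = 0 := fun e => by
        by_contra h
        exact hcon ⟨e, h⟩
      ext i j
      have h3 := congrFun (hall (Pi.single j 1)) i
      rw [Matrix.mulVec_single_one] at h3
      exact h3
    have hNf : (u - 1).mulVec ((u - 1).mulVec e) = 0 := by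
      rw [Matrix.mulVec_mulVec, hNN, Matrix.zero_mulVec]
    have hfe : (u - 1).mulVec e ∉ Submodule.span F {e} := by
      intro hmem
      obtain ⟨c, hc⟩ := Submodule.mem_span_singleton.mp hmem
      have h1 : c • (u - 1).mulVec e = 0 := by
        rw [← Matrix.mulVec_smul, hc, hNf]
      rcases smul_eq_zero.mp h1 with h0 | h0
      · rw [h0, zero_smul] at hc
        exact he hc.symm
      · exact he h0
    obtain ⟨ψ, hψf, hψe⟩ := exists_dual_vec (Submodule.span F {e}) _ hfe
    have hφe : dotProduct (Matrix.vecMul ψ (u - 1)) e = 1 := by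
      rw [← Matrix.dotProduct_mulVec]
      exact hψf
    have hφf : dotProduct (Matrix.vecMul ψ (u - 1)) ((u - 1).mulVec e) = 0 := by
      rw [← Matrix.dotProduct_mulVec, hNf, dotProduct_zero]
    have hφN : Matrix.vecMul (Matrix.vecMul ψ (u - 1)) (u - 1) = 0 := by
      rw [Matrix.vecMul_vecMul, hNN, Matrix.vecMul_zero]
    have hchar : ringChar F = 2 := by
      have h3 : ((2 : ℕ) : F) = 0 := by exact_mod_cast h2
      have h4 := ringChar.dvd h3
      exact (Nat.prime_dvd_prime_iff_eq (CharP.char_is_prime F (ringChar F)) Nat.prime_two).mp h4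
    obtain ⟨δ, hδ⟩ := FiniteField.isSquare_of_char_two hchar d
    have hprod : (1 + Matrix.vecMulVec ((δ - 1) • e) (Matrix.vecMul ψ (u - 1))) *
        (1 + Matrix.vecMulVec ((δ - 1) • (u - 1).mulVec e) ψ) =
        1 + Matrix.vecMulVec ((δ - 1) • e) (Matrix.vecMul ψ (u - 1)) +
          Matrix.vecMulVec ((δ - 1) • (u - 1).mulVec e) ψ := by
      rw [mul_add, mul_one, add_mul, one_mul, Matrix.vecMulVec_mul_vecMulVec, dotProduct_smul,
        hφf, smul_zero, zero_smul, Matrix.vecMulVec_zero, add_zero]
    refine ⟨(1 + Matrix.vecMulVec ((δ - 1) • e) (Matrix.vecMul ψ (u - 1))) *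
        (1 + Matrix.vecMulVec ((δ - 1) • (u - 1).mulVec e) ψ), ?_, ?_⟩
    · rw [Matrix.det_mul, det_one_add_vecMulVec, det_one_add_vecMulVec, dotProduct_smul,
        dotProduct_smul, hφe, hψf, hδ]
      simp
    · apply key
      rw [hprod, add_mul, add_mul, one_mul, mul_add, mul_add, mul_one, Matrix.vecMulVec_mul,
        Matrix.vecMulVec_mul, Matrix.mul_vecMulVec, Matrix.mul_vecMulVec, hφN,
        Matrix.mulVec_smul, Matrix.mulVec_smul, hNf, smul_zero, Matrix.vecMulVec_zero,
        Matrix.zero_vecMulVec, add_zero, add_zero]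

section check

example (n : ℕ) (hn : 0 < n) (h2 : (2 : F) = 0)
    (u : Matrix (Fin n) (Fin n) F) (hu : u ^ 2 = 1) (d : F) (hd : d ≠ 0) :
    ∃ h : Matrix (Fin n) (Fin n) F, h.det = d ∧ h * u = u * h :=
  exists_commuting_det_char_two n hn h2 u hu d hd

end check

end Cfsg.Agent.H4.Uni
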