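import Mathlib
import Cfsg.Prelude.Def_GeometricClasses
import Cfsg.Prelude.Def_LieClassical
import Cfsg.Agent.H7.Herm
import Cfsg.Agent.H4.UniCENT2
import Cfsg.Agent.H4.PairBase

/-!
Piece S5984-TB: the stabiliser in `GU` of both members of a good pair contains elements of
every determinant of norm one.
-/

set_option autoImplicit false

namespace Cfsg.Agent.H4.Pair

open scoped MatrixGroups
open Cfsg Cfsg.Agent.H95

variable {F : Type*} [Field F] [Fintype F]

/-- Hilbert 90 for the norm-one group of a finite field with `q^2` elements. -/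
theorem exists_pow_sub_one_eq {q : ℕ} (hF : Fintype.card F = q ^ 2) (δ : F)
    (hδ : δ ^ (q + 1) = 1) : ∃ ν : F, ν ≠ 0 ∧ ν ^ (q - 1) = δ := by
  classical
  have hq2 := Cfsg.Agent.H7.two_le_of_card_sq hF
  have hδ0 : δ ≠ 0 := by
    rintro rfl
    rw [zero_pow (by omega)] at hδ
    exact zero_ne_one hδ
  obtain ⟨g, hg⟩ := IsCyclic.exists_generator (α := Fˣ)
  have hord : orderOf g = q ^ 2 - 1 := by
    rw [orderOf_eq_card_of_forall_mem_zpowers hg, Nat.card_units, Nat.card_eq_fintype_card, hF]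
  obtain ⟨k, hk⟩ := (mem_powers_iff_mem_zpowers.mpr (hg (Units.mk0 δ hδ0)))
  have hk' : g ^ k = Units.mk0 δ hδ0 := hk
  have hc1 : (Units.mk0 δ hδ0) ^ (q + 1) = 1 := by
    apply Units.ext
    simp only [Units.val_pow_eq_pow_val, Units.val_mk0, Units.val_one]
    exact hδ
  rw [← hk', ← pow_mul] at hc1
  have hdvd : q ^ 2 - 1 ∣ k * (q + 1) := by
    rw [← hord]
    exact orderOf_dvd_of_pow_eq_one hc1
  have hfac : q ^ 2 - 1 = (q - 1) * (q + 1) := by
    have h1 : 1 ≤ q := by omega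
    zify [h1, Nat.one_le_pow 2 q h1]
    ring
  rw [hfac] at hdvd
  obtain ⟨j, hj⟩ := Nat.dvd_of_mul_dvd_mul_right (Nat.succ_pos q) hdvd
  refine ⟨((g ^ j : Fˣ) : F), Units.ne_zero _, ?_⟩
  have h1 : (g ^ j) ^ (q - 1) = Units.mk0 δ hδ0 := by
    rw [← pow_mul, mul_comm, ← hj, hk']
  have h2 := congrArg Units.val h1
  simpa using h2

theorem exists_GU_stab_det {q n : ℕ} (hq : Fintype.card F = q ^ 2)
    (E : Fin 2 → Submodule F (Fin n → F))
    (hE : Cfsg.Geo.IsMDecomposition (n / 2) E)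
    (hEs : ∀ i, Cfsg.Geo.IsTotallySingularFor (Cfsg.hermForm n F q) (E i))
    (δ : F) (hδ : δ ^ (q + 1) = 1) :
    ∃ t : GL (Fin n) F, t ∈ Cfsg.GU n F q ∧ (t : Matrix (Fin n) (Fin n) F).det = δ ∧
      ∀ i, (E i).map (Matrix.toLin' (t : Matrix (Fin n) (Fin n) F)) = E i := by
  classical
  have hq2 := Cfsg.Agent.H7.two_le_of_card_sq hq
  obtain ⟨e, f, hd⟩ := exists_dualFam hq E hE hEs
  obtain ⟨ν, hν0, hν⟩ := exists_pow_sub_one_eq hq δ hδ
  have hδ0 : δ ≠ 0 := by
    rintro rfl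
    rw [zero_pow (by omega)] at hδ
    exact zero_ne_one hδ
  obtain ⟨i0⟩ : Nonempty (Fin (n / 2)) := ⟨⟨0, hE.pos⟩⟩
  -- the scalars
  have hLM1 : (ν ^ q - 1) ^ q + (ν⁻¹ - 1) + (ν⁻¹ - 1) * (ν ^ q - 1) ^ q = 0 := by
    rw [Cfsg.Agent.H7.sub_pow_q hq, one_pow, frob_frob hq]
    field_simp
    ring
  have hLM2 : (ν⁻¹ - 1) ^ q + (ν ^ q - 1) + (ν ^ q - 1) * (ν⁻¹ - 1) ^ q = 0 := by
    rw [Cfsg.Agent.H7.sub_pow_q hq, one_pow]
    have h1 : ν ^ q * (ν⁻¹) ^ q = 1 := by rw [← mul_pow, mul_inv_cancel₀ hν0, one_pow]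
    linear_combination h1
  have hdet : ν⁻¹ * ν ^ q = δ := by
    rw [← hν]
    have h1 : ν ^ q = ν ^ (q - 1) * ν := by rw [← pow_succ, Nat.sub_add_cancel (by omega)]
    rw [h1]
    field_simp
  -- the row vectors of the two functionals
  have hφ : ∀ x : Fin n → F, dotProduct (fun j => (f i0 j) ^ q) x = hermForm n F q x (f i0) := by
    intro x
    unfold hermForm dotProduct
    apply Finset.sum_congr rfl
    intro j _
    ring
  have hψ : ∀ x : Fin n → F, dotProduct (fun j => (e i0 j) ^ q) x = hermForm n F q x (e i0) := by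
    intro x
    unfold hermForm dotProduct
    apply Finset.sum_congr rfl
    intro j _
    ring
  have hprod : (1 + Matrix.vecMulVec ((ν⁻¹ - 1) • e i0) (fun j => (f i0 j) ^ q)) *
      (1 + Matrix.vecMulVec ((ν ^ q - 1) • f i0) (fun j => (e i0 j) ^ q)) =
      1 + Matrix.vecMulVec ((ν⁻¹ - 1) • e i0) (fun j => (f i0 j) ^ q) +
        Matrix.vecMulVec ((ν ^ q - 1) • f i0) (fun j => (e i0 j) ^ q) := by
    rw [mul_add, mul_one, add_mul, one_mul, Matrix.vecMulVec_mul_vecMulVec, hφ,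
      hermForm_smul_left, hd.hff, mul_zero, zero_smul, Matrix.vecMulVec_zero, add_zero]
  have hdetT : ((1 + Matrix.vecMulVec ((ν⁻¹ - 1) • e i0) (fun j => (f i0 j) ^ q)) *
      (1 + Matrix.vecMulVec ((ν ^ q - 1) • f i0) (fun j => (e i0 j) ^ q))).det = δ := by
    rw [Matrix.det_mul, Cfsg.Agent.H4.Uni.det_one_add_vecMulVec,
      Cfsg.Agent.H4.Uni.det_one_add_vecMulVec, hφ, hψ, hermForm_smul_left, hermForm_smul_left,
      hd.hef, hd.hfe, if_pos rfl, mul_one, mul_one, add_sub_cancel, add_sub_cancel, hdet]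
  have hmul : ∀ x : Fin n → F,
      ((1 + Matrix.vecMulVec ((ν⁻¹ - 1) • e i0) (fun j => (f i0 j) ^ q)) *
        (1 + Matrix.vecMulVec ((ν ^ q - 1) • f i0) (fun j => (e i0 j) ^ q))).mulVec x =
      x + ((ν⁻¹ - 1) * hermForm n F q x (f i0)) • e i0
        + ((ν ^ q - 1) * hermForm n F q x (e i0)) • f i0 := by
    intro x
    rw [hprod, Matrix.add_mulVec, Matrix.add_mulVec, Matrix.one_mulVec, Matrix.vecMulVec_mulVec,
      Matrix.vecMulVec_mulVec, hφ, hψ, op_smul_eq_smul, op_smul_eq_smul, smul_smul, smul_smul,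
      mul_comm (hermForm n F q x (f i0)), mul_comm (hermForm n F q x (e i0))]
  generalize (1 + Matrix.vecMulVec ((ν⁻¹ - 1) • e i0) (fun j => (f i0 j) ^ q)) *
      (1 + Matrix.vecMulVec ((ν ^ q - 1) • f i0) (fun j => (e i0 j) ^ q)) = T at hdetT hmul
  have hpres : ∀ u v : Fin n → F,
      hermForm n F q (T.mulVec u) (T.mulVec v) = hermForm n F q u v := by
    intro u v
    rw [hmul, hmul]
    simp only [hermForm_add_left, hermForm_add_right hq, hermForm_smul_left, hermForm_smul_right,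
      hd.hee, hd.hff, hd.hef, hd.hfe, if_pos, mul_zero, mul_one, add_zero]
    rw [hermForm_herm hq v (e i0), hermForm_herm hq v (f i0), mul_pow, mul_pow]
    linear_combination
      (hermForm n F q u (f i0) * (hermForm n F q v (e i0)) ^ q) * hLM1 +
        (hermForm n F q u (e i0) * (hermForm n F q v (f i0)) ^ q) * hLM2
  have hinj : Function.Injective (Matrix.toLin' T) := by
    rw [← LinearMap.ker_eq_bot, LinearMap.ker_eq_bot']
    intro x hx
    rw [Matrix.toLin'_apply] at hx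
    apply Cfsg.Agent.H17.hermForm_nd_right hq n x
    intro c
    rw [← hpres, hx, hermForm_zero_left]
  have hT0 : T.det ≠ 0 := by
    rw [hdetT]
    exact hδ0
  refine ⟨Matrix.GeneralLinearGroup.mkOfDetNeZero T hT0, ?_, hdetT, ?_⟩
  · rw [mem_GU_iff]
    exact hpres
  · intro i
    show (E i).map (Matrix.toLin' T) = E i
    fin_cases i
    · apply map_eq_self_of_le _ _ hinj
      intro x hx
      rw [Matrix.toLin'_apply, hmul, hd.hUe x hx, mul_zero, zero_smul, add_zero]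
      exact Submodule.add_mem _ hx (Submodule.smul_mem _ _ (hd.he i0))
    · apply map_eq_self_of_le _ _ hinj
      intro x hx
      rw [Matrix.toLin'_apply, hmul, hd.hU'f x hx, mul_zero, zero_smul, add_zero]
      exact Submodule.add_mem _ hx (Submodule.smul_mem _ _ (hd.hf i0))

section check

example {q n : ℕ} (hq : Fintype.card F = q ^ 2)
    (E : Fin 2 → Submodule F (Fin n → F))
    (hE : Cfsg.Geo.IsMDecomposition (n / 2) E)
    (hEs : ∀ i, Cfsg.Geo.IsTotallySingularFor (Cfsg.hermForm n F q) (E i))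
    (δ : F) (hδ : δ ^ (q + 1) = 1) :
    ∃ t : GL (Fin n) F, t ∈ Cfsg.GU n F q ∧ (t : Matrix (Fin n) (Fin n) F).det = δ ∧
      ∀ i, (E i).map (Matrix.toLin' (t : Matrix (Fin n) (Fin n) F)) = E i :=
  exists_GU_stab_det hq E hE hEs δ hδ

end check

end Cfsg.Agent.H4.Pair
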