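import Mathlib
import Cfsg.Agent.H52.QSDefs

/-!
# S2787 piece QS-SECC (helper4)

The section: with `T = X * Y`, `W = ker f(T)`, `K = 𝔽_p[t]/(f)` acting on `W` through `T`, the map
`ι (w₁, w₂) = w₁ + Y w₂` embeds `W × W` into `M` and intertwines `1 + X`, `1 + Y` with the images
of `uT t`, `lT 1` under the action of `SL₂(K)` on `W × W`.
-/

set_option autoImplicit false

namespace Cfsg.Agent.H4.QS

open Cfsg.Agent.H29.Dk Cfsg.Agent.H52.QS Polynomial

universe u

section Restrict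

variable {p : ℕ} [Fact p.Prime] {M : Type u} [AddCommGroup M] [Module (ZMod p) M]

theorem pow_restrict_apply (T : Module.End (ZMod p) M) (W : Submodule (ZMod p) M)
    (hW : ∀ x ∈ W, T x ∈ W) (n : ℕ) (w : W) :
    (((T.restrict hW) ^ n) w : M) = (T ^ n) (w : M) := by
  induction n generalizing w with
  | zero => rfl
  | succ n ih =>
    rw [pow_succ, pow_succ, Module.End.mul_apply, Module.End.mul_apply, ih]
    rfl

theorem aeval_restrict_apply (T : Module.End (ZMod p) M) (W : Submodule (ZMod p) M)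
    (hW : ∀ x ∈ W, T x ∈ W) (g : (ZMod p)[X]) (w : W) :
    ((aeval (T.restrict hW) g) w : M) = aeval T g (w : M) := by
  induction g using Polynomial.induction_on' with
  | add g h hg hh =>
    rw [map_add, map_add, LinearMap.add_apply, LinearMap.add_apply, Submodule.coe_add, hg, hh]
  | monomial n a =>
    rw [aeval_monomial, aeval_monomial, Module.End.mul_apply, Module.End.mul_apply,
      Module.algebraMap_end_apply, Module.algebraMap_end_apply, Submodule.coe_smul,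
      pow_restrict_apply]

end Restrict

/-- QS-SECC. -/
theorem secC (hA : StSecA.{u}) (hB : StSecB.{u}) : StSecC.{u} := by
  intro p _ M _ _ X Y hXX hYY f hf hf0 v hv hfv
  classical
  have hfI : Fact (Irreducible f) := ⟨hf⟩
  obtain ⟨W, hWdef⟩ : ∃ W : Submodule (ZMod p) M, W = LinearMap.ker (aeval (X * Y) f) := ⟨_, rfl⟩
  have hA' := hA p M X Y hXX hYY f hf0
  have hXW : ∀ w ∈ W, X w = 0 := fun w hw => (hA' w (hWdef ▸ hw)).1
  have hTW : ∀ w ∈ W, (X * Y) w ∈ W := by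
    intro w hw
    rw [hWdef]
    exact (hA' w (hWdef ▸ hw)).2.1
  have hinj0 : ∀ w ∈ W, ∀ w' ∈ W, w + Y w' = 0 → w = 0 ∧ w' = 0 := fun w hw w' hw' h =>
    (hA' w (hWdef ▸ hw)).2.2 w' (hWdef ▸ hw') h
  have hvW : v ∈ W := by
    rw [hWdef, LinearMap.mem_ker]
    exact hfv
  have hWnt : Nontrivial W := ⟨⟨⟨v, hvW⟩, 0, fun h => hv (congrArg Subtype.val h)⟩⟩
  -- the field
  have hKfin : Finite (AdjoinRoot f) := by
    have hfin : Module.Finite (ZMod p) (AdjoinRoot f) := (AdjoinRoot.powerBasis hf.ne_zero).finite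
    exact Module.finite_of_finite (ZMod p)
  have hKchar : CharP (AdjoinRoot f) p :=
    charP_of_injective_algebraMap (algebraMap (ZMod p) (AdjoinRoot f)).injective p
  have hlam : AdjoinRoot.root f ≠ 0 := by
    intro h
    have h1 : aeval (AdjoinRoot.root f) f = 0 := by
      rw [AdjoinRoot.aeval_eq, AdjoinRoot.mk_self]
    rw [h, aeval_def, eval₂_at_zero, coeff_zero_eq_eval_zero] at h1
    exact hf0 ((map_eq_zero _).mp h1)
  -- the action of the field on `W`
  obtain ⟨Tw, hTw⟩ : ∃ Tw : Module.End (ZMod p) W, Tw = (X * Y).restrict hTW := ⟨_, rfl⟩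
  have hTwc : ∀ w : W, ((Tw w : W) : M) = X (Y (w : M)) := by
    intro w
    rw [hTw]
    rfl
  have hWmem : ∀ x : M, x ∈ W → aeval (X * Y) f x = 0 := by
    intro x hx
    rw [hWdef] at hx
    exact hx
  have hroot : aeval Tw f = 0 := by
    apply LinearMap.ext
    intro w
    apply Subtype.ext
    rw [hTw, aeval_restrict_apply, hWmem _ w.2]
    rfl
  have hH : ∀ a : (ZMod p)[X], a ∈ Ideal.span ({f} : Set (ZMod p)[X]) →
      (aeval Tw : (ZMod p)[X] →ₐ[ZMod p] Module.End (ZMod p) W).toRingHom a = 0 := by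
    intro a ha
    obtain ⟨c, rfl⟩ := Ideal.mem_span_singleton.mp ha
    show aeval Tw (f * c) = 0
    rw [map_mul, hroot, zero_mul]
  obtain ⟨r, hr⟩ : ∃ r : AdjoinRoot f →+* Module.End (ZMod p) W, r (AdjoinRoot.root f) = Tw := by
    refine ⟨Ideal.Quotient.lift (Ideal.span ({f} : Set (ZMod p)[X]))
      (aeval Tw : (ZMod p)[X] →ₐ[ZMod p] Module.End (ZMod p) W).toRingHom hH, ?_⟩
    show Ideal.Quotient.lift (Ideal.span ({f} : Set (ZMod p)[X]))
      (aeval Tw : (ZMod p)[X] →ₐ[ZMod p] Module.End (ZMod p) W).toRingHom hH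
        (Ideal.Quotient.mk (Ideal.span ({f} : Set (ZMod p)[X])) Polynomial.X) = Tw
    rw [Ideal.Quotient.lift_mk]
    show aeval Tw (Polynomial.X : (ZMod p)[X]) = Tw
    rw [aeval_X]
  obtain ⟨Φ, hΦ, hΦinj'⟩ := hB p (AdjoinRoot f) W r
  have hΦinj := hΦinj' hWnt
  have hΦu : ∀ w₁ w₂ : W, Φ (uT (AdjoinRoot.root f)) (w₁, w₂) = (w₁ + Tw w₂, w₂) := by
    intro w₁ w₂
    rw [hΦ, uT00, uT01, uT10, uT11, map_one, map_zero, hr]
    simp
  have hΦl : ∀ w₁ w₂ : W, Φ (lT 1) (w₁, w₂) = (w₁, w₁ + w₂) := by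
    intro w₁ w₂
    rw [hΦ, lT00, lT01, lT10, lT11, map_one, map_zero]
    simp
  -- the embedding
  obtain ⟨ι, hι⟩ : ∃ ι : W × W → M, ∀ z, ι z = (z.1 : M) + Y (z.2 : M) := ⟨_, fun z => rfl⟩
  have hιinj : Function.Injective ι := by
    rintro ⟨w₁, w₂⟩ ⟨w₁', w₂'⟩ h
    rw [hι, hι] at h
    have h1 : ((w₁ - w₁' : W) : M) + Y ((w₂ - w₂' : W) : M) = 0 := by
      rw [Submodule.coe_sub, Submodule.coe_sub, map_sub]
      have h0 : ((w₁ : M) - (w₁' : M)) + (Y (w₂ : M) - Y (w₂' : M)) =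
          ((w₁ : M) + Y (w₂ : M)) - ((w₁' : M) + Y (w₂' : M)) := by abel
      rw [h0]
      exact sub_eq_zero.mpr h
    obtain ⟨h2, h3⟩ := hinj0 _ (w₁ - w₁').2 _ (w₂ - w₂').2 h1
    have h4 : w₁ = w₁' := sub_eq_zero.mp (Subtype.ext h2)
    have h5 : w₂ = w₂' := sub_eq_zero.mp (Subtype.ext h3)
    rw [h4, h5]
  have hu : ∀ z : W × W, (1 + X) (ι z) = ι (Φ (uT (AdjoinRoot.root f)) z) := by
    rintro ⟨w₁, w₂⟩
    rw [hΦu, hι, hι]
    have h1 : X (w₁ : M) = 0 := hXW _ w₁.2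
    show (1 + X) ((w₁ : M) + Y (w₂ : M)) = ((w₁ + Tw w₂ : W) : M) + Y (w₂ : M)
    rw [Submodule.coe_add, hTwc, LinearMap.add_apply, Module.End.one_apply, map_add, h1]
    abel
  have hl : ∀ z : W × W, (1 + Y) (ι z) = ι (Φ (lT 1) z) := by
    rintro ⟨w₁, w₂⟩
    rw [hΦl, hι, hι]
    have h1 : Y (Y (w₂ : M)) = 0 := by
      have h0 := congrArg (fun E : Module.End (ZMod p) M => E (w₂ : M)) hYY
      simpa using h0
    show (1 + Y) ((w₁ : M) + Y (w₂ : M)) = (w₁ : M) + Y ((w₁ + w₂ : W) : M)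
    rw [Submodule.coe_add, LinearMap.add_apply, Module.End.one_apply, map_add, map_add, h1]
    abel
  have key : ∀ d ∈ Submonoid.closure ({uT (AdjoinRoot.root f), lT 1} :
      Set (Matrix.SpecialLinearGroup (Fin 2) (AdjoinRoot f))),
      ∃ g ∈ Submonoid.closure ({1 + X, 1 + Y} : Set (Module.End (ZMod p) M)),
        ∀ z : W × W, g (ι z) = ι (Φ d z) := by
    intro d hd
    induction hd using Submonoid.closure_induction with
    | mem d hd =>
      rcases hd with rfl | rfl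
      · exact ⟨1 + X, Submonoid.subset_closure (Set.mem_insert _ _), hu⟩
      · exact ⟨1 + Y, Submonoid.subset_closure (Set.mem_insert_of_mem _ rfl), hl⟩
    | one =>
      exact ⟨1, Submonoid.one_mem _, fun z => by rw [map_one]; rfl⟩
    | mul d₁ d₂ _ _ ih₁ ih₂ =>
      obtain ⟨g₁, hg₁, h₁⟩ := ih₁
      obtain ⟨g₂, hg₂, h₂⟩ := ih₂
      refine ⟨g₁ * g₂, Submonoid.mul_mem _ hg₁ hg₂, fun z => ?_⟩
      rw [Module.End.mul_apply, h₂, h₁, map_mul, Module.End.mul_apply]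
  refine ⟨AdjoinRoot f, inferInstance, hKfin, hKchar, AdjoinRoot.root f, hlam, ?_⟩
  intro d hd
  obtain ⟨g, hg, hgd⟩ := key d hd
  refine ⟨g, hg, fun n hn => ?_⟩
  have hpow : ∀ k : ℕ, ∀ z : W × W, (g ^ k) (ι z) = ι (Φ (d ^ k) z) := by
    intro k
    induction k with
    | zero =>
      intro z
      rw [pow_zero, pow_zero, map_one]
      rfl
    | succ k ih =>
      intro z
      rw [pow_succ, pow_succ, Module.End.mul_apply, hgd, ih, map_mul, Module.End.mul_apply]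
  apply hΦinj
  rw [map_one]
  apply LinearMap.ext
  intro z
  apply hιinj
  rw [← hpow n z, hn]
  rfl

section check

example (hA : StSecA.{u}) (hB : StSecB.{u}) : StSecC.{u} := secC hA hB

end check

end Cfsg.Agent.H4.QS
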