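import Cfsg.Agent.H91.SMDefs
import Cfsg.Agent.H85.StLin

/-!
# Helper lemmas for the S2086 pieces: central extensions and elementary matrices
-/

set_option autoImplicit false

namespace Cfsg.Agent.H4.SM

open Cfsg.Agent.H91.SM Matrix Subgroup
open scoped commutatorElement

section Central

variable {E : Type*} [Group E] {S : Type*} [Group S]

/-- Two lifts of the same element differ by a central element. -/
theorem exists_central_mul (ρ : E →* S) (hker : ρ.ker ≤ center E) {u u' : E}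
    (h : ρ u = ρ u') : ∃ z ∈ center E, u' = z * u := by
  refine ⟨u' * u⁻¹, hker ?_, by group⟩
  rw [MonoidHom.mem_ker, map_mul, map_inv, h, mul_inv_cancel]

theorem comm_central_left {z u v : E} (hz : z ∈ center E) : ⁅z * u, v⁆ = ⁅u, v⁆ := by
  have hz' : ∀ g : E, g * z = z * g := fun g => (mem_center_iff.1 hz g)
  calc ⁅z * u, v⁆ = z * (u * v * u⁻¹) * z⁻¹ * v⁻¹ := by rw [commutatorElement_def]; group
    _ = (u * v * u⁻¹) * z * z⁻¹ * v⁻¹ := by rw [← hz' (u * v * u⁻¹)]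
    _ = ⁅u, v⁆ := by rw [commutatorElement_def]; group

theorem comm_central_right {z u v : E} (hz : z ∈ center E) : ⁅u, z * v⁆ = ⁅u, v⁆ := by
  have hz' : ∀ g : E, g * z = z * g := fun g => (mem_center_iff.1 hz g)
  calc ⁅u, z * v⁆ = (u * z) * v * u⁻¹ * v⁻¹ * z⁻¹ := by rw [commutatorElement_def]; group
    _ = (z * u) * v * u⁻¹ * v⁻¹ * z⁻¹ := by rw [hz' u]
    _ = z * (u * v * u⁻¹ * v⁻¹) * z⁻¹ := by group
    _ = (u * v * u⁻¹ * v⁻¹) * z * z⁻¹ := by rw [← hz' (u * v * u⁻¹ * v⁻¹)]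
    _ = ⁅u, v⁆ := by rw [commutatorElement_def]; group

/-- In a central extension, a commutator depends only on the images. -/
theorem comm_eq_of_map_eq (ρ : E →* S) (hker : ρ.ker ≤ center E) {u u' v v' : E}
    (hu : ρ u = ρ u') (hv : ρ v = ρ v') : ⁅u, v⁆ = ⁅u', v'⁆ := by
  obtain ⟨z₁, hz₁, rfl⟩ := exists_central_mul ρ hker hu
  obtain ⟨z₂, hz₂, rfl⟩ := exists_central_mul ρ hker hv
  rw [comm_central_left hz₁, comm_central_right hz₂]

/-- If `u` commutes with an element, it commutes with every lift of its image. -/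
theorem commute_of_map_eq (ρ : E →* S) (hker : ρ.ker ≤ center E) {u c v : E}
    (hc : u * c = c * u) (hv : ρ c = ρ v) : u * v = v * u := by
  obtain ⟨z, hz, rfl⟩ := exists_central_mul ρ hker hv
  have hz' : ∀ g : E, g * z = z * g := fun g => (mem_center_iff.1 hz g)
  calc u * (z * c) = (u * z) * c := by group
    _ = (z * u) * c := by rw [hz' u]
    _ = z * (u * c) := by group
    _ = z * (c * u) := by rw [hc]
    _ = z * c * u := by group

/-- If the images of `u`, `p`, `q` are such that `ρ u` commutes with `ρ p` and `ρ q`, then `u`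
commutes with `⁅p, q⁆`. -/
theorem commute_comm_of_map (ρ : E →* S) (hker : ρ.ker ≤ center E) {u p q : E}
    (hp : ρ u * ρ p = ρ p * ρ u) (hq : ρ u * ρ q = ρ q * ρ u) : u * ⁅p, q⁆ = ⁅p, q⁆ * u := by
  have h1 : ρ (u * p * u⁻¹) = ρ p := by
    rw [map_mul, map_mul, map_inv, hp, mul_inv_cancel_right]
  have h2 : ρ (u * q * u⁻¹) = ρ q := by
    rw [map_mul, map_mul, map_inv, hq, mul_inv_cancel_right]
  have h3 : u * ⁅p, q⁆ * u⁻¹ = ⁅u * p * u⁻¹, u * q * u⁻¹⁆ := by
    simp only [commutatorElement_def]; group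
  have h4 : u * ⁅p, q⁆ * u⁻¹ = ⁅p, q⁆ := by rw [h3]; exact comm_eq_of_map_eq ρ hker h1 h2
  exact mul_inv_eq_iff_eq_mul.1 h4

end Central

section Elem

variable {n : ℕ} {K : Type*} [Field K]

/-- `⁅x_ij(a), x_jk(b)⁆ = x_ik(ab)`. -/
theorem comm_tv {i j k : Fin n} (hij : i ≠ j) (hjk : j ≠ k) (hik : i ≠ k) (a b : K) :
    ⁅(tv hij a : SLn n K), tv hjk b⁆ = tv hik (a * b) := by
  rw [commutatorElement_def]
  have h1 : (tv hij a : SLn n K)⁻¹ = tv hij (-a) := Cfsg.Agent.H85.StLin.tr_inv hij a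
  have h2 : (tv hjk b : SLn n K)⁻¹ = tv hjk (-b) := Cfsg.Agent.H85.StLin.tr_inv hjk b
  rw [h1, h2]
  exact Cfsg.Agent.H45.transvection_comm_rel hij hjk hik a b

/-- `x_ij(a)` and `x_kl(b)` commute when `i ≠ l` and `j ≠ k`. -/
theorem tv_comm {i j k l : Fin n} (hij : i ≠ j) (hkl : k ≠ l) (hil : i ≠ l) (hjk : j ≠ k)
    (a b : K) : (tv hij a : SLn n K) * tv hkl b = tv hkl b * tv hij a :=
  Cfsg.Agent.H85.StLin.tr_comm hij hkl hil hjk a b

/-- The image of a commutator of lifts of `x_ij(a)`, `x_jk(b)`. -/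
theorem map_comm_lifts {E : Type*} [Group E] (ρ : E →* SLn n K) {i j k : Fin n} (hij : i ≠ j)
    (hjk : j ≠ k) (hik : i ≠ k) {a b : K} {u v : E} (hu : ρ u = tv hij a)
    (hv : ρ v = tv hjk b) : ρ ⁅u, v⁆ = tv hik (a * b) := by
  rw [map_commutatorElement, hu, hv, comm_tv hij hjk hik]

end Elem

end Cfsg.Agent.H4.SM
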