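import Cfsg.Agent.H4.SMBasic

/-!
# Piece S2086-FREE (for helper91): lifts of commuting elementary matrices commute when a free
index is available
-/

set_option autoImplicit false

namespace Cfsg.Agent.H4.SM

open Cfsg.Agent.H91.SM Matrix Subgroup
open scoped commutatorElement

universe u v

/-- **Piece S2086-FREE.** -/
theorem free : FreeStmt.{u, v} := by
  intro n K _ E _ ρ hsurj hker i j k l h hij hkl hil hjk hhi hhj hhk hhl a b u v hu hv
  have hkh : k ≠ h := Ne.symm hhk
  obtain ⟨p, hp⟩ := hsurj (tv hkh 1)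
  obtain ⟨q, hq⟩ := hsurj (tv hhl b)
  have hc : ρ ⁅p, q⁆ = tv hkl b := by
    rw [map_comm_lifts ρ hkh hhl hkl hp hq, one_mul]
  have h1 : ρ u * ρ p = ρ p * ρ u := by
    rw [hu, hp]
    exact tv_comm hij hkh (Ne.symm hhi) hjk a 1
  have h2 : ρ u * ρ q = ρ q * ρ u := by
    rw [hu, hq]
    exact tv_comm hij hhl hil (Ne.symm hhj) a b
  have h3 := commute_comm_of_map ρ hker h1 h2
  exact commute_of_map_eq ρ hker h3 (hc.trans hv.symm)

end Cfsg.Agent.H4.SM
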