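import Cfsg.Agent.H91.SMDefs

/-!
# Piece S2086-ID (for helper91): a commutator identity
-/

set_option autoImplicit false

namespace Cfsg.Agent.H4.SM

open Cfsg.Agent.H91.SM
open scoped commutatorElement

universe u

/-- **Piece S2086-ID.** -/
theorem id3 : IdStmt.{u} := by
  intro E _ u v w h1 h2 h3
  have e1 : u * w * u⁻¹ = w := mul_inv_eq_iff_eq_mul.2 h1
  have e1' : u * w⁻¹ * u⁻¹ = w⁻¹ := by rw [← conj_inv, e1]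
  have e2 : ⁅u, v⁆ * ⁅v, w⁆ * ⁅u, v⁆⁻¹ = ⁅v, w⁆ := mul_inv_eq_iff_eq_mul.2 h2
  have key : u * ⁅v, w⁆ * u⁻¹ = ⁅v, w⁆ * ⁅⁅u, v⁆, w⁆ := by
    calc u * ⁅v, w⁆ * u⁻¹
        = (u * v * u⁻¹) * (u * w * u⁻¹) * (u * v⁻¹ * u⁻¹) * (u * w⁻¹ * u⁻¹) := by
          rw [commutatorElement_def]; group
      _ = (u * v * u⁻¹) * w * (u * v⁻¹ * u⁻¹) * w⁻¹ := by rw [e1, e1']
      _ = ⁅u, v⁆ * ⁅v, w⁆ * ⁅u, v⁆⁻¹ * ⁅⁅u, v⁆, w⁆ := by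
          simp only [commutatorElement_def]; group
      _ = ⁅v, w⁆ * ⁅⁅u, v⁆, w⁆ := by rw [e2]
  calc ⁅u, ⁅v, w⁆⁆ = u * ⁅v, w⁆ * u⁻¹ * ⁅v, w⁆⁻¹ := commutatorElement_def _ _
    _ = ⁅v, w⁆ * ⁅⁅u, v⁆, w⁆ * ⁅v, w⁆⁻¹ := by rw [key]
    _ = ⁅⁅u, v⁆, w⁆ * ⁅v, w⁆ * ⁅v, w⁆⁻¹ := by rw [h3]
    _ = ⁅⁅u, v⁆, w⁆ := mul_inv_cancel_right _ _

end Cfsg.Agent.H4.SM
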