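import Cfsg.Agent.H4.SMBasic

/-!
# Piece S2086-IND (for helper91): `Comm ρ` implies `Ind ρ`
-/

set_option autoImplicit false

namespace Cfsg.Agent.H4.SM

open Cfsg.Agent.H91.SM Matrix Subgroup
open scoped commutatorElement

universe u v

/-- **Piece S2086-IND.** -/
theorem ind (hI : IdStmt.{v}) : IndStmt.{u, v} := by
  intro n K _ E _ ρ hsurj hker hcomm i j h k hih hhj hik hkj hij hhk a u v u' v' hu hv hu' hv'
  obtain ⟨p, hp⟩ := hsurj (tv hhk 1)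
  -- images of the commutators
  have h1 : ρ ⁅u, p⁆ = tv hik 1 := by
    rw [map_comm_lifts ρ hih hhk hik hu hp, one_mul]
  have h2 : ρ ⁅p, v'⁆ = tv hhj a := by
    rw [map_comm_lifts ρ hhk hkj hhj hp hv', one_mul]
  have h3 : ρ ⁅⁅u, p⁆, v'⁆ = tv hij a := by
    rw [map_comm_lifts ρ hik hkj hij h1 hv', one_mul]
  -- the three commutation conditions
  have c1 : u * v' = v' * u := hcomm i h k j hih hkj hij hhk 1 a u v' hu hv'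
  have c2 : ⁅u, p⁆ * ⁅p, v'⁆ = ⁅p, v'⁆ * ⁅u, p⁆ :=
    hcomm i k h j hik hhj hij (Ne.symm hhk) 1 a _ _ h1 h2
  have c3 : ⁅p, v'⁆ * ⁅⁅u, p⁆, v'⁆ = ⁅⁅u, p⁆, v'⁆ * ⁅p, v'⁆ :=
    hcomm h j i j hhj hij hhj (Ne.symm hij) a a _ _ h2 h3
  have key : ⁅u, ⁅p, v'⁆⁆ = ⁅⁅u, p⁆, v'⁆ := hI u p v' c1 c2 c3
  calc ⁅u, v⁆ = ⁅u, ⁅p, v'⁆⁆ := comm_eq_of_map_eq ρ hker rfl (hv.trans h2.symm)
    _ = ⁅⁅u, p⁆, v'⁆ := key
    _ = ⁅u', v'⁆ := comm_eq_of_map_eq ρ hker (h1.trans hu'.symm) rfl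

end Cfsg.Agent.H4.SM
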