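import Cfsg.Agent.H4.SMBasic

/-!
# Piece S2086-REL4 (for helper91): `Comm ρ` implies `Rel3 ρ` for `n ≥ 4`
-/

set_option autoImplicit false

namespace Cfsg.Agent.H4.SM

open Cfsg.Agent.H91.SM Matrix Subgroup
open scoped commutatorElement

universe u v

/-- A fourth index. -/
theorem exists_fourth {n : ℕ} (hn : 4 ≤ n) (i j l : Fin n) : ∃ k : Fin n, k ≠ i ∧ k ≠ j ∧ k ≠ l := by
  classical
  have hcard : ({i, j, l} : Finset (Fin n)).card < (Finset.univ : Finset (Fin n)).card := by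
    rw [Finset.card_univ, Fintype.card_fin]
    exact lt_of_le_of_lt Finset.card_le_three (by omega)
  obtain ⟨k, -, hk⟩ := Finset.exists_mem_notMem_of_card_lt_card hcard
  simp only [Finset.mem_insert, Finset.mem_singleton, not_or] at hk
  exact ⟨k, hk.1, hk.2.1, hk.2.2⟩

/-- **Piece S2086-REL4.** -/
theorem rel4 (hI : IdStmt.{v}) (hInd : IndStmt.{u, v}) : Rel4Stmt.{u, v} := by
  intro n K _ E _ ρ hsurj hker hn hcomm i j l hij hjl hil a b u w p q hu hw hp hq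
  obtain ⟨k, hki, hkj, hkl⟩ := exists_fourth hn i j l
  have hik : i ≠ k := Ne.symm hki
  obtain ⟨u₁, hu₁⟩ := hsurj (tv hik 1)
  obtain ⟨v₁, hv₁⟩ := hsurj (tv hkj a)
  have h1 : ρ ⁅u₁, v₁⁆ = tv hij a := by
    rw [map_comm_lifts ρ hik hkj hij hu₁ hv₁, one_mul]
  have h2 : ρ ⁅v₁, w⁆ = tv hkl (a * b) := map_comm_lifts ρ hkj hjl hkl hv₁ hw
  have h3 : ρ ⁅⁅u₁, v₁⁆, w⁆ = tv hil (a * b) := map_comm_lifts ρ hij hjl hil h1 hw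
  have c1 : u₁ * w = w * u₁ := hcomm i k j l hik hjl hil hkj 1 b u₁ w hu₁ hw
  have c2 : ⁅u₁, v₁⁆ * ⁅v₁, w⁆ = ⁅v₁, w⁆ * ⁅u₁, v₁⁆ :=
    hcomm i j k l hij hkl hil (Ne.symm hkj) a (a * b) _ _ h1 h2
  have c3 : ⁅v₁, w⁆ * ⁅⁅u₁, v₁⁆, w⁆ = ⁅⁅u₁, v₁⁆, w⁆ * ⁅v₁, w⁆ :=
    hcomm k l i l hkl hil hkl (Ne.symm hil) (a * b) (a * b) _ _ h2 h3
  have key : ⁅u₁, ⁅v₁, w⁆⁆ = ⁅⁅u₁, v₁⁆, w⁆ := hI u₁ v₁ w c1 c2 c3
  have hind : Ind ρ := hInd ρ hsurj hker hcomm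
  calc ⁅u, w⁆ = ⁅⁅u₁, v₁⁆, w⁆ := comm_eq_of_map_eq ρ hker (hu.trans h1.symm) rfl
    _ = ⁅u₁, ⁅v₁, w⁆⁆ := key.symm
    _ = ⁅p, q⁆ := hind i l k j hik hkl hij hjl hil hkj (a * b) u₁ ⁅v₁, w⁆ p q hu₁ h2 hp hq

end Cfsg.Agent.H4.SM
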