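import Mathlib
import Cfsg.Agent.H48.SPCDefs

/-!
Piece SPC-COUNT for S2676: the square classes of the determinants of the leading blocks of
even size class form a complete surjective invariant of the orbits on `OmegaSk`.
-/

set_option autoImplicit false

namespace Cfsg.Agent.H4.SPC

open Finset Cfsg.Agent.H61 Cfsg.Agent.H48.SPC

universe u

/-- In a finite field, a product of nonzero elements is a square iff the two factors are
both squares or both non-squares. -/
theorem isSquare_mul_iff_of_ne_zero {F : Type u} [Field F] [Fintype F] {a b : F} (ha : a ≠ 0)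
    (hb : b ≠ 0) : IsSquare (a * b) ↔ (IsSquare a ↔ IsSquare b) := by
  classical
  rw [← quadraticChar_one_iff_isSquare (mul_ne_zero ha hb), ← quadraticChar_one_iff_isSquare ha,
    ← quadraticChar_one_iff_isSquare hb, map_mul]
  rcases quadraticChar_dichotomy ha with h1 | h1 <;> rcases quadraticChar_dichotomy hb with h3 | h3
    <;> rw [h1, h3] <;> decide

/-- Congruent matrices have determinants in the same square class. -/
theorem isSquare_det_congr {F : Type u} [Field F] {κ : Type} [Fintype κ] [DecidableEq κ]
    (L L' γ : Matrix κ κ F) (hγ : γ.det ≠ 0) (h : γ.transpose * L * γ = L') :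
    IsSquare L.det ↔ IsSquare L'.det := by
  have hdet : L'.det = γ.det * γ.det * L.det := by
    rw [← h, Matrix.det_mul, Matrix.det_mul, Matrix.det_transpose]
    ring
  constructor
  · rintro ⟨r, hr⟩
    exact ⟨γ.det * r, by rw [hdet, hr]; ring⟩
  · rintro ⟨r, hr⟩
    refine ⟨r / γ.det, ?_⟩
    have h1 : L.det = L'.det / (γ.det * γ.det) := by
      rw [hdet]
      field_simp
    rw [h1, hr]
    field_simp

open Classical in
/-- The invariant: square classes of the determinants of the leading blocks of even size. -/
noncomputable def sqInv {F : Type u} [Field F] {t : ℕ} {d : Fin t → ℕ} (hd : ∀ k, 1 ≤ d k)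
    (A : OmegaSk F d) :
    {j : ℕ // j ∈ (univ.image d).filter (fun j => Even j)} → Bool :=
  fun j => decide (IsSquare (leadBlock hd A.1 j.1).det)

theorem sqInv_eq_iff {F : Type u} [Field F] {t : ℕ} {d : Fin t → ℕ} (hd : ∀ k, 1 ≤ d k)
    (A A' : OmegaSk F d) :
    sqInv hd A = sqInv hd A' ↔
      ∀ j : {j : ℕ // j ∈ (univ.image d).filter (fun j => Even j)},
        (IsSquare (leadBlock hd A.1 j.1).det ↔ IsSquare (leadBlock hd A'.1 j.1).det) := by
  classical
  constructor
  · intro h j
    have := congrFun h j
    simp only [sqInv, decide_eq_decide] at this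
    exact this
  · intro h
    funext j
    simp only [sqInv, decide_eq_decide]
    exact h j

theorem count (hO : OrbitThmStmt.{u}) (hS : LBSymStmt.{u}) (hI : LBInvStmt.{u})
    (hSurj : LBSurjStmt.{u}) (hAlt : AltStmt.{u}) (hSym : SymStmt.{u}) : CountStmt.{u} := by
  intro F _ _ p _ _ hp t d hd hpar
  have h2 : (2 : F) ≠ 0 := by
    intro h
    have h3 : ((2 : ℕ) : F) = 0 := by exact_mod_cast h
    have h4 := (CharP.cast_eq_zero_iff F p 2).mp h3
    exact hp ((Nat.prime_dvd_prime_iff_eq Fact.out Nat.prime_two).mp h4)
  have hle : ∀ k, d k < univ.sup d + 1 := fun k =>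
    Nat.lt_succ_of_le (Finset.le_sup (Finset.mem_univ k))
  have hdetL : ∀ (A : OmegaSk F d) (i : Fin (univ.sup d + 1)),
      (leadBlock hd A.1 i.val).det ≠ 0 := fun A i => (hI d hd A.1 A.2.2.2).mp A.2.2.1 i
  have hsymL : ∀ (A : OmegaSk F d) (i : ℕ),
      (leadBlock hd A.1 i).transpose = (-1 : F) ^ i • leadBlock hd A.1 i :=
    fun A i => hS d hd A.1 A.2.1 A.2.2.2 i
  refine ⟨sqInv hd, ?_, ?_⟩
  · intro A A'
    rw [sqInv_eq_iff, hO p hp d hd A A']
    constructor
    · intro h i
      rcases Nat.even_or_odd i.val with hev | hodd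
      · have hL : (leadBlock hd A.1 i.val).transpose = leadBlock hd A.1 i.val := by
          rw [hsymL A i.val, hev.neg_one_pow, one_smul]
        have hL' : (leadBlock hd A'.1 i.val).transpose = leadBlock hd A'.1 i.val := by
          rw [hsymL A' i.val, hev.neg_one_pow, one_smul]
        by_cases hne : Nonempty {k : Fin t // d k = i.val}
        · obtain ⟨k⟩ := hne
          have hmem : i.val ∈ (univ.image d).filter (fun j => Even j) := by
            rw [Finset.mem_filter, Finset.mem_image]
            exact ⟨⟨k.1, Finset.mem_univ _, k.2⟩, hev⟩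
          have h3 := h ⟨i.val, hmem⟩
          exact ((hSym h2 {k : Fin t // d k = i.val}).1 _ _ hL hL' (hdetL A i)
            (hdetL A' i)).mpr ((isSquare_mul_iff_of_ne_zero (hdetL A i) (hdetL A' i)).mpr h3)
        · have hemp : IsEmpty {k : Fin t // d k = i.val} := not_nonempty_iff.mp hne
          refine ⟨1, ?_, ?_⟩
          · rw [Matrix.det_one]
            exact one_ne_zero
          · ext k
            exact hemp.elim k
      · have hL : (leadBlock hd A.1 i.val).transpose = -leadBlock hd A.1 i.val := by
          rw [hsymL A i.val, hodd.neg_one_pow, neg_one_smul]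
        have hL' : (leadBlock hd A'.1 i.val).transpose = -leadBlock hd A'.1 i.val := by
          rw [hsymL A' i.val, hodd.neg_one_pow, neg_one_smul]
        exact (hAlt h2 {k : Fin t // d k = i.val}).1 _ _ hL hL' (hdetL A i) (hdetL A' i)
    · intro h j
      have hj := j.2
      rw [Finset.mem_filter, Finset.mem_image] at hj
      obtain ⟨⟨k, -, hk⟩, -⟩ := hj
      have hlt : j.1 < univ.sup d + 1 := by
        rw [← hk]
        exact hle k
      obtain ⟨γ, hγ, hγL⟩ := h ⟨j.1, hlt⟩
      exact isSquare_det_congr _ _ γ hγ hγL
  · intro b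
    have hex : ∀ i : Fin (univ.sup d + 1),
        ∃ C : Matrix {k : Fin t // d k = i.val} {k : Fin t // d k = i.val} F,
          C.transpose = (-1 : F) ^ i.val • C ∧ C.det ≠ 0 ∧
          ∀ hmem : i.val ∈ (univ.image d).filter (fun j => Even j),
            (IsSquare C.det ↔ b ⟨i.val, hmem⟩ = true) := by
      intro i
      rcases Nat.even_or_odd i.val with hev | hodd
      · by_cases hne : Nonempty {k : Fin t // d k = i.val}
        · have hmem : i.val ∈ (univ.image d).filter (fun j => Even j) := by
            obtain ⟨k⟩ := hne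
            rw [Finset.mem_filter, Finset.mem_image]
            exact ⟨⟨k.1, Finset.mem_univ _, k.2⟩, hev⟩
          obtain ⟨C, hC1, hC2, hC3⟩ :=
            (hSym h2 {k : Fin t // d k = i.val}).2 hne (b ⟨i.val, hmem⟩)
          refine ⟨C, ?_, hC2, fun _ => hC3⟩
          rw [hev.neg_one_pow, one_smul, hC1]
        · have hemp : IsEmpty {k : Fin t // d k = i.val} := not_nonempty_iff.mp hne
          refine ⟨1, ?_, ?_, ?_⟩
          · ext k
            exact hemp.elim k
          · rw [Matrix.det_one]
            exact one_ne_zero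
          · intro hmem
            exfalso
            rw [Finset.mem_filter, Finset.mem_image] at hmem
            obtain ⟨⟨k, -, hk⟩, -⟩ := hmem
            exact hemp.elim ⟨k, hk⟩
      · have hcard : Even (Fintype.card {k : Fin t // d k = i.val}) := by
          rw [Fintype.card_subtype]
          exact hpar i.val hodd
        obtain ⟨C, hC1, hC2⟩ := (hAlt h2 {k : Fin t // d k = i.val}).2 hcard
        refine ⟨C, ?_, hC2, ?_⟩
        · rw [hodd.neg_one_pow, neg_one_smul, hC1]
        · intro hmem
          exfalso
          rw [Finset.mem_filter] at hmem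
          exact (Nat.not_even_iff_odd.mpr hodd) hmem.2
    choose C hC1 hC2 hC3 using hex
    obtain ⟨A, hA⟩ := hSurj d hd C hC1 hC2
    refine ⟨A, ?_⟩
    funext j
    have hj := j.2
    rw [Finset.mem_filter, Finset.mem_image] at hj
    obtain ⟨⟨k, -, hk⟩, -⟩ := hj
    have hlt : j.1 < univ.sup d + 1 := by
      rw [← hk]
      exact hle k
    have h3 := hC3 ⟨j.1, hlt⟩ j.2
    have h4 := hA ⟨j.1, hlt⟩
    simp only at h3 h4
    classical
    simp only [sqInv]
    rw [h4]
    by_cases hb : b j = true
    · rw [hb]
      simp only [decide_eq_true_eq]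
      exact h3.mpr hb
    · rw [Bool.not_eq_true] at hb
      rw [hb]
      simp only [decide_eq_false_iff_not]
      intro hsq
      rw [h3.mp hsq] at hb
      exact Bool.noConfusion hb

end Cfsg.Agent.H4.SPC
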