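import Mathlib
import Cfsg.Agent.H48.SPCDefs

/-!
Piece SPC-DBSURJ for S2676: every family of invertible diagonal blocks is realised in the
commutant of the nilpotent Jordan matrix.
-/

set_option autoImplicit false

namespace Cfsg.Agent.H4.SPC

open Finset Cfsg.Agent.H61 Cfsg.Agent.H48.SPC

universe u

theorem diagBlock_matOfParam {F : Type u} [Field F] {t : ℕ} {d : Fin t → ℕ}
    (hd : ∀ k, 1 ≤ d k) (f : JI d × Fin t → F) (i : ℕ) :
    diagBlock hd (matOfParam f) i = paramBlock hd f i := by
  ext k l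
  simp only [diagBlock, paramBlock, Matrix.of_apply, matOfParam_apply]
  rw [if_pos (by simp)]
  congr 2

theorem dbsurj : DBSurjStmt.{u} := by
  intro F _ t d hd γ hγ
  have hz : ∀ p : JI d × Fin t, p.1.2.val < d p.1.1 - d p.2 →
      reconParam (F := F) (fun i => ⟨γ i, hγ i⟩) (fun _ => 0) p = 0 :=
    fun p hp => reconParam_zero _ _ p hp
  have hcomm := matOfParam_comm (F := F) (reconParam (F := F) (fun i => ⟨γ i, hγ i⟩) (fun _ => 0)) hz
  have hblock : ∀ i : Fin (univ.sup d + 1),
      diagBlock hd (matOfParam (reconParam (F := F) (fun i => ⟨γ i, hγ i⟩) (fun _ => 0))) i.val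
        = γ i := by
    intro i
    rw [diagBlock_matOfParam, reconParam_block]
  refine ⟨matOfParam (reconParam (F := F) (fun i => ⟨γ i, hγ i⟩) (fun _ => 0)), ?_, hcomm, hblock⟩
  rw [comm_det_ne_zero_iff hd _ hcomm]
  intro i
  rw [hblock]
  exact hγ i

end Cfsg.Agent.H4.SPC
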