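import Mathlib
import Cfsg.Agent.H48.SPCDefs

/-!
Piece SPC-LBSURJ for S2676: every family of invertible `(-1)^i`-symmetric blocks is the family
of leading blocks of a nondegenerate alternating form for which the nilpotent Jordan matrix is
skew-adjoint (given SPC-LBINV).
-/

set_option autoImplicit false

namespace Cfsg.Agent.H4.SPC

open Finset Cfsg.Agent.H61 Cfsg.Agent.H48.SPC

universe u

section lbsurj

variable {F : Type u} [Field F] {t : ℕ} {d : Fin t → ℕ}

/-- Uniform access to the entries of a family of blocks. -/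
def cvEntry (C : ∀ i : Fin (univ.sup d + 1),
      Matrix {k : Fin t // d k = i.val} {k : Fin t // d k = i.val} F) (k l : Fin t) : F :=
  if h : d k = d l then
    C ⟨d k, Nat.lt_succ_of_le (Finset.le_sup (Finset.mem_univ _))⟩ ⟨k, rfl⟩ ⟨l, h.symm⟩
  else 0

theorem cvEntry_eq (C : ∀ i : Fin (univ.sup d + 1),
      Matrix {k : Fin t // d k = i.val} {k : Fin t // d k = i.val} F)
    (i : Fin (univ.sup d + 1)) (k l : {k : Fin t // d k = i.val}) :
    cvEntry C k.1 l.1 = C i k l := by
  obtain ⟨k, hk⟩ := k
  obtain ⟨l, hl⟩ := l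
  have hi : i = ⟨d k, Nat.lt_succ_of_le (Finset.le_sup (Finset.mem_univ _))⟩ := Fin.ext hk.symm
  subst hi
  unfold cvEntry
  rw [dif_pos (hl.symm)]

theorem cvEntry_ne (C : ∀ i : Fin (univ.sup d + 1),
      Matrix {k : Fin t // d k = i.val} {k : Fin t // d k = i.val} F)
    (k l : Fin t) (h : d k ≠ d l) : cvEntry C k l = 0 := by
  unfold cvEntry
  rw [dif_neg h]

theorem cvEntry_symm (C : ∀ i : Fin (univ.sup d + 1),
      Matrix {k : Fin t // d k = i.val} {k : Fin t // d k = i.val} F)
    (hC : ∀ i, (C i).transpose = (-1 : F) ^ i.val • C i) (k l : Fin t) :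
    cvEntry C l k = (-1 : F) ^ (d k) * cvEntry C k l := by
  by_cases h : d k = d l
  · have h1 := cvEntry_eq C ⟨d k, Nat.lt_succ_of_le (Finset.le_sup (Finset.mem_univ _))⟩
      ⟨l, h.symm⟩ ⟨k, rfl⟩
    have h2 := cvEntry_eq C ⟨d k, Nat.lt_succ_of_le (Finset.le_sup (Finset.mem_univ _))⟩
      ⟨k, rfl⟩ ⟨l, h.symm⟩
    simp only at h1 h2
    rw [h1, h2]
    have h3 := congrFun (congrFun
      (hC ⟨d k, Nat.lt_succ_of_le (Finset.le_sup (Finset.mem_univ _))⟩) ⟨k, rfl⟩) ⟨l, h.symm⟩
    rw [Matrix.transpose_apply, Matrix.smul_apply, smul_eq_mul] at h3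
    exact h3
  · rw [cvEntry_ne C k l h, cvEntry_ne C l k (Ne.symm h), mul_zero]

/-- The form with prescribed leading blocks. -/
def formOfBlocks (C : ∀ i : Fin (univ.sup d + 1),
      Matrix {k : Fin t // d k = i.val} {k : Fin t // d k = i.val} F) :
    Matrix (JI d) (JI d) F :=
  Matrix.of fun x y =>
    if x.2.val + y.2.val + 1 = d x.1 then (-1 : F) ^ y.2.val * cvEntry C x.1 y.1 else 0

theorem formOfBlocks_apply (C : ∀ i : Fin (univ.sup d + 1),
      Matrix {k : Fin t // d k = i.val} {k : Fin t // d k = i.val} F) (x y : JI d) :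
    formOfBlocks C x y =
      if x.2.val + y.2.val + 1 = d x.1 then (-1 : F) ^ y.2.val * cvEntry C x.1 y.1 else 0 := rfl

theorem formOfBlocks_transpose (C : ∀ i : Fin (univ.sup d + 1),
      Matrix {k : Fin t // d k = i.val} {k : Fin t // d k = i.val} F)
    (hC : ∀ i, (C i).transpose = (-1 : F) ^ i.val • C i) :
    (formOfBlocks C).transpose = -formOfBlocks C := by
  ext x y
  rw [Matrix.transpose_apply, Matrix.neg_apply, formOfBlocks_apply, formOfBlocks_apply]
  by_cases h : d x.1 = d y.1
  · by_cases h1 : x.2.val + y.2.val + 1 = d x.1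
    · have h2 : y.2.val + x.2.val + 1 = d y.1 := by omega
      rw [if_pos h1, if_pos h2, cvEntry_symm C hC x.1 y.1, ← mul_assoc, ← pow_add]
      have h3 : x.2.val + d x.1 = 2 * x.2.val + (y.2.val + 1) := by omega
      have h4 : ((-1 : F) ^ 2) = 1 := by norm_num
      rw [h3, pow_add, pow_mul, h4, one_pow, pow_succ]
      ring
    · have h2 : ¬ y.2.val + x.2.val + 1 = d y.1 := by omega
      rw [if_neg h1, if_neg h2, neg_zero]
  · rw [cvEntry_ne C x.1 y.1 h, cvEntry_ne C y.1 x.1 (Ne.symm h)]
    simp

theorem formOfBlocks_skew (C : ∀ i : Fin (univ.sup d + 1),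
      Matrix {k : Fin t // d k = i.val} {k : Fin t // d k = i.val} F) :
    (jordanNil d F).transpose * formOfBlocks C = -(formOfBlocks C * jordanNil d F) := by
  have h0 : (jordanNil d F).transpose * formOfBlocks C =
      ((formOfBlocks C).transpose * jordanNil d F).transpose := by
    rw [Matrix.transpose_mul, Matrix.transpose_transpose]
  rw [h0]
  ext x y
  rw [Matrix.transpose_apply, Matrix.neg_apply, mul_jordanNil_apply, mul_jordanNil_apply]
  have hx := x.2.2
  have hy := y.2.2
  by_cases h : d x.1 = d y.1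
  · by_cases h1 : x.2.val + y.2.val + 2 = d x.1
    · rw [dif_pos (by omega), dif_pos (by omega), Matrix.transpose_apply, formOfBlocks_apply,
        formOfBlocks_apply]
      simp only
      rw [if_pos (by omega), if_pos (by omega), pow_succ]
      ring
    · by_cases h2 : x.2.val + 1 < d x.1
      · rw [dif_pos h2, Matrix.transpose_apply, formOfBlocks_apply]
        simp only
        rw [if_neg (by omega)]
        by_cases h3 : y.2.val + 1 < d y.1
        · rw [dif_pos h3, formOfBlocks_apply]
          simp only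
          rw [if_neg (by omega), neg_zero]
        · rw [dif_neg h3, neg_zero]
      · rw [dif_neg h2]
        by_cases h3 : y.2.val + 1 < d y.1
        · rw [dif_pos h3, formOfBlocks_apply]
          simp only
          rw [if_neg (by omega), neg_zero]
        · rw [dif_neg h3, neg_zero]
  · have hc : cvEntry C x.1 y.1 = 0 := cvEntry_ne C x.1 y.1 h
    by_cases h2 : x.2.val + 1 < d x.1
    · rw [dif_pos h2, Matrix.transpose_apply, formOfBlocks_apply]
      simp only
      rw [hc, mul_zero, ite_self]
      by_cases h3 : y.2.val + 1 < d y.1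
      · rw [dif_pos h3, formOfBlocks_apply]
        simp only
        rw [hc, mul_zero, ite_self, neg_zero]
      · rw [dif_neg h3, neg_zero]
    · rw [dif_neg h2]
      by_cases h3 : y.2.val + 1 < d y.1
      · rw [dif_pos h3, formOfBlocks_apply]
        simp only
        rw [hc, mul_zero, ite_self, neg_zero]
      · rw [dif_neg h3, neg_zero]

theorem formOfBlocks_leadBlock (hd : ∀ k, 1 ≤ d k) (C : ∀ i : Fin (univ.sup d + 1),
      Matrix {k : Fin t // d k = i.val} {k : Fin t // d k = i.val} F)
    (i : Fin (univ.sup d + 1)) : leadBlock hd (formOfBlocks C) i.val = C i := by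
  ext k l
  rw [leadBlock_apply, formOfBlocks_apply]
  have := hd k.1
  rw [if_pos (by simp only [jtop_snd]; omega)]
  simp only [jtop_snd, jtop_fst, pow_zero, one_mul]
  exact cvEntry_eq C i k l

end lbsurj

theorem lbsurj (h : LBInvStmt.{u}) : LBSurjStmt.{u} := by
  intro F _ t d hd C hC hdet
  have hskew := formOfBlocks_skew (F := F) C
  have hne : (formOfBlocks C).det ≠ 0 := by
    rw [h d hd (formOfBlocks C) hskew]
    intro i
    rw [formOfBlocks_leadBlock hd C i]
    exact hdet i
  exact ⟨⟨formOfBlocks C, formOfBlocks_transpose C hC, hne, hskew⟩,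
    fun i => formOfBlocks_leadBlock hd C i⟩

end Cfsg.Agent.H4.SPC
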