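import Mathlib
import Cfsg.Agent.H77.TpDefs

/-!
# S5980-NEGMODEL (for helper77)

For `a = 2` the tensor product subgroup contains a symplectic element of square `-1`.
-/

set_option autoImplicit false
open scoped MatrixGroups
open scoped Matrix
open scoped Kronecker

namespace Cfsg.Agent.H4.Tp

open Cfsg.Agent.H45 Cfsg.Agent.H42.Spd Cfsg.Agent.H77.Fx Cfsg.Agent.H77.Tp Module

universe u

theorem negModel (hLift : StLift.{u}) (hTri : StTri.{u}) (hGram : StGram.{u}) :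
    StNegModel.{u} := by
  intro F _ d b e P f₁ f₂ hTH hb
  classical
  obtain ⟨hG1, hG2, -, -⟩ := (hGram F 2 f₁).2 hTH.sym
  -- the matrix `J₀`
  obtain ⟨J, hJ⟩ : ∃ J : Matrix (Fin 2) (Fin 2) F, J = !![0, 1; -1, 0] := ⟨_, rfl⟩
  have hJdet : IsUnit J.det := by
    rw [hJ, Matrix.det_fin_two_of]
    simp
  have hJJ : J * J = -1 := by
    rw [hJ]
    ext i j
    fin_cases i <;> fin_cases j <;> simp [Matrix.mul_apply, Fin.sum_univ_two]
  have h10 : Cfsg.Geo.gramMatrix f₁ 1 0 = - Cfsg.Geo.gramMatrix f₁ 0 1 := by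
    have h := congrFun (congrFun hG1 0) 1
    rw [Matrix.transpose_apply, Matrix.neg_apply] at h
    exact h
  have hJG : Jᵀ * Cfsg.Geo.gramMatrix f₁ * J = Cfsg.Geo.gramMatrix f₁ := by
    rw [hJ]
    ext i j
    fin_cases i <;> fin_cases j <;>
      simp [Matrix.mul_apply, Fin.sum_univ_two, hG2, h10]
  have h1det : IsUnit (1 : Matrix (Fin b) (Fin b) F).det := by
    rw [Matrix.det_one]
    exact isUnit_one
  have h1G : (1 : Matrix (Fin b) (Fin b) F)ᵀ * Cfsg.Geo.gramMatrix f₂ * 1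
      = Cfsg.Geo.gramMatrix f₂ := by
    rw [Matrix.transpose_one, Matrix.one_mul, Matrix.mul_one]
  obtain ⟨y, hy1, hy2, hy3⟩ := hLift F d 2 b e P f₁ f₂ hTH J 1 hJdet h1det hJG h1G
  refine ⟨y, hy1, hy2, ?_⟩
  obtain ⟨-, -, h3, -⟩ := hTri F d 2 b e (y : Mat d F) (P : Mat d F) J 1 (by norm_num) hb
    (Matrix.isUnits_det_units P) hJdet h1det hy3
  have hk : (J ⊗ₖ (1 : Matrix (Fin b) (Fin b) F)) ^ 2
      = (-1 : F) • (1 : Matrix (Fin 2 × Fin b) (Fin 2 × Fin b) F) := by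
    rw [pow_two, ← Matrix.mul_kronecker_mul, hJJ, Matrix.one_mul,
      ← neg_one_smul F (1 : Matrix (Fin 2) (Fin 2) F), Matrix.smul_kronecker,
      Matrix.one_kronecker_one]
  have h4 := h3 2 (-1) hk
  rw [pow_two, neg_one_smul] at h4
  exact h4

section check

example : Cfsg.Agent.H77.Tp.StLift.{u} → Cfsg.Agent.H77.Tp.StTri.{u} →
    Cfsg.Agent.H77.Tp.StGram.{u} → Cfsg.Agent.H77.Tp.StNegModel.{u} :=
  fun hLift hTri hGram => negModel hLift hTri hGram

end check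

end Cfsg.Agent.H4.Tp
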