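import Mathlib
import Cfsg.Agent.H77.TpDefs
import Cfsg.Agent.H53.TenFIN
import Cfsg.Agent.H99.ElSTR

/-!
# S5980-ODD (for helper77)

For an odd prime `r ≠ p`, a symplectic element of order `r` with `[V, x]` of the minimal
dimension `cc F r` is not conjugate into the tensor product subgroup (mid-level assembly).
-/

set_option autoImplicit false
open scoped MatrixGroups
open scoped Matrix
open scoped Kronecker

namespace Cfsg.Agent.H4.Tp

open Cfsg.Agent.H45 Cfsg.Agent.H42.Spd Cfsg.Agent.H77.Fx Cfsg.Agent.H77.Tp Module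

universe u

section Core

variable {F : Type u} [Field F] {d : ℕ}

theorem finrank_vec_tp : Module.finrank F (Vec d F) = 2 * d := by
  rw [Module.finrank_fintype_fun_eq_card, Fintype.card_sum, Fintype.card_fin]
  ring

/-- Rank and fixed space. -/
theorem rank_add_fix_tp (x : Mat d F) :
    (x - 1).rank + Module.finrank F ↥(fixSp d x) = 2 * d := by
  have h1 := LinearMap.finrank_range_add_finrank_ker (Matrix.toLin' x - 1)
  rw [finrank_vec_tp] at h1
  have h2 : (x - 1).rank = Module.finrank F ↥(LinearMap.range (Matrix.toLin' x - 1)) := by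
    have h3 : (x - 1).mulVecLin = Matrix.toLin' x - 1 := by
      rw [← Matrix.toLin'_apply', map_sub, Matrix.toLin'_one]
      rfl
    unfold Matrix.rank
    rw [h3]
  rw [h2]
  exact h1

theorem eq_zero_of_rank_eq_zero_tp {n : ℕ} (M : Matrix (Fin n) (Fin n) F) (h : M.rank = 0) :
    M = 0 := by
  unfold Matrix.rank at h
  have h1 : LinearMap.range M.mulVecLin = ⊥ := Submodule.finrank_eq_zero.mp h
  have h2 : M.mulVecLin = 0 := LinearMap.range_eq_bot.mp h1
  ext i j
  have h3 := congrFun (congrArg (fun f => f (Pi.single j 1)) h2) i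
  simpa using h3

theorem gram_ne_zero_tp {n : ℕ} (hn : 0 < n) (G : Matrix (Fin n) (Fin n) F)
    (hG : IsUnit G.det) : ∃ i j, G i j ≠ 0 := by
  by_contra hcon
  have h0 : G = 0 := by
    ext i j
    by_contra hij
    exact hcon ⟨i, j, hij⟩
  have : Nonempty (Fin n) := ⟨⟨0, hn⟩⟩
  rw [h0, Matrix.det_zero] at hG
  exact not_isUnit_zero hG

end Core

theorem oddOut (hGlue : StGlue.{u}) (hForm : StForm.{u}) (hTri : StTri.{u})
    (hGram : StGram.{u}) (hKronOne : StKronOne.{u}) (hParity : StParity.{u})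
    (hVec : StVec.{u}) (hIntwMat : StIntwMat.{u}) (hArith : StArith) : StOddOut.{u} := by
  intro F _ _ p _ _ d a b e P f₁ f₂ hTH hae ha2 hb3 r hr hr2 hrp x g hx hg hxr hns hfix hmem
  classical
  have hrF : (r : F) ≠ 0 := by
    intro h0
    have h1 := (CharP.cast_eq_zero_iff F p r).mp h0
    exact hrp ((Nat.prime_dvd_prime_iff_eq Fact.out hr).mp h1).symm
  obtain ⟨i, hi⟩ : ∃ i, i = orderOf (Fintype.card F : ZMod r) := ⟨_, rfl⟩
  have hi1 : 1 ≤ i := by
    rw [hi]
    exact Cfsg.Agent.H99.El.orderOf_card_pos r hr hrF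
  obtain ⟨c, hc⟩ : ∃ c, c = cc F r := ⟨_, rfl⟩
  have hci : c = if Even i then i else 2 * i := by
    rw [hc, hi]
    rfl
  have hrank : ((x : Mat d F) - 1).rank = c := by
    have h1 := rank_add_fix_tp (x : Mat d F)
    rw [← hc] at hfix
    omega
  have hxr' : (x : Mat d F) ^ r = 1 := by
    rw [← Units.val_pow_eq_pow_val, hxr]
    rfl
  have hodd : Odd r := hr.odd_of_ne_two hr2
  have ha0 : 0 < a := by omega
  have hb0 : 0 < b := by omega
  obtain ⟨A, B, hA, hB, hxQ⟩ := (hGlue F d a b e P x g).1 hmem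
  obtain ⟨t1, t2, -, t4, -, t6, t7, -⟩ := hTri F d a b e (x : Mat d F)
    ((g * P : GL (Fin d ⊕ Fin d) F) : Mat d F) A B ha0 hb0
    (Matrix.isUnits_det_units (g * P)) hA hB hxQ
  obtain ⟨κ, hκ, hκA, hκB⟩ := hForm F d a b e P f₁ f₂ hTH ha0 hb0 x g hx hg A B hxQ
  obtain ⟨-, -, hG1u, -⟩ := (hGram F a f₁).2 hTH.sym
  obtain ⟨hG2t, hG2u, -⟩ := (hGram F b f₂).1 hTH.orth
  have hc_le : c ≤ 2 * i := by
    rw [hci]
    split_ifs <;> omega
  have hc_ge : i ≤ c := by
    rw [hci]
    split_ifs <;> omega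
  by_cases hAs : ∃ α : F, A = α • (1 : Matrix (Fin a) (Fin a) F)
  · -- `A` scalar
    obtain ⟨α, hα⟩ := hAs
    obtain ⟨h61, h62⟩ := t6 α hα
    have hY : (α • B) ^ r = 1 := h62 r hxr'
    have hdvd := Cfsg.Agent.H53.Ten.order_dvd_rank_sub_one r hr hrF (α • B) hY
    rw [← hi] at hdvd
    obtain ⟨u, hu⟩ := hdvd
    rw [hrank, hu] at h61
    have hu1 : 1 ≤ u := by
      rcases Nat.eq_zero_or_pos u with h0 | h0
      · rw [h0, Nat.mul_zero, Nat.mul_zero] at h61
        omega
      · exact h0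
    have h2 : 2 * (i * u) ≤ a * (i * u) := Nat.mul_le_mul_right _ ha2
    have h3 : i ≤ i * u := Nat.le_mul_of_pos_right i hu1
    have hc2 : c = 2 * i := by omega
    have hiodd : ¬ Even i := by
      intro hev
      rw [if_pos hev] at hci
      omega
    have hrk : (α • B - 1).rank = i := by
      rw [hu]
      omega
    obtain ⟨i₀, j₀, hij⟩ := gram_ne_zero_tp ha0 _ hG1u
    have hακ : α * α = κ := by
      rw [hα] at hκA
      have e1 : (α • (1 : Matrix (Fin a) (Fin a) F))ᵀ * Cfsg.Geo.gramMatrix f₁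
          * (α • (1 : Matrix (Fin a) (Fin a) F)) = (α * α) • Cfsg.Geo.gramMatrix f₁ := by
        rw [Matrix.transpose_smul, Matrix.transpose_one, Matrix.smul_mul, Matrix.smul_mul,
          Matrix.mul_smul, smul_smul, Matrix.one_mul, Matrix.mul_one]
      rw [e1] at hκA
      have e2 := congrFun (congrFun hκA i₀) j₀
      rw [Matrix.smul_apply, Matrix.smul_apply, smul_eq_mul, smul_eq_mul] at e2
      exact mul_right_cancel₀ hij e2
    have hYG : (α • B)ᵀ * Cfsg.Geo.gramMatrix f₂ * (α • B) = Cfsg.Geo.gramMatrix f₂ := by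
      have e1 : (α • B)ᵀ * Cfsg.Geo.gramMatrix f₂ * (α • B)
          = (α * α) • (Bᵀ * Cfsg.Geo.gramMatrix f₂ * B) := by
        rw [Matrix.transpose_smul, Matrix.smul_mul, Matrix.smul_mul, Matrix.mul_smul, smul_smul]
      rw [e1, hκB, smul_smul, hακ, mul_inv_cancel₀ hκ, one_smul]
    have hpar := hParity F b (Cfsg.Geo.gramMatrix f₂) (α • B) r hG2t hG2u hYG hodd hY
    rw [hrk] at hpar
    exact hiodd hpar
  · by_cases hBs : ∃ β : F, B = β • (1 : Matrix (Fin b) (Fin b) F)
    · -- `B` scalar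
      obtain ⟨β, hβ⟩ := hBs
      obtain ⟨h71, h72⟩ := t7 β hβ
      have hY : (β • A) ^ r = 1 := h72 r hxr'
      have hdvd := Cfsg.Agent.H53.Ten.order_dvd_rank_sub_one r hr hrF (β • A) hY
      rw [← hi] at hdvd
      obtain ⟨u, hu⟩ := hdvd
      rw [hrank, hu] at h71
      have hu1 : 1 ≤ u := by
        rcases Nat.eq_zero_or_pos u with h0 | h0
        · rw [h0, Nat.mul_zero, Nat.mul_zero] at h71
          omega
        · exact h0
      have h2 : 3 * (i * u) ≤ b * (i * u) := Nat.mul_le_mul_right _ hb3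
      have h3 : i ≤ i * u := Nat.le_mul_of_pos_right i hu1
      omega
    · -- neither scalar
      have hcb : b ≤ c := by
        rw [← hrank]
        exact t4 hAs
      have hi2 : 2 ≤ i := by
        by_contra hlt
        have hi1' : i = 1 := by omega
        rw [hi1'] at hci
        have h1 : ¬ Even 1 := by decide
        rw [if_neg h1] at hci
        omega
      have hAB : (A ⊗ₖ B) ^ r = 1 := t2 r hxr'
      rw [Cfsg.Agent.H53.Ten.ten_kron_pow] at hAB
      obtain ⟨l, hl0, hlA, hlB⟩ := hKronOne F a b (A ^ r) (B ^ r) ha0 hb0 hAB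
      have hcop : (Nat.card Fˣ).Coprime r := by
        rw [Nat.coprime_comm, Nat.Prime.coprime_iff_not_dvd hr]
        intro hdvd
        rw [Nat.card_units, Nat.card_eq_fintype_card] at hdvd
        have hq1 : 1 ≤ Fintype.card F := Fintype.card_pos
        have h1 : (Fintype.card F : ZMod r) = 1 := by
          have h2 : ((Fintype.card F - 1 : ℕ) : ZMod r) = 0 :=
            (ZMod.natCast_eq_zero_iff _ _).mpr hdvd
          have h3 : Fintype.card F = (Fintype.card F - 1) + 1 := by omega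
          rw [h3, Nat.cast_add, h2, zero_add, Nat.cast_one]
        rw [h1, orderOf_one] at hi
        omega
      obtain ⟨ν, hν⟩ : ∃ ν : Fˣ, ν ^ r = Units.mk0 l hl0 :=
        ⟨(powCoprime hcop).symm (Units.mk0 l hl0), (powCoprime hcop).apply_symm_apply _⟩
      have hν' : (ν : F) ^ r = l := by
        have h1 := congrArg Units.val hν
        rw [Units.val_pow_eq_pow_val, Units.val_mk0] at h1
        exact h1
      have hν0 : (ν : F) ≠ 0 := ν.ne_zero
      obtain ⟨A', hA'⟩ : ∃ A' : Matrix (Fin a) (Fin a) F, A' = (ν : F)⁻¹ • A := ⟨_, rfl⟩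
      obtain ⟨B', hB'⟩ : ∃ B' : Matrix (Fin b) (Fin b) F, B' = (ν : F) • B := ⟨_, rfl⟩
      have hA'r : A' ^ r = 1 := by
        rw [hA', smul_pow, hlA, smul_smul, inv_pow, hν', inv_mul_cancel₀ hl0, one_smul]
      have hB'r : B' ^ r = 1 := by
        rw [hB', smul_pow, hlB, smul_smul, hν', mul_inv_cancel₀ hl0, one_smul]
      have hAB' : A' ⊗ₖ B' = A ⊗ₖ B := by
        rw [hA', hB', Matrix.smul_kronecker, Matrix.kronecker_smul, smul_smul,
          inv_mul_cancel₀ hν0, one_smul]
      have hA'1 : (A' - 1).rank ≠ 0 := by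
        intro h0
        have h1 := eq_zero_of_rank_eq_zero_tp _ h0
        rw [sub_eq_zero] at h1
        apply hAs
        refine ⟨(ν : F), ?_⟩
        rw [← h1, hA', smul_smul, mul_inv_cancel₀ hν0, one_smul]
      have hB'1 : (B' - 1).rank ≠ 0 := by
        intro h0
        have h1 := eq_zero_of_rank_eq_zero_tp _ h0
        rw [sub_eq_zero] at h1
        apply hBs
        refine ⟨(ν : F)⁻¹, ?_⟩
        rw [← h1, hB', smul_smul, inv_mul_cancel₀ hν0, one_smul]
      have hdA := Cfsg.Agent.H53.Ten.order_dvd_rank_sub_one r hr hrF A' hA'r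
      have hdB := Cfsg.Agent.H53.Ten.order_dvd_rank_sub_one r hr hrF B' hB'r
      rw [← hi] at hdA hdB
      obtain ⟨u, hu⟩ := hdA
      obtain ⟨v, hv⟩ := hdB
      have hu1 : 1 ≤ u := by
        rcases Nat.eq_zero_or_pos u with h0 | h0
        · rw [h0, Nat.mul_zero] at hu
          exact absurd hu hA'1
        · exact h0
      have hv1 : 1 ≤ v := by
        rcases Nat.eq_zero_or_pos v with h0 | h0
        · rw [h0, Nat.mul_zero] at hv
          exact absurd hv hB'1
        · exact h0
      have hua : i * u ≤ a := by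
        rw [← hu]
        exact Matrix.rank_le_width _
      have hvb : i * v ≤ b := by
        rw [← hv]
        exact Matrix.rank_le_width _
      have hvec := hVec F a b A' B'
      rw [hAB', ← t1, hrank] at hvec
      have hint := hIntwMat F a b r A' B' hr hrF hA'r hB'r
      rw [← hi, hu, hv] at hint
      have h1 : i * (a * b) = i * c + i * Module.finrank F ↥(intw A' B') := by
        rw [← hvec]
        ring
      have h2 : i * (c + (a - i * u) * (b - i * v))
          = i * c + i * ((a - i * u) * (b - i * v)) := Nat.mul_add _ _ _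
      exact hArith a b i u v c hae hb3 hi2 hu1 hv1 hua hvb hci (by omega)

section check

example : Cfsg.Agent.H77.Tp.StGlue.{u} → Cfsg.Agent.H77.Tp.StForm.{u} →
    Cfsg.Agent.H77.Tp.StTri.{u} → Cfsg.Agent.H77.Tp.StGram.{u} →
    Cfsg.Agent.H77.Tp.StKronOne.{u} → Cfsg.Agent.H77.Tp.StParity.{u} →
    Cfsg.Agent.H77.Tp.StVec.{u} → Cfsg.Agent.H77.Tp.StIntwMat.{u} →
    Cfsg.Agent.H77.Tp.StArith → Cfsg.Agent.H77.Tp.StOddOut.{u} :=
  fun hGlue hForm hTri hGram hKronOne hParity hVec hIntwMat hArith =>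
    oddOut hGlue hForm hTri hGram hKronOne hParity hVec hIntwMat hArith

end check

end Cfsg.Agent.H4.Tp
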