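import Mathlib
import Cfsg.Agent.Lib.Helper96.TqPlusDefs
import Cfsg.Agent.H4.TqMinElEven

set_option autoImplicit false

/-!
# Piece `S5977-MINELEVEN` for helper96

For `i = ord_r(q)` even with `i + 2 ≤ 2 d`, the group `Ω⁺_{2d}(q)` has an element of order `r` with
`rank (x - 1) = i`: the image under the embedding `O⁻_i(q) → O⁺_{2d}(q)` of an element of order `r`.
-/

namespace Cfsg.Agent.H4.Tqp

open Cfsg.Agent.H77.Tq Cfsg.Agent.Lib.Helper96.TqP
open scoped Matrix

universe u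

/-- An anisotropic binary form over a finite field of odd characteristic. -/
theorem exists_aniso (F : Type u) [Field F] [Fintype F] (h2 : (2 : F) ≠ 0) :
    ∃ a b : F, Aniso a b := by
  have hch : ringChar F ≠ 2 := by
    intro h
    apply h2
    have h1 : ((ringChar F : ℕ) : F) = 0 := CharP.cast_eq_zero F (ringChar F)
    rw [h] at h1
    exact_mod_cast h1
  obtain ⟨ν, hν⟩ := FiniteField.exists_nonsquare hch
  refine ⟨0, -ν, ?_⟩
  intro x y h
  have hy : y = 0 := by
    by_contra hy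
    apply hν
    refine ⟨x / y, ?_⟩
    field_simp
    linear_combination -h
  subst hy
  refine ⟨?_, rfl⟩
  have hx : x ^ 2 = 0 := by linear_combination h
  exact pow_eq_zero_iff (two_ne_zero) |>.mp hx

/-- S5977-MINELEVEN. -/
theorem minElEvenP (hEmb : StEmbMP.{u}) (hOdd : StOddMem.{u}) : StMinElEvenP.{u} := by
  intro F _ _ p hp _ d h2 r hr hr2 hrp hev hle
  classical
  have hrF : Fact r.Prime := ⟨hr⟩
  -- `q` is a unit modulo `r`, so its order is positive
  obtain ⟨f, -, hf⟩ := FiniteField.card F p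
  have hq0 : ((Fintype.card F : ℕ) : ZMod r) ≠ 0 := by
    rw [Ne, ZMod.natCast_eq_zero_iff, hf]
    intro hd
    exact hrp ((Nat.prime_dvd_prime_iff_eq hr hp.out).mp (hr.dvd_of_dvd_pow hd))
  have hpos : 0 < orderOf ((Fintype.card F : ℕ) : ZMod r) := by
    rw [orderOf_pos_iff, isOfFinOrder_iff_pow_eq_one]
    exact ⟨r - 1, by have := hr.two_le; omega, ZMod.pow_card_sub_one_eq_one hq0⟩
  obtain ⟨k, hk⟩ : ∃ k, orderOf ((Fintype.card F : ℕ) : ZMod r) = 2 * (k + 1) := by
    obtain ⟨c, hc⟩ := hev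
    exact ⟨c - 1, by omega⟩
  have hkd : k + 2 ≤ d := by omega
  obtain ⟨a, b, hab⟩ := exists_aniso F h2
  obtain ⟨Θ, hΘiso, hΘrank⟩ := hEmb F k d a b h2 hab hkd
  -- Cauchy in the isometry group of the minus-type form of dimension `2 k + 2`
  have hcard := Cfsg.Agent.S0288.key (F := F) rfl a b hab k
  have hdvd : r ∣ Nat.card ↥(Cfsg.isometryGroup F (Cfsg.quadFormMinus k F a b)) := by
    rw [hcard]
    exact Dvd.dvd.mul_right (Dvd.dvd.mul_left (Cfsg.Agent.H4.Tq.dvd_pow_add_one _ r k hr hk) _) _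
  obtain ⟨x₀, hx₀⟩ := exists_prime_orderOf_dvd_card' r hdvd
  have hx₀r' : x₀ ^ r = 1 := by rw [← hx₀]; exact pow_orderOf_eq_one x₀
  have hx₀r : ((x₀ : GL (MI k) F)) ^ r = 1 := by
    have h3 := congrArg
      (fun g : ↥(Cfsg.isometryGroup F (Cfsg.quadFormMinus k F a b)) => (g : GL (MI k) F)) hx₀r'
    simpa using h3
  obtain ⟨A, hA⟩ : ∃ A : Matrix (MI k) (MI k) F, A = ((x₀ : GL (MI k) F) : Matrix (MI k) (MI k) F) :=
    ⟨_, rfl⟩
  have hAr : A ^ r = 1 := by
    have h3 := congrArg (fun g : GL (MI k) F => (g : Matrix (MI k) (MI k) F)) hx₀r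
    rw [hA]
    simpa using h3
  have hA1 : A ≠ 1 := by
    intro h
    have h1 : x₀ = 1 := by
      apply Subtype.ext
      apply Units.ext
      rw [← hA, h]
      rfl
    rw [h1, orderOf_one] at hx₀
    exact hr.one_lt.ne hx₀
  -- the rank of `A - 1`
  have hrF' : (r : F) ≠ 0 := by
    intro h
    have h1 := (CharP.cast_eq_zero_iff F p r).mp h
    exact hrp ((Nat.prime_dvd_prime_iff_eq hp.out hr).mp h1).symm
  have hrank : (A - 1).rank = 2 * (k + 1) := by
    have hY : (Matrix.reindexAlgEquiv F F (Fintype.equivFin (MI k)) A) ^ r = 1 := by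
      rw [← map_pow, hAr, map_one]
    have h1 := Cfsg.Agent.H53.Ten.order_dvd_rank_sub_one r hr hrF' _ hY
    have h3 : Matrix.reindexAlgEquiv F F (Fintype.equivFin (MI k)) A - 1 =
        Matrix.reindexAlgEquiv F F (Fintype.equivFin (MI k)) (A - 1) := by
      rw [map_sub, map_one]
    rw [h3, Matrix.coe_reindexAlgEquiv, Matrix.rank_reindex, hk] at h1
    have h4 : (A - 1).rank ≤ 2 * (k + 1) := by
      have h5 := Matrix.rank_le_card_width (A - 1)
      have hc : Fintype.card (MI k) = 2 * (k + 1) := by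
        simp only [Fintype.card_sum, Fintype.card_fin]
        ring
      omega
    have h5 : (A - 1).rank ≠ 0 := by
      intro h
      exact hA1 (sub_eq_zero.mp (Cfsg.Agent.H4.Tq.eq_zero_of_rank_eq_zero _ h))
    have h6 := Nat.le_of_dvd (Nat.pos_of_ne_zero h5) h1
    omega
  -- the element
  have hxr : Θ x₀ ^ r = 1 := by rw [← map_pow, hx₀r', map_one]
  have hxrank : (((Θ x₀ : GL (Fin d ⊕ Fin d) F) : Matrix (Fin d ⊕ Fin d) (Fin d ⊕ Fin d) F) - 1).rank =
      2 * (k + 1) := by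
    rw [hΘrank x₀, ← hA, hrank]
  refine ⟨Θ x₀, ?_, hxr, ?_, ?_⟩
  · exact hOdd F (Fin d ⊕ Fin d) (Cfsg.Agent.H49.QP d F) h2 (Cfsg.Agent.H49.QP_nondeg d F) (Θ x₀) r
      (hΘiso x₀) (hr.odd_of_ne_two hr2) hxr
  · intro z hz
    rw [hz] at hxrank
    by_cases hz1 : z = 1
    · rw [hz1, one_smul, sub_self, Matrix.rank_zero] at hxrank
      omega
    · have h1 : z • (1 : Matrix (Fin d ⊕ Fin d) (Fin d ⊕ Fin d) F) - 1 =
          (z - 1) • (1 : Matrix (Fin d ⊕ Fin d) (Fin d ⊕ Fin d) F) := by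
        rw [sub_smul, one_smul]
      have h3 : IsUnit ((z - 1) • (1 : Matrix (Fin d ⊕ Fin d) (Fin d ⊕ Fin d) F)) := by
        rw [← Algebra.algebraMap_eq_smul_one]
        exact (isUnit_iff_ne_zero.mpr (sub_ne_zero.mpr hz1)).map _
      rw [h1, Matrix.rank_of_isUnit _ h3] at hxrank
      simp only [Fintype.card_sum, Fintype.card_fin] at hxrank
      omega
  · rw [hxrank]
    unfold Cfsg.Agent.H42.Spd.cc
    rw [if_pos hev, hk]

section check

example (hEmb : StEmbMP.{u}) (hOdd : StOddMem.{u}) : StMinElEvenP.{u} := minElEvenP hEmb hOdd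

end check

end Cfsg.Agent.H4.Tqp
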