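import Mathlib
import Cfsg.Agent.H7.Herm

/-!
Piece S5982-INV2: an involution of `GL_n(q₀²)` in characteristic 2 preserves a nondegenerate
Hermitian form.
-/

set_option autoImplicit false

namespace Cfsg.Agent.H4.Uni

open scoped MatrixGroups
open Cfsg.Agent.H7

universe v

variable {F : Type*} [Field F] [Fintype F]

theorem add_pow_q' {q : ℕ} (hF : Fintype.card F = q ^ 2) (x y : F) :
    (x + y) ^ q = x ^ q + y ^ q := by
  obtain ⟨p, k, hp, hc, rfl⟩ := exists_char_pow hF
  have : Fact p.Prime := ⟨hp⟩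
  exact add_pow_char_pow x y p k

/-- `h` is a nondegenerate Hermitian form invariant under `1 + N`. -/
structure IsInvHerm (q : ℕ) {V : Type v} [AddCommGroup V] [Module F V] (N : V →ₗ[F] V)
    (h : V → V → F) : Prop where
  add_left : ∀ v v' w, h (v + v') w = h v w + h v' w
  smul_left : ∀ (c : F) v w, h (c • v) w = c * h v w
  herm : ∀ v w, h w v = (h v w) ^ q
  nondeg : ∀ v, (∀ w, h v w = 0) → v = 0
  inv : ∀ v w, h (v + N v) (w + N w) = h v w

section forms

variable {q : ℕ} {V : Type v} [AddCommGroup V] [Module F V] {N : V →ₗ[F] V} {h : V → V → F}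

omit [Fintype F] in
theorem IsInvHerm.zero_left (hh : IsInvHerm q N h) (w : V) : h 0 w = 0 := by
  have h1 := hh.smul_left 0 0 w
  rw [zero_smul, zero_mul] at h1
  exact h1

omit [Fintype F] in
theorem IsInvHerm.sum_left (hh : IsInvHerm q N h) {ι : Type*} (s : Finset ι) (c : ι → F)
    (x : ι → V) (w : V) : h (∑ i ∈ s, c i • x i) w = ∑ i ∈ s, c i * h (x i) w := by
  classical
  induction s using Finset.induction_on with
  | empty => simp [hh.zero_left]
  | insert a s ha ih =>
    rw [Finset.sum_insert ha, Finset.sum_insert ha, hh.add_left, hh.smul_left, ih]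

theorem IsInvHerm.sum_right (hh : IsInvHerm q N h) (hF : Fintype.card F = q ^ 2) {ι : Type*}
    (s : Finset ι) (c : ι → F) (x : ι → V) (v : V) :
    h v (∑ i ∈ s, c i • x i) = ∑ i ∈ s, (c i) ^ q * h v (x i) := by
  rw [hh.herm, hh.sum_left, sum_pow_q hF]
  apply Finset.sum_congr rfl
  intro i _
  rw [mul_pow, ← hh.herm]

end forms

/-- The standard Hermitian form in a basis is invariant under the identity. -/
theorem exists_std_form (q : ℕ) (hF : Fintype.card F = q ^ 2) (V : Type v) [AddCommGroup V]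
    [Module F V] [FiniteDimensional F V] :
    ∃ h : V → V → F, IsInvHerm q (0 : V →ₗ[F] V) h := by
  classical
  have hq : q ≠ 0 := by
    have := two_le_of_card_sq hF
    omega
  let b := Module.finBasis F V
  have hform : IsInvHerm q (0 : V →ₗ[F] V)
      (fun v w => ∑ i, b.repr v i * (b.repr w i) ^ q) := by
    refine ⟨?_, ?_, ?_, ?_, ?_⟩
    · intro v v' w
      simp only [map_add, Finsupp.add_apply, add_mul, Finset.sum_add_distrib]
    · intro c v w
      simp only [map_smul, Finsupp.smul_apply, smul_eq_mul, Finset.mul_sum, mul_assoc]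
    · intro v w
      rw [sum_pow_q hF]
      apply Finset.sum_congr rfl
      intro i _
      rw [mul_pow, pow_q_pow_q hF, mul_comm]
    · intro v hv
      apply (LinearEquiv.map_eq_zero_iff b.repr).mp
      ext j
      have h1 := hv (b j)
      simp only [Module.Basis.repr_self] at h1
      rw [Finset.sum_eq_single j] at h1
      · rw [Finsupp.single_eq_same, one_pow, mul_one] at h1
        rw [h1, Finsupp.zero_apply]
      · intro i _ hij
        rw [Finsupp.single_eq_of_ne hij, zero_pow hq, mul_zero]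
      · intro hj
        exact absurd (Finset.mem_univ j) hj
    · intro v w
      simp only [LinearMap.zero_apply, add_zero]
  exact ⟨_, hform⟩

/-- Splitting off a free summand. -/
theorem ext_form (q : ℕ) (hF : Fintype.card F = q ^ 2) (h2 : (2 : F) = 0) {V : Type v}
    [AddCommGroup V] [Module F V] (N : V →ₗ[F] V) (hNN : ∀ x, N (N x) = 0)
    (e : V) (ψ : V →ₗ[F] F) (hψf : ψ (N e) = 1) (hψe : ψ e = 0)
    (W : Submodule F V) (hW : ∀ x, x ∈ W ↔ ψ (N x) = 0 ∧ ψ x = 0)
    (N' : W →ₗ[F] W) (hN' : ∀ x : W, (N' x : V) = N x)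
    (h' : W → W → F) (hh' : IsInvHerm q N' h') :
    ∃ h : V → V → F, IsInvHerm q N h := by
  have hq : q ≠ 0 := by
    have := two_le_of_card_sq hF
    omega
  have hxx : ∀ x : F, x + x = 0 := fun x => by rw [← two_mul, h2, zero_mul]
  have hπmem : ∀ v : V, ((LinearMap.id : V →ₗ[F] V) - (ψ.comp N).smulRight e - ψ.smulRight (N e)) v ∈ W := by
    intro v
    rw [hW]
    simp only [LinearMap.sub_apply, LinearMap.id_apply, LinearMap.smulRight_apply,
      LinearMap.comp_apply, map_sub, map_smul, hNN, hψf, hψe, smul_eq_mul, map_zero, mul_one,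
      mul_zero, sub_zero, sub_self, and_self]
  have hπval : ∀ v : V, ((((LinearMap.id : V →ₗ[F] V) - (ψ.comp N).smulRight e - ψ.smulRight (N e)).codRestrict
      W hπmem v : W) : V) = v - ψ (N v) • e - ψ v • N e := by
    intro v
    rw [LinearMap.codRestrict_apply]
    simp only [LinearMap.sub_apply, LinearMap.id_apply, LinearMap.smulRight_apply,
      LinearMap.comp_apply]
  generalize hπdef : ((LinearMap.id : V →ₗ[F] V) - (ψ.comp N).smulRight e - ψ.smulRight (N e)).codRestrict
      W hπmem = π at hπval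
  have hπW : ∀ x : W, π (x : V) = x := by
    intro x
    apply Subtype.ext
    rw [hπval, ((hW _).mp x.2).1, ((hW _).mp x.2).2, zero_smul, zero_smul, sub_zero, sub_zero]
  have hπN : ∀ v : V, π (v + N v) = π v + N' (π v) := by
    intro v
    apply Subtype.ext
    rw [Submodule.coe_add, hN', hπval, hπval]
    simp only [map_add, map_sub, map_smul, hNN, add_zero, add_smul, smul_zero, sub_zero]
    abel
  have hπe : π e = 0 := by
    apply Subtype.ext
    rw [hπval, hψf, hψe, one_smul, zero_smul, sub_self, sub_zero, Submodule.coe_zero]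
  have hπf : π (N e) = 0 := by
    apply Subtype.ext
    rw [hπval, hNN, hψf, map_zero, one_smul, zero_smul, sub_zero, sub_self, Submodule.coe_zero]
  refine ⟨fun v w => h' (π v) (π w) + (ψ (N v) * (ψ w) ^ q + ψ v * (ψ (N w)) ^ q), ?_, ?_, ?_,
    ?_, ?_⟩
  · intro v v' w
    simp only [map_add, hh'.add_left]
    ring
  · intro c v w
    simp only [map_smul, hh'.smul_left, smul_eq_mul]
    ring
  · intro v w
    rw [add_pow_q' hF, add_pow_q' hF, mul_pow, mul_pow, pow_q_pow_q hF, pow_q_pow_q hF,
      ← hh'.herm]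
    ring
  · intro v hv
    have h1 : π v = 0 := by
      apply hh'.nondeg
      intro x
      have h3 := hv (x : V)
      rw [hπW, ((hW _).mp x.2).1, ((hW _).mp x.2).2, zero_pow hq, mul_zero, mul_zero, add_zero,
        add_zero] at h3
      exact h3
    have h3 := hv e
    rw [h1, hh'.zero_left, hψe, hψf, zero_pow hq, mul_zero, one_pow, mul_one, zero_add,
      zero_add] at h3
    have h4 := hv (N e)
    rw [h1, hh'.zero_left, hNN, hψf, map_zero, zero_pow hq, mul_zero, one_pow, mul_one, zero_add,
      add_zero] at h4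
    have h5 := hπval v
    rw [h1, h3, h4, zero_smul, zero_smul, sub_zero, sub_zero, Submodule.coe_zero] at h5
    exact h5.symm
  · intro v w
    rw [hπN, hπN, hh'.inv]
    simp only [map_add, hNN, add_zero]
    rw [add_pow_q' hF]
    linear_combination (hxx (ψ (N v) * (ψ (N w)) ^ q))

theorem exists_inv_form (q : ℕ) (hF : Fintype.card F = q ^ 2) (h2 : (2 : F) = 0) :
    ∀ (k : ℕ) (V : Type v) [AddCommGroup V] [Module F V] [FiniteDimensional F V]
      (N : V →ₗ[F] V), Module.finrank F V = k → (∀ x, N (N x) = 0) →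
      ∃ h : V → V → F, IsInvHerm q N h := by
  intro k
  induction k using Nat.strong_induction_on with
  | _ k ih =>
    intro V _ _ _ N hk hNN
    by_cases hN0 : ∀ x, N x = 0
    · have h0 : N = 0 := LinearMap.ext hN0
      rw [h0]
      exact exists_std_form q hF V
    · obtain ⟨e, he⟩ := not_forall.mp hN0
      have hfe : N e ∉ Submodule.span F {e} := by
        intro hmem
        obtain ⟨c, hc⟩ := Submodule.mem_span_singleton.mp hmem
        have h1 : c • N e = 0 := by
          rw [← map_smul, hc, hNN]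
        rcases smul_eq_zero.mp h1 with h0 | h0
        · rw [h0, zero_smul] at hc
          exact he hc.symm
        · exact he h0
      obtain ⟨ψ₀, hψ₀f, hψ₀p⟩ := Submodule.exists_dual_map_eq_bot_of_notMem hfe inferInstance
      have hψ₀e : ψ₀ e = 0 := by
        have h3 : ψ₀ e ∈ (Submodule.span F {e}).map ψ₀ :=
          Submodule.mem_map_of_mem (Submodule.mem_span_singleton_self e)
        rw [hψ₀p, Submodule.mem_bot] at h3
        exact h3
      have hψf : ((ψ₀ (N e))⁻¹ • ψ₀) (N e) = 1 := by
        rw [LinearMap.smul_apply, smul_eq_mul, inv_mul_cancel₀ hψ₀f]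
      have hψe : ((ψ₀ (N e))⁻¹ • ψ₀) e = 0 := by
        rw [LinearMap.smul_apply, hψ₀e, smul_zero]
      generalize (ψ₀ (N e))⁻¹ • ψ₀ = ψ at hψf hψe
      have hWmem : ∀ x, x ∈ LinearMap.ker (ψ.comp N) ⊓ LinearMap.ker ψ ↔
          ψ (N x) = 0 ∧ ψ x = 0 := by
        intro x
        rw [Submodule.mem_inf, LinearMap.mem_ker, LinearMap.mem_ker, LinearMap.comp_apply]
      have hinv : ∀ x ∈ LinearMap.ker (ψ.comp N) ⊓ LinearMap.ker ψ,
          N x ∈ LinearMap.ker (ψ.comp N) ⊓ LinearMap.ker ψ := by
        intro x hx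
        rw [hWmem] at hx ⊢
        rw [hNN, map_zero]
        exact ⟨rfl, hx.1⟩
      have hne : LinearMap.ker (ψ.comp N) ⊓ LinearMap.ker ψ ≠ ⊤ := by
        intro htop
        have h3 : e ∈ LinearMap.ker (ψ.comp N) ⊓ LinearMap.ker ψ := by
          rw [htop]
          exact Submodule.mem_top
        rw [hWmem, hψf] at h3
        exact one_ne_zero h3.1
      have hlt := Submodule.finrank_lt hne
      rw [hk] at hlt
      have hN'N' : ∀ x : ↥(LinearMap.ker (ψ.comp N) ⊓ LinearMap.ker ψ),
          (N.restrict hinv) ((N.restrict hinv) x) = 0 := by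
        intro x
        apply Subtype.ext
        rw [LinearMap.coe_restrict_apply, LinearMap.coe_restrict_apply, hNN, Submodule.coe_zero]
      obtain ⟨h', hh'⟩ := ih _ hlt ↥(LinearMap.ker (ψ.comp N) ⊓ LinearMap.ker ψ)
        (N.restrict hinv) rfl hN'N'
      exact ext_form q hF h2 N hNN e ψ hψf hψe _ hWmem (N.restrict hinv)
        (fun x => LinearMap.coe_restrict_apply hinv x) h' hh'

theorem exists_gram_of_involution_char_two (q₀ n : ℕ) (hF : Fintype.card F = q₀ ^ 2)
    (h2 : (2 : F) = 0) (u : Matrix (Fin n) (Fin n) F) (hu : u ^ 2 = 1) :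
    ∃ A : Matrix (Fin n) (Fin n) F, IsUnit A.det ∧ (∀ i j, A j i = (A i j) ^ q₀) ∧
      u.transpose * A * u.map (fun a => a ^ q₀) = A := by
  classical
  have h11 : (1 : Matrix (Fin n) (Fin n) F) + 1 = 0 := by
    rw [← two_smul F (1 : Matrix (Fin n) (Fin n) F), h2, zero_smul]
  have huu : u + u = 0 := by
    rw [← two_smul F u, h2, zero_smul]
  have hNN : (u - 1) * (u - 1) = 0 := by
    have h3 : (u - 1) * (u - 1) = u ^ 2 - (u + u) + 1 := by
      rw [pow_two, sub_mul, mul_sub, mul_sub, mul_one, one_mul, mul_one]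
      abel
    rw [h3, hu, huu, sub_zero, h11]
  obtain ⟨h, hh⟩ := exists_inv_form q₀ hF h2 _ (Fin n → F) (Matrix.mulVecLin (u - 1)) rfl
    (fun x => by
      rw [Matrix.mulVecLin_apply, Matrix.mulVecLin_apply, Matrix.mulVec_mulVec, hNN,
        Matrix.zero_mulVec])
  have hexp : ∀ v : Fin n → F, v = ∑ i, v i • Pi.single (M := fun _ => F) i (1 : F) :=
    fun v => pi_eq_sum_univ' v
  have key : ∀ v w : Fin n → F, h v w =
      ∑ i, ∑ j, v i * h (Pi.single i 1) (Pi.single j 1) * (w j) ^ q₀ := by
    intro v w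
    conv_lhs => rw [hexp v, hh.sum_left]
    apply Finset.sum_congr rfl
    intro i _
    conv_lhs => rw [hexp w, hh.sum_right hF, Finset.mul_sum]
    apply Finset.sum_congr rfl
    intro j _
    ring
  have hu1 : ∀ v : Fin n → F, v + Matrix.mulVecLin (u - 1) v = u.mulVec v := by
    intro v
    rw [Matrix.mulVecLin_apply, Matrix.sub_mulVec, Matrix.one_mulVec]
    abel
  refine ⟨Matrix.of fun i j => h (Pi.single i 1) (Pi.single j 1), ?_, ?_, ?_⟩
  · rw [isUnit_iff_ne_zero]
    intro hdet
    obtain ⟨v, hv0, hv⟩ := Matrix.exists_vecMul_eq_zero_iff.mpr hdet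
    apply hv0
    apply hh.nondeg
    intro w
    rw [key, Finset.sum_comm]
    apply Finset.sum_eq_zero
    intro j _
    have h3 := congrFun hv j
    simp only [Matrix.vecMul, dotProduct, Matrix.of_apply, Pi.zero_apply] at h3
    rw [← Finset.sum_mul, h3, zero_mul]
  · intro i j
    simp only [Matrix.of_apply]
    exact hh.herm _ _
  · ext i j
    rw [Matrix.of_apply, ← hh.inv, hu1, hu1, key, Matrix.mul_apply]
    simp only [Matrix.mul_apply, Matrix.transpose_apply, Matrix.of_apply, Matrix.map_apply,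
      Matrix.mulVec_single_one, Matrix.col_apply, Finset.sum_mul]
    rw [Finset.sum_comm]

section check

example (q₀ n : ℕ) (hF : Fintype.card F = q₀ ^ 2)
    (h2 : (2 : F) = 0) (u : Matrix (Fin n) (Fin n) F) (hu : u ^ 2 = 1) :
    ∃ A : Matrix (Fin n) (Fin n) F, IsUnit A.det ∧ (∀ i j, A j i = (A i j) ^ q₀) ∧
      u.transpose * A * u.map (fun a => a ^ q₀) = A :=
  exists_gram_of_involution_char_two q₀ n hF h2 u hu

end check

end Cfsg.Agent.H4.Uni
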