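import Mathlib
import Cfsg.Agent.H42.UtDefs
import Cfsg.Agent.H42.UnBase

/-!
# S5953 piece UT-TUPLES (helper4)

The number of linearly independent `m`-tuples of pairwise orthogonal isotropic vectors of the
standard hermitian space of dimension `n` is `∏_{j<m} q^(2j) * isoNum q (n - 2j)`
(port of helper72's `TiTuples`).
-/

set_option autoImplicit false

namespace Cfsg.Agent.H4.Ut

open Cfsg.Agent.H45 Cfsg.Agent.H42.Spd Cfsg.Agent.H42.Un Cfsg.Agent.H42.Ti Cfsg.Agent.H42.Ut Module
  Polynomial

universe u

/-- The field automorphism `x ↦ x ^ q` of the field with `q ^ 2` elements. -/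
theorem exists_frob (F : Type u) [Field F] [Fintype F] (q : ℕ) (hF : Fintype.card F = q ^ 2) :
    ∃ σ : F →+* F, ∀ x, σ x = x ^ q := by
  obtain ⟨p, hp⟩ := CharP.exists F
  have hpp : Fact p.Prime := ⟨CharP.char_is_prime F p⟩
  obtain ⟨n, -, hn⟩ := FiniteField.card F p
  have hq : q ∣ p ^ (n : ℕ) := by
    rw [← hn, hF]
    exact Dvd.intro_left q (by ring)
  obtain ⟨k, -, hk⟩ := (Nat.dvd_prime_pow hpp.out).mp hq
  refine ⟨iterateFrobenius F p k, fun x => ?_⟩
  rw [iterateFrobenius_def, hk]

section Fib

variable {F : Type u} [Field F] [Fintype F]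

/-- The isotropic vectors orthogonal to, but not in the span of, an independent `m`-tuple of
pairwise orthogonal isotropic vectors. -/
theorem ut_fib_card (hI : StUtIsoCnt.{u, u}) (q : ℕ) (hF : Fintype.card F = q ^ 2) (σ : F →+* F)
    (hσq : ∀ x, σ x = x ^ q) (n m : ℕ) (v : Fin m → (Fin n → F))
    (hLI : LinearIndependent F v) (horth : ∀ a b, hermB σ n (v a) (v b) = 0) :
    Nat.card {w : (Fin n → F) // w ∉ Submodule.span F (Set.range v) ∧
        (∀ a, hermB σ n (v a) w = 0) ∧ hermB σ n w w = 0} =
      q ^ (2 * m) * isoNum q (n - 2 * m) := by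
  classical
  have hI1 := uiso_std_one hF σ hσq n
  obtain ⟨S, hS⟩ : ∃ S : Submodule F (Fin n → F), S = Submodule.span F (Set.range v) := ⟨_, rfl⟩
  have hmemK : ∀ w, (∀ a, hermB σ n (v a) w = 0) ↔ w ∈ perp (hermB σ n) S := by
    intro w
    constructor
    · intro h x hx
      rw [hS] at hx
      refine Submodule.span_induction ?_ ?_ ?_ ?_ hx
      · rintro _ ⟨a, rfl⟩
        exact h a
      · simp
      · intro x y _ _ hx hy
        rw [map_add, LinearMap.add_apply, hx, hy, add_zero]
      · intro c x _ hx
        rw [map_smul, LinearMap.smul_apply, hx, smul_zero]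
    · intro h a
      exact h (v a) (by rw [hS]; exact Submodule.subset_span ⟨a, rfl⟩)
  have hSK : S ≤ perp (hermB σ n) S := by
    rw [hS, Submodule.span_le]
    rintro _ ⟨b, rfl⟩
    rw [SetLike.mem_coe, ← hS, ← hmemK]
    intro a
    exact horth a b
  have hTI : UTI (hermB σ n) S := fun u hu w hw => hSK hw u hu
  have hSr : Module.finrank F S = m := by
    rw [hS, finrank_span_eq_card hLI, Fintype.card_fin]
  have hcnt := hI F q σ (Fin n → F) (hermB σ n) hF hσq hI1 S hTI
  rw [hSr, Module.finrank_fintype_fun_eq_card, Fintype.card_fin] at hcnt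
  have hset : {w : (Fin n → F) | w ∉ Submodule.span F (Set.range v) ∧
        (∀ a, hermB σ n (v a) w = 0) ∧ hermB σ n w w = 0} =
      {w : (Fin n → F) | w ∈ perp (hermB σ n) S ∧ hermB σ n w w = 0} \ (S : Set (Fin n → F)) := by
    ext w
    simp only [Set.mem_ofPred_eq, Set.mem_sdiff, SetLike.mem_coe, hmemK, ← hS]
    tauto
  have hsub : (S : Set (Fin n → F)) ⊆
      {w : (Fin n → F) | w ∈ perp (hermB σ n) S ∧ hermB σ n w w = 0} := by
    intro w hw
    exact ⟨hSK hw, hTI w hw w hw⟩
  have hcard : Nat.card {w : (Fin n → F) // w ∉ Submodule.span F (Set.range v) ∧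
        (∀ a, hermB σ n (v a) w = 0) ∧ hermB σ n w w = 0} =
      ({w : (Fin n → F) | w ∈ perp (hermB σ n) S ∧ hermB σ n w w = 0} \
        (S : Set (Fin n → F))).ncard := by
    rw [← hset]
    rfl
  have hTc : ({w : (Fin n → F) | w ∈ perp (hermB σ n) S ∧ hermB σ n w w = 0}).ncard =
      q ^ (2 * m) * (isoNum q (n - 2 * m) + 1) := by
    rw [← hcnt]
    rfl
  have hSc : (S : Set (Fin n → F)).ncard = q ^ (2 * m) := by
    rw [← Nat.card_coe_set_eq, pow_mul, ← hF, ← Nat.card_eq_fintype_card]
    conv_rhs => rw [← hSr]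
    exact Module.natCard_eq_pow_finrank (K := F) (V := S)
  rw [hcard, Set.ncard_sdiff hsub (Set.toFinite _), hTc, hSc, Nat.mul_add, mul_one,
    Nat.add_sub_cancel]

end Fib

/-- UT-TUPLES. -/
theorem utTuples (hI : StUtIsoCnt.{u, u}) : StUtTuples.{u} := by
  classical
  intro F _ _ q hF n m
  obtain ⟨σ, hσq⟩ := exists_frob F q hF
  have hI1 := uiso_std_one hF σ hσq n
  have hB : ∀ u v : Fin n → F, Cfsg.hermForm n F q u v = hermB σ n u v :=
    fun u v => (hermB_eq_hermForm σ hσq n u v).symm
  induction m with
  | zero =>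
    intro _
    rw [Finset.prod_range_zero]
    have : Unique {v : Fin 0 → (Fin n → F) // LinearIndependent F v ∧
        ∀ a b, Cfsg.hermForm n F q (v a) (v b) = 0} :=
      { default := ⟨fun i => i.elim0, linearIndependent_empty_type, fun a => a.elim0⟩
        uniq := fun x => Subtype.ext (Subsingleton.elim _ _) }
    exact Nat.card_unique
  | succ m ih =>
    intro hm
    have ih' := ih (by omega)
    rw [Finset.prod_range_succ, ← ih']
    let g : {v : Fin (m + 1) → (Fin n → F) // LinearIndependent F v ∧
        ∀ a b, Cfsg.hermForm n F q (v a) (v b) = 0} →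
        {v : Fin m → (Fin n → F) // LinearIndependent F v ∧
        ∀ a b, Cfsg.hermForm n F q (v a) (v b) = 0} :=
      fun u => ⟨Fin.init u.1, u.2.1.comp _ (Fin.castSucc_injective m),
        fun a b => u.2.2 a.castSucc b.castSucc⟩
    have hfib : ∀ v : {v : Fin m → (Fin n → F) // LinearIndependent F v ∧
        ∀ a b, Cfsg.hermForm n F q (v a) (v b) = 0},
        Nat.card {u // g u = v} = q ^ (2 * m) * isoNum q (n - 2 * m) := by
      intro v
      rw [← ut_fib_card hI q hF σ hσq n m v.1 v.2.1 (fun a b => by rw [← hB]; exact v.2.2 a b)]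
      refine Nat.card_congr ?_
      refine
        { toFun := fun u => ⟨u.1.1 (Fin.last m), ?_, ?_, ?_⟩
          invFun := fun w => ⟨⟨Fin.snoc v.1 w.1, ?_, ?_⟩, ?_⟩
          left_inv := ?_
          right_inv := ?_ }
      · have h1 : Fin.init u.1.1 = v.1 := congrArg Subtype.val u.2
        have h2 := u.1.2.1
        rw [← Fin.snoc_init_self u.1.1, linearIndependent_finSnoc, h1] at h2
        exact h2.2
      · intro a
        have h1 : Fin.init u.1.1 = v.1 := congrArg Subtype.val u.2
        rw [← h1, ← hB]
        exact u.1.2.2 a.castSucc (Fin.last m)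
      · rw [← hB]
        exact u.1.2.2 (Fin.last m) (Fin.last m)
      · exact linearIndependent_finSnoc.mpr ⟨v.2.1, w.2.1⟩
      · intro a b
        rw [hB]
        induction a using Fin.lastCases with
        | last =>
          induction b using Fin.lastCases with
          | last =>
            rw [Fin.snoc_last]
            exact w.2.2.2
          | cast b =>
            rw [Fin.snoc_last, Fin.snoc_castSucc]
            exact hI1.refl (w.2.2.1 b)
        | cast a =>
          induction b using Fin.lastCases with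
          | last =>
            rw [Fin.snoc_last, Fin.snoc_castSucc]
            exact w.2.2.1 a
          | cast b =>
            rw [Fin.snoc_castSucc, Fin.snoc_castSucc, ← hB]
            exact v.2.2 a b
      · refine Subtype.ext ?_
        show Fin.init (Fin.snoc (α := fun _ => (Fin n → F)) v.1 w.1) = v.1
        exact Fin.init_snoc _ _
      · intro u
        have h1 : Fin.init u.1.1 = v.1 := congrArg Subtype.val u.2
        refine Subtype.ext (Subtype.ext ?_)
        show Fin.snoc v.1 (u.1.1 (Fin.last m)) = u.1.1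
        rw [← h1]
        exact Fin.snoc_init_self _
      · intro w
        refine Subtype.ext ?_
        show Fin.snoc (α := fun _ => (Fin n → F)) v.1 w.1 (Fin.last m) = w.1
        exact Fin.snoc_last _ _
    have : Fintype {v : Fin m → (Fin n → F) // LinearIndependent F v ∧
        ∀ a b, Cfsg.hermForm n F q (v a) (v b) = 0} := Fintype.ofFinite _
    rw [← Nat.card_congr (Equiv.sigmaFiberEquiv g), Nat.card_sigma,
      Finset.sum_congr rfl (fun v _ => hfib v), Finset.sum_const, Finset.card_univ,
      smul_eq_mul, Nat.card_eq_fintype_card]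

section check

example (hI : StUtIsoCnt.{u, u}) : StUtTuples.{u} := utTuples hI

end check

end Cfsg.Agent.H4.Ut
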