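import Mathlib
import Cfsg.Agent.H42.UtDefs
import Cfsg.Agent.H42.UnBase
import Cfsg.Agent.S0285

/-!
# S5953 piece UT-ISOCNT (helper4)

The number of isotropic vectors orthogonal to a totally isotropic subspace `U` of a nondegenerate
hermitian space: `perp U = U ⊕ K` with `K` nondegenerate of dimension `n - 2 dim U`, and
`B (u + k) (u + k) = B k k`.

Reusable: `finrank_perp_add` (`dim U^⊥ + dim U = dim V` for any subspace) and `perp_perp`.
-/

set_option autoImplicit false

namespace Cfsg.Agent.H4.Ut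

open Cfsg.Agent.H45 Cfsg.Agent.H42.Spd Cfsg.Agent.H42.Un Cfsg.Agent.H42.Ti Cfsg.Agent.H42.Ut Module
  Polynomial

universe u v

section Perp

variable {F : Type u} [Field F] [Fintype F] {σ : F →+* F} {V : Type v} [AddCommGroup V]
  [Module F V] [FiniteDimensional F V] {B : V →ₗ[F] V →ₛₗ[σ] F}

/-- `dim U^⊥ + dim U = dim V` for every subspace `U` of a nondegenerate hermitian space. -/
theorem finrank_perp_add (hI : UIso B (1 : Module.End F V)) (U : Submodule F V) :
    finrank F (perp B U) + finrank F U = finrank F V := by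
  classical
  have hfinV : Finite V := Module.finite_of_finite F
  let ψ : V →+ Module.Dual F U :=
    { toFun := fun y => (B.flip y).comp U.subtype
      map_zero' := by rw [map_zero, LinearMap.zero_comp]
      map_add' := by intro a b; rw [map_add, LinearMap.add_comp] }
  have hψ : ∀ (y : V) (u : U), ψ y u = B (u : V) y := fun y u => rfl
  have hsurj : Function.Surjective ψ := by
    intro φ
    obtain ⟨g, hg⟩ := LinearMap.exists_extend φ
    obtain ⟨y, hy⟩ := hI.good_one.riesz g
    refine ⟨y, ?_⟩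
    ext u
    rw [hψ, hy, ← hg]
    rfl
  have hker : ∀ y : V, y ∈ ψ.ker ↔ y ∈ perp B U := by
    intro y
    rw [AddMonoidHom.mem_ker, mem_perp]
    constructor
    · intro h u hu
      have h0 := congrArg (fun f : Module.Dual F U => f ⟨u, hu⟩) h
      simpa [hψ] using h0
    · intro h
      ext u
      rw [hψ]
      exact h u u.2
  have h1 : Nat.card V = Nat.card (V ⧸ ψ.ker) * Nat.card ψ.ker :=
    AddSubgroup.card_eq_card_quotient_mul_card_addSubgroup ψ.ker
  have h2 : Nat.card (V ⧸ ψ.ker) = Nat.card (Module.Dual F U) :=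
    Nat.card_congr (QuotientAddGroup.quotientKerEquivOfSurjective ψ hsurj).toEquiv
  have h3 : Nat.card ψ.ker = Nat.card (perp B U) :=
    Nat.card_congr (Equiv.subtypeEquivRight hker)
  rw [h2, h3, Module.natCard_eq_pow_finrank (K := F) (V := V),
    Module.natCard_eq_pow_finrank (K := F) (V := Module.Dual F U),
    Module.natCard_eq_pow_finrank (K := F) (V := perp B U), Subspace.dual_finrank_eq,
    ← pow_add] at h1
  have hc : 2 ≤ Nat.card F := Finite.one_lt_card
  have h4 := Nat.pow_right_injective hc h1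
  omega

/-- `U^⊥⊥ = U`. -/
theorem perp_perp (hI : UIso B (1 : Module.End F V)) (U : Submodule F V) :
    perp B (perp B U) = U := by
  symm
  apply Submodule.eq_of_le_of_finrank_eq
  · intro u hu y hy
    exact hI.refl (hy u hu)
  · have h1 := finrank_perp_add hI U
    have h2 := finrank_perp_add hI (perp B U)
    omega

end Perp

/-- UT-ISOCNT. -/
theorem utIsoCnt : StUtIsoCnt.{u, v} := by
  intro F _ _ q σ V _ _ _ B hF hσq hI U hTI
  classical
  have hfinV : Finite V := Module.finite_of_finite F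
  obtain ⟨P, hP⟩ : ∃ P : Submodule F V, P = perp B U := ⟨_, rfl⟩
  have hUP : U ≤ P := by
    rw [hP]
    exact fun u hu u' hu' => hTI u' hu' u hu
  -- a complement `K` of `U` in `P`
  obtain ⟨C, hC⟩ := Submodule.exists_isCompl U
  obtain ⟨K, hK⟩ : ∃ K : Submodule F V, K = C ⊓ P := ⟨_, rfl⟩
  have hUK : U ⊓ K = ⊥ := by
    rw [eq_bot_iff, hK, ← hC.inf_eq_bot]
    exact inf_le_inf_left U inf_le_left
  have hsup : U ⊔ K = P := by
    rw [hK, ← sup_inf_assoc_of_le C hUP, hC.sup_eq_top, top_inf_eq]
  have hKP : K ≤ P := by rw [hK]; exact inf_le_right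
  have hKU : ∀ k ∈ K, ∀ u ∈ U, B u k = 0 := by
    intro k hk u hu
    have h1 := hKP hk
    rw [hP] at h1
    exact h1 u hu
  -- `K` is nondegenerate
  have hKnd : K ⊓ perp B K = ⊥ := by
    rw [eq_bot_iff]
    intro k hk
    have h1 : k ∈ perp B P := by
      intro w hw
      rw [← hsup] at hw
      obtain ⟨u, hu, k', hk', rfl⟩ := Submodule.mem_sup.mp hw
      rw [map_add, LinearMap.add_apply, hKU k hk.1 u hu, hk.2 k' hk', add_zero]
    rw [hP, perp_perp hI U] at h1
    rw [← hUK]
    exact ⟨h1, hk.1⟩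
  -- the dimension of `K`
  have hdim : finrank F K = finrank F V - 2 * finrank F U := by
    have h1 := Submodule.finrank_sup_add_finrank_inf_eq U K
    rw [hsup, hUK, finrank_bot, hP] at h1
    have h2 := finrank_perp_add hI U
    omega
  -- the restricted form
  obtain ⟨BK, hBK⟩ : ∃ BK : K →ₗ[F] K →ₛₗ[σ] F, ∀ x y : K, BK x y = B (x : V) (y : V) :=
    ⟨B.domRestrict₁₂ K K, fun x y => rfl⟩
  have hIK : UIso BK (1 : Module.End F K) := by
    refine ⟨hI.invol, hI.nontriv, fun x y => ?_, ?_, fun x y => rfl⟩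
    · rw [hBK, hBK]
      exact hI.herm _ _
    · intro x hx
      have h1 : (x : V) ∈ K ⊓ perp B K := by
        refine ⟨x.2, fun y hy => ?_⟩
        have h2 := hx ⟨y, hy⟩
        rw [hBK] at h2
        exact hI.refl h2
      rw [hKnd, Submodule.mem_bot] at h1
      exact Subtype.ext h1
  obtain ⟨e, he⟩ := exists_iso_std hF σ hσq BK 1 hIK (finrank F K) rfl
  -- the count on `K`
  have hcntK : Nat.card {k : K // B (k : V) (k : V) = 0} = isoNum q (finrank F K) + 1 := by
    have h1 := Cfsg.Agent.S0285.result hF (finrank F K)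
    unfold isoNum
    rw [← h1]
    apply Nat.card_congr
    refine Equiv.subtypeEquiv e.toEquiv ?_
    intro k
    show B (k : V) (k : V) = 0 ↔ Cfsg.hermForm (finrank F K) F q (e k) (e k) = 0
    rw [← hermB_eq_hermForm σ hσq, he, hBK]
  -- the bijection `U × {k ∈ K | B k k = 0} ≃ {w ∈ P | B w w = 0}`
  have hcard : Nat.card {w : V // w ∈ perp B U ∧ B w w = 0} =
      Nat.card U * Nat.card {k : K // B (k : V) (k : V) = 0} := by
    rw [← Nat.card_prod]
    apply Nat.card_congr
    symm
    have hmem : ∀ x : U × {k : K // B (k : V) (k : V) = 0},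
        (x.1 : V) + (x.2.1 : V) ∈ perp B U ∧
          B ((x.1 : V) + (x.2.1 : V)) ((x.1 : V) + (x.2.1 : V)) = 0 := by
      intro x
      refine ⟨?_, ?_⟩
      · rw [← hP]
        exact P.add_mem (hUP x.1.2) (hKP x.2.1.2)
      · have h1 : B (x.1 : V) (x.1 : V) = 0 := hTI _ x.1.2 _ x.1.2
        have h2 : B (x.1 : V) (x.2.1 : V) = 0 := hKU _ x.2.1.2 _ x.1.2
        have h3 : B (x.2.1 : V) (x.1 : V) = 0 := hI.refl h2
        simp only [map_add, LinearMap.add_apply]
        rw [h1, h2, h3, x.2.2]
        simp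
    refine Equiv.ofBijective (fun x : U × {k : K // B (k : V) (k : V) = 0} =>
      (⟨(x.1 : V) + (x.2.1 : V), hmem x⟩ : {w : V // w ∈ perp B U ∧ B w w = 0})) ⟨?_, ?_⟩
    · rintro ⟨u, ⟨k, hk⟩⟩ ⟨u', ⟨k', hk'⟩⟩ h
      have h1 : (u : V) + (k : V) = (u' : V) + (k' : V) := congrArg Subtype.val h
      have h2 : (u : V) - (u' : V) ∈ U ⊓ K := by
        refine ⟨U.sub_mem u.2 u'.2, ?_⟩
        have h0 : (u : V) - (u' : V) = (k' : V) - (k : V) := by
          rw [sub_eq_sub_iff_add_eq_add, h1]
          abel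
        rw [h0]
        exact K.sub_mem k'.2 k.2
      rw [hUK, Submodule.mem_bot, sub_eq_zero] at h2
      have h3 : (k : V) = (k' : V) := by
        rw [h2] at h1
        exact add_left_cancel h1
      have h4 : u = u' := Subtype.ext h2
      have h5 : k = k' := Subtype.ext h3
      subst h4
      subst h5
      rfl
    · rintro ⟨w, hw, hw0⟩
      have hw' : w ∈ U ⊔ K := by rw [hsup, hP]; exact hw
      obtain ⟨u, hu, k, hk, rfl⟩ := Submodule.mem_sup.mp hw'
      have h1 : B u u = 0 := hTI u hu u hu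
      have h2 : B u k = 0 := hKU k hk u hu
      have h3 : B k u = 0 := hI.refl h2
      have h4 : B k k = 0 := by
        simp only [map_add, LinearMap.add_apply] at hw0
        rw [h1, h2, h3] at hw0
        simpa using hw0
      exact ⟨(⟨u, hu⟩, ⟨⟨k, hk⟩, h4⟩), rfl⟩
  rw [hcard, hcntK, hdim, Module.natCard_eq_pow_finrank (K := F) (V := U), Nat.card_eq_fintype_card,
    hF, ← pow_mul]

section check

example : StUtIsoCnt.{u, v} := utIsoCnt

end check

end Cfsg.Agent.H4.Ut
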