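import Mathlib
import Cfsg.Prelude.Def_Characters
import Cfsg.Prelude.Def_Blocks
import Cfsg.Agent.H4.WinA
import Cfsg.Agent.H4.WinB

/-!
# Winter's theorem (S4467)

A finite solvable group with a faithful irreducible character of degree `n` and a non-normal
Sylow `p`-subgroup: `n` is divisible by a prime power `q > 1` with `q ≡ -1, 0, 1 (mod p)`.

The proof is by induction on `|G|` for the statement `WNN p χ → WGood p χ(1)`, where `WNN`
says that two `p`-elements have a product which is not a `p`-element modulo `ker χ`.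
-/

set_option autoImplicit false
set_option linter.unusedSectionVars false
set_option linter.style.haveILetI false

namespace Cfsg.Agent.H4

open Cfsg Cfsg.Agent.Clifford
open scoped ComplexConjugate commutatorElement

universe u

section WinC

/-- The quasi-primitive case: `χ` faithful, no proper subgroup of index dividing `χ(1)`, no
proper normal subgroup containing the `p`-elements `x`, `y`, and `G` nonabelian. -/
theorem winter_qp {G : Type u} [Group G] [Finite G] [Group.IsSolvable G] (χ : IrrCharacter G)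
    (hfaith : ∀ g : G, χ.1 g = χ.1 1 → g = 1) {p : ℕ} (hp : p.Prime)
    (hC : ∀ T : Subgroup G, T ≠ ⊤ → ¬ T.index ∣ charDegree χ.1)
    (x y : G) (hx : ∃ a : ℕ, x ^ (p ^ a) = 1) (hy : ∃ b : ℕ, y ^ (p ^ b) = 1)
    (hR : ∀ M : Subgroup G, M.Normal → x ∈ M → y ∈ M → M = ⊤)
    (hnc : ¬ ∀ a b : G, a * b = b * a) : WGood p (charDegree χ.1) := by
  classical
  haveI : Fintype G := Fintype.ofFinite G
  haveI : Fact p.Prime := ⟨hp⟩
  by_cases hpn : p ∣ charDegree χ.1
  · exact ⟨p, hp.isPrimePow, hpn, Or.inr (Or.inl (Int.modEq_zero_iff_dvd.mpr dvd_rfl))⟩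
  obtain ⟨r, hr, hRc⟩ := exists_pCore_not_central hnc
  haveI : Fact r.Prime := ⟨hr⟩
  haveI : Fintype (Cfsg.pCore r G) := Fintype.ofFinite _
  have hrp : r ≠ p := by
    intro h
    apply hRc
    have hpg : IsPGroup p (Cfsg.pCore r G) := by
      rw [← h]; exact Cfsg.Agent.H1.pCore_isPGroup r
    exact le_center_of_isPGroup hp (Cfsg.pCore r G) hpg χ hfaith hC hpn
  obtain ⟨E, hEn, hER, hEc, hEmin⟩ := exists_min_noncentral (Cfsg.pCore r G) hRc
  haveI := hEn
  haveI : Fintype E := Fintype.ofFinite E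
  have hE : IsPGroup r E := (Cfsg.Agent.H1.pCore_isPGroup r).to_le hER
  have hEb : E ≠ ⊥ := fun h => hEc (by rw [h]; exact bot_le)
  -- `[E, E]` is central in `G`
  have hcl : ∀ a ∈ E, ∀ b ∈ E, ∀ g : G,
      g * (a * b * a⁻¹ * b⁻¹) = (a * b * a⁻¹ * b⁻¹) * g := by
    intro a ha b hb g
    have hlt : ⁅E, E⁆ < E := Cfsg.Agent.H1.commutator_lt_of_isSolvable E hEb
    have hcen : ⁅E, E⁆ ≤ Subgroup.center G :=
      hEmin _ (Subgroup.commutator_normal E E) hlt.le hlt.ne
    have hmem : ⁅a, b⁆ ∈ ⁅E, E⁆ := Subgroup.commutator_mem_commutator ha hb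
    rw [commutatorElement_def] at hmem
    exact Subgroup.mem_center_iff.mp (hcen hmem) g
  -- `Z(E) ≤ Z(G)`
  have hZ1 : ∀ h ∈ E, (∀ k ∈ E, h * k = k * h) → h ∈ Subgroup.center G := by
    intro h hh hcomm
    haveI hZn : ((Subgroup.center E).map E.subtype).Normal :=
      Cfsg.Agent.H1.normal_map_of_characteristic E (Subgroup.center E)
    have hle : (Subgroup.center E).map E.subtype ≤ E := by
      rintro _ ⟨z, -, rfl⟩
      exact z.2
    have hne : (Subgroup.center E).map E.subtype ≠ E := by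
      intro heq
      apply hEc
      apply le_center_of_comm E _ χ hfaith hC
      intro a ha b hb
      have ha' : a ∈ (Subgroup.center E).map E.subtype := by rw [heq]; exact ha
      obtain ⟨z, hz, rfl⟩ := ha'
      have h3 := Subgroup.mem_center_iff.mp hz ⟨b, hb⟩
      exact (congrArg Subtype.val h3).symm
    have hcen := hEmin _ hZn hle hne
    apply hcen
    refine ⟨⟨h, hh⟩, ?_, rfl⟩
    show (⟨h, hh⟩ : E) ∈ Subgroup.center E
    rw [Subgroup.mem_center_iff]
    intro g
    exact Subtype.ext (hcomm g g.2).symm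
  -- the constituent `φ` of `χ|E`
  obtain ⟨φ, hφ, hφ1⟩ := Cfsg.Agent.H82.exists_constituent_res' E χ.2
  obtain ⟨hφinv, hφdvd⟩ := inertia_eq_top_of_hC E χ hC ⟨φ, hφ⟩ hφ1
  have hφres := res_eq_of_inertia_top E χ.2 hφ hφ1 hφinv
  have hφfaith : ∀ e : E, φ e = φ 1 → e = 1 := by
    intro e he
    have h1 := hφres e
    have h2 := hφres 1
    rw [he, ← h2, Subgroup.coe_one] at h1
    exact Subtype.ext (hfaith _ h1)
  have hFE : Nat.card E =
      Nat.card ((Subgroup.center G).subgroupOf E) * charDegree φ ^ 2 := by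
    apply card_eq_of_fully_ramified (⟨φ, hφ⟩ : IrrCharacter E) ((Subgroup.center G).subgroupOf E)
    · intro z hz g
      rw [Subgroup.mem_subgroupOf] at hz
      exact Subtype.ext (Subgroup.mem_center_iff.mp hz (g : G))
    · intro h hh
      rw [Subgroup.mem_subgroupOf] at hh
      have hex : ∃ k ∈ E, (h : G) * k ≠ k * (h : G) := by
        by_contra hcon
        push Not at hcon
        exact hh (hZ1 _ h.2 hcon)
      obtain ⟨k, hk, hhk⟩ := hex
      have hzcen : ∀ g : G, g * ((h : G)⁻¹ * k⁻¹ * (h : G) * k) =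
          ((h : G)⁻¹ * k⁻¹ * (h : G) * k) * g := by
        intro g
        have h3 := hcl _ (E.inv_mem h.2) _ (E.inv_mem hk) g
        rw [inv_inv, inv_inv] at h3
        exact h3
      refine ⟨⟨k, hk⟩, ?_, ?_⟩
      · intro g
        exact Subtype.ext (hzcen (g : G))
      · intro heq
        have h1 := hφfaith _ heq
        have h2 : (h : G)⁻¹ * k⁻¹ * (h : G) * k = 1 := congrArg Subtype.val h1
        apply hhk
        calc (h : G) * k = k * (h : G) * ((h : G)⁻¹ * k⁻¹ * (h : G) * k) := by group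
          _ = k * (h : G) := by rw [h2, mul_one]
  -- a `p`-element `u` not centralizing `E`
  have hex : ∃ u : G, (∃ a : ℕ, u ^ (p ^ a) = 1) ∧ ∃ e ∈ E, u * e ≠ e * u := by
    by_contra hcon
    push Not at hcon
    apply hEc
    haveI hCn : (Subgroup.centralizer (E : Set G)).Normal := Subgroup.normal_centralizer
    have hxC : x ∈ Subgroup.centralizer (E : Set G) := by
      rw [Subgroup.mem_centralizer_iff]
      intro e he
      exact (hcon x hx e he).symm
    have hyC : y ∈ Subgroup.centralizer (E : Set G) := by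
      rw [Subgroup.mem_centralizer_iff]
      intro e he
      exact (hcon y hy e he).symm
    have htop := hR _ hCn hxC hyC
    intro e he
    rw [Subgroup.mem_center_iff]
    intro g
    have hg : g ∈ Subgroup.centralizer (E : Set G) := by rw [htop]; trivial
    exact (Subgroup.mem_centralizer_iff.mp hg e he).symm
  obtain ⟨u, ⟨N, huN⟩, e₀, he₀, hue₀⟩ := hex
  have hQ : IsPGroup p (Subgroup.zpowers u) := by
    have h1 : orderOf u ∣ p ^ N := orderOf_dvd_of_pow_eq_one huN
    obtain ⟨j, -, hj⟩ := (Nat.dvd_prime_pow hp).mp h1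
    exact IsPGroup.of_card (n := j) (by rw [Nat.card_zpowers, hj])
  have hQE : Subgroup.zpowers u ≤ Subgroup.normalizer (E : Set G) := by
    rw [Subgroup.normalizer_eq_top]; exact le_top
  have hmod := Cfsg.Agent.H2.card_modEq_card_inf_centralizer (q := p) (Subgroup.zpowers u) E
    hQ hQE
  generalize hCdef : E ⊓ Subgroup.centralizer ((Subgroup.zpowers u : Subgroup G) : Set G) = C
    at hmod
  haveI : Fintype C := Fintype.ofFinite C
  have hCE : C ≤ E := by rw [← hCdef]; exact inf_le_left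
  have hCu : ∀ d ∈ C, d * u = u * d := by
    intro d hd
    rw [← hCdef] at hd
    exact (Subgroup.mem_centralizer_iff.mp hd.2 u (Subgroup.mem_zpowers u)).symm
  have hmemC : ∀ d ∈ E, d * u = u * d → d ∈ C := by
    intro d hd hdu
    rw [← hCdef]
    refine ⟨hd, ?_⟩
    show d ∈ Subgroup.centralizer ((Subgroup.zpowers u : Subgroup G) : Set G)
    rw [Subgroup.mem_centralizer_iff]
    intro q hq
    obtain ⟨k, rfl⟩ := Subgroup.mem_zpowers_iff.mp hq
    have hc : Commute u d := hdu.symm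
    exact (hc.zpow_left k).eq
  have hClt : C < E := by
    refine lt_of_le_of_ne hCE fun h => hue₀ ?_
    have h3 : e₀ ∈ C := by rw [h]; exact he₀
    exact (hCu e₀ h3).symm
  -- the constituent `ψ` of `χ|C`
  obtain ⟨ψ, hψ, hψ1⟩ := Cfsg.Agent.H82.exists_constituent_res' C χ.2
  have hFC : Nat.card C =
      Nat.card ((Subgroup.center G).subgroupOf C) * charDegree ψ ^ 2 := by
    apply card_eq_of_fully_ramified (⟨ψ, hψ⟩ : IrrCharacter C) ((Subgroup.center G).subgroupOf C)
    · intro z hz g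
      rw [Subgroup.mem_subgroupOf] at hz
      exact Subtype.ext (Subgroup.mem_center_iff.mp hz (g : G))
    · intro h hh
      rw [Subgroup.mem_subgroupOf] at hh
      have hex : ∃ k ∈ C, (h : G) * k ≠ k * (h : G) := by
        by_contra hcon
        push Not at hcon
        apply hh
        apply hZ1 _ (hCE h.2)
        intro e he
        exact comm_of_comm_fixed hp hr hrp E hE hcl u N huN (h : G) (hCE h.2) (hCu _ h.2)
          (fun d hd hdu => hcon d (hmemC d hd hdu)) e he
      obtain ⟨k, hk, hhk⟩ := hex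
      have hzcen : ∀ g : G, g * ((h : G)⁻¹ * k⁻¹ * (h : G) * k) =
          ((h : G)⁻¹ * k⁻¹ * (h : G) * k) * g := by
        intro g
        have h3 := hcl _ (E.inv_mem (hCE h.2)) _ (E.inv_mem (hCE hk)) g
        rw [inv_inv, inv_inv] at h3
        exact h3
      refine ⟨⟨k, hk⟩, ?_, ?_⟩
      · intro g
        exact Subtype.ext (hzcen (g : G))
      · intro heq
        have hz1 : (h : G)⁻¹ * k⁻¹ * (h : G) * k = 1 :=
          hfaith _ (ker_of_constituent_central C χ ⟨ψ, hψ⟩ hψ1
            (h⁻¹ * (⟨k, hk⟩ : C)⁻¹ * h * ⟨k, hk⟩) hzcen heq)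
        apply hhk
        calc (h : G) * k = k * (h : G) * ((h : G)⁻¹ * k⁻¹ * (h : G) * k) := by group
          _ = k * (h : G) := by rw [hz1, mul_one]
  -- the two central subgroups have the same order
  have hinf : Subgroup.center G ⊓ C = Subgroup.center G ⊓ E := by
    apply le_antisymm (inf_le_inf_left _ hCE)
    rw [← hCdef]
    exact le_inf inf_le_left (le_inf inf_le_right
      (inf_le_left.trans (Subgroup.center_le_centralizer _)))
  have hZeq : Nat.card ((Subgroup.center G).subgroupOf C) =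
      Nat.card ((Subgroup.center G).subgroupOf E) := by
    rw [Cfsg.Agent.H1.card_subgroupOf, Cfsg.Agent.H1.card_subgroupOf, hinf]
  rw [hZeq] at hFC
  obtain ⟨s, hs⟩ := hE.exists_card_eq
  have hbd : charDegree ψ ∣ r ^ s := by
    rw [← hs]
    refine Dvd.dvd.trans ?_ (Subgroup.card_dvd_of_le hCE)
    rw [hFC]
    exact (dvd_pow_self _ two_ne_zero).trans (dvd_mul_left _ _)
  refine wGood_of_squares hp hr hrp (z0 := Nat.card ((Subgroup.center G).subgroupOf E))
    (a := charDegree φ) (b := charDegree ψ) (s := s) ?_ ?_ hbd ?_ hφdvd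
  · rw [← hFE, hs]
  · rw [← hFE, ← hFC]
    exact Cfsg.Agent.H1.card_lt_card_of_lt hClt
  · rw [← hFE, ← hFC]
    exact hmod

/-- There are two `p`-elements `x`, `y` and a `p'`-element of `⟨xy⟩` outside the kernel of
`χ`. -/
def WNN (p : ℕ) {G : Type u} [Group G] (χ : G → ℂ) : Prop :=
  ∃ x y : G, (∃ a : ℕ, x ^ (p ^ a) = 1) ∧ (∃ b : ℕ, y ^ (p ^ b) = 1) ∧
    ∃ z ∈ Subgroup.zpowers (x * y), (orderOf z).Coprime p ∧ χ z ≠ χ 1

/-- Winter's theorem, kernel form, by induction on the group order. -/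
theorem winter_aux {p : ℕ} (hp : p.Prime) : ∀ (n : ℕ) (G : Type u) [Group G] [Finite G],
    Nat.card G = n → Group.IsSolvable G → ∀ χ : IrrCharacter G, WNN p χ.1 →
      WGood p (charDegree χ.1) := by
  intro n
  induction n using Nat.strong_induction_on with
  | _ n ih =>
  intro G _ _ hcard hsolv χ hNN
  haveI := hsolv
  classical
  haveI : Fintype G := Fintype.ofFinite G
  obtain ⟨x, y, hx, hy, z, hz, hzo, hzχ⟩ := hNN
  by_cases hker : ∃ g : G, χ.1 g = χ.1 1 ∧ g ≠ 1
  · obtain ⟨g₀, hg₀, hg₀1⟩ := hker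
    obtain ⟨χ', hχ'⟩ := Cfsg.Agent.H82.exists_deflate (Cfsg.Agent.H82.irrKer χ) χ
      (fun x hx => hx)
    have hKb : Cfsg.Agent.H82.irrKer χ ≠ ⊥ := by
      intro h
      have h1 : g₀ ∈ Cfsg.Agent.H82.irrKer χ := hg₀
      rw [h, Subgroup.mem_bot] at h1
      exact hg₀1 h1
    have hlt : Nat.card (G ⧸ Cfsg.Agent.H82.irrKer χ) < n := by
      rw [← hcard, ← Subgroup.index_eq_card (Cfsg.Agent.H82.irrKer χ),
        ← Subgroup.card_mul_index (Cfsg.Agent.H82.irrKer χ)]
      have h1 : 1 < Nat.card (Cfsg.Agent.H82.irrKer χ) :=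
        (Subgroup.one_lt_card_iff_ne_bot _).mpr hKb
      have h2 : 0 < (Cfsg.Agent.H82.irrKer χ).index :=
        Nat.pos_of_ne_zero Subgroup.index_ne_zero_of_finite
      exact lt_mul_of_one_lt_left h2 h1
    have hval : ∀ g : G, χ'.1 (g : G ⧸ Cfsg.Agent.H82.irrKer χ) = χ.1 g := by
      intro g
      have h3 := congrArg (fun ψ : IrrCharacter G => ψ.1 g) hχ'
      simp only [Cfsg.Agent.H82.inflate_apply] at h3
      exact h3
    have hdeg : charDegree χ'.1 = charDegree χ.1 := by
      have h3 := congrArg (fun ψ : IrrCharacter G => charDegree ψ.1) hχ'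
      simp only [Cfsg.Agent.H82.charDegree_inflate] at h3
      exact h3
    rw [← hdeg]
    apply ih (Nat.card (G ⧸ Cfsg.Agent.H82.irrKer χ)) hlt (G ⧸ Cfsg.Agent.H82.irrKer χ) rfl
      inferInstance χ'
    refine ⟨(x : G ⧸ Cfsg.Agent.H82.irrKer χ), (y : G ⧸ Cfsg.Agent.H82.irrKer χ), ?_, ?_,
      (z : G ⧸ Cfsg.Agent.H82.irrKer χ), ?_, ?_, ?_⟩
    · obtain ⟨a, ha⟩ := hx
      exact ⟨a, by rw [← QuotientGroup.mk_pow, ha, QuotientGroup.mk_one]⟩
    · obtain ⟨b, hb⟩ := hy
      exact ⟨b, by rw [← QuotientGroup.mk_pow, hb, QuotientGroup.mk_one]⟩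
    · obtain ⟨k, hk⟩ := Subgroup.mem_zpowers_iff.mp hz
      rw [Subgroup.mem_zpowers_iff]
      exact ⟨k, by rw [← QuotientGroup.mk_mul, ← QuotientGroup.mk_zpow, hk]⟩
    · refine Nat.Coprime.coprime_dvd_left ?_ hzo
      apply orderOf_dvd_of_pow_eq_one
      rw [← QuotientGroup.mk_pow, pow_orderOf_eq_one, QuotientGroup.mk_one]
    · rw [hval z, ← QuotientGroup.mk_one, hval 1]
      exact hzχ
  · push Not at hker
    have hfaith : ∀ g : G, χ.1 g = χ.1 1 → g = 1 := hker
    by_cases hA : ∃ M : Subgroup G, M.Normal ∧ x ∈ M ∧ y ∈ M ∧ M ≠ ⊤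
    · obtain ⟨M, hMn, hxM, hyM, hMtop⟩ := hA
      haveI := hMn
      haveI : Fintype M := Fintype.ofFinite M
      have hzM : z ∈ M := (Subgroup.zpowers_le.mpr (M.mul_mem hxM hyM)) hz
      obtain ⟨ψ, hψ1, hψz⟩ := exists_constituent_ne M (isCharacter_of_isIrrCharacter χ.2)
        ⟨z, hzM⟩ hzχ
      obtain ⟨f, hf⟩ := Cfsg.Agent.ItoConv.degree_over M ψ χ hψ1
      have hdvd : charDegree ψ.1 ∣ charDegree χ.1 :=
        ⟨(Clifford.inertia M ψ.1).index * f, by rw [hf, mul_comm]⟩
      refine wGood_of_dvd ?_ hdvd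
      have hlt : Nat.card M < n := by
        rw [← hcard, ← Subgroup.card_top (G := G)]
        exact Cfsg.Agent.H1.card_lt_card_of_lt (lt_top_iff_ne_top.mpr hMtop)
      apply ih (Nat.card M) hlt M rfl inferInstance ψ
      refine ⟨⟨x, hxM⟩, ⟨y, hyM⟩, ?_, ?_, ⟨z, hzM⟩, ?_, ?_, hψz⟩
      · obtain ⟨a, ha⟩ := hx
        exact ⟨a, Subtype.ext (by simpa using ha)⟩
      · obtain ⟨b, hb⟩ := hy
        exact ⟨b, Subtype.ext (by simpa using hb)⟩
      · obtain ⟨k, hk⟩ := Subgroup.mem_zpowers_iff.mp hz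
        rw [Subgroup.mem_zpowers_iff]
        exact ⟨k, Subtype.ext (by simpa using hk)⟩
      · rw [Subgroup.orderOf_mk]
        exact hzo
    · push Not at hA
      have hR : ∀ M : Subgroup G, M.Normal → x ∈ M → y ∈ M → M = ⊤ := hA
      by_cases hB : ∃ T : Subgroup G, T ≠ ⊤ ∧ T.index ∣ charDegree χ.1
      · obtain ⟨T, hT, hdvd⟩ := hB
        obtain ⟨q, hq, hqd, hq01⟩ := pp_index hp T hT x y hR hx hy
        refine ⟨q, hq, hqd.trans hdvd, ?_⟩
        rcases hq01 with h | h
        · exact Or.inr (Or.inl h)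
        · exact Or.inr (Or.inr h)
      · push Not at hB
        have hnc : ¬ ∀ a b : G, a * b = b * a := by
          intro hcomm
          apply hzχ
          obtain ⟨a, ha⟩ := hx
          obtain ⟨b, hb⟩ := hy
          have h1 : (x * y) ^ (p ^ (a + b)) = 1 := by
            rw [Commute.mul_pow (show Commute x y from hcomm x y), pow_add, pow_mul, ha, one_pow,
              mul_comm (p ^ a), pow_mul, hb, one_pow, mul_one]
          have h2 : orderOf z ∣ p ^ (a + b) :=
            (orderOf_dvd_of_mem_zpowers hz).trans (orderOf_dvd_of_pow_eq_one h1)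
          have h3 : orderOf z = 1 :=
            Nat.Coprime.eq_one_of_dvd (Nat.Coprime.pow_right _ hzo) h2
          rw [orderOf_eq_one_iff.mp h3]
        exact winter_qp χ hfaith hp (fun T hT => hB T hT) x y hx hy hR hnc

/-- **Winter's theorem.** -/
theorem winter {G : Type u} [Group G] [Finite G] (χ : IrrCharacter G)
    (hfaith : ∀ g : G, χ.1 g = χ.1 1 → g = 1) (hsolv : Group.IsSolvable G) {p : ℕ}
    (hp : p.Prime) (P : Sylow p G) (hP : ¬ (P : Subgroup G).Normal) :
    WGood p (charDegree χ.1) := by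
  obtain ⟨x, y, hx, hy, hxy⟩ := exists_prod_not_pElement P hP
  obtain ⟨z, hz, hzo, hz1⟩ := exists_pPrime_power hp (x * y) hxy
  exact winter_aux hp _ G rfl hsolv χ ⟨x, y, hx, hy, z, hz, hzo, fun h => hz1 (hfaith z h)⟩

end WinC

end Cfsg.Agent.H4
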