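import Mathlib
import Cfsg.Prelude.Def_Characters
import Cfsg.Prelude.Def_Blocks
import Cfsg.Prelude.Def_Local
import Cfsg.Agent.H4.Twin
import Cfsg.Agent.S0001
import Cfsg.Agent.H66.HHA
import Cfsg.Agent.H80.PSolvable
import Cfsg.Agent.H80.GroupBasic

/-!
# The `p`-part of `[G : O_p(G)]` for a `p`-solvable linear group (S4472)

A finite `p`-solvable group with a faithful character of degree `n` has
`v_p [G : O_p(G)] ≤ ∑ i, ⌊n / ((p - 1) p ^ i)⌋`.
-/

set_option autoImplicit false
set_option linter.unusedSectionVars false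
set_option linter.style.haveILetI false

namespace Cfsg.Agent.H4

open Module Representation

universe u

open scoped ComplexConjugate Pointwise

section Winter

variable {G : Type u} [Group G]

theorem psolvable_pCore_index_le [Finite G] (χ : G → ℂ) (hχ : IsCharacter G χ)
    (hfaith : ∀ g : G, χ g = χ 1 → g = 1) (p : ℕ) (hp : p.Prime) (hsolv : IsPSolvable p G) :
    ((pCore p G).index).factorization p ≤
      ∑ i ∈ Finset.range (charDegree χ + 1), charDegree χ / ((p - 1) * p ^ i) := by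
  haveI : Fact p.Prime := ⟨hp⟩
  obtain ⟨Q, hQdef⟩ : ∃ Q : Subgroup G, Q = pCore p G := ⟨_, rfl⟩
  haveI hQn : Q.Normal := by rw [hQdef]; infer_instance
  have hQp : IsPGroup p Q := by rw [hQdef]; exact H80.pCore_isPGroup p G
  have hsolvQ : IsPSolvable p (G ⧸ Q) := H80.isPSolvable_quotient p Q hsolv
  have hcoreQ : pCore p (G ⧸ Q) = ⊥ := by
    subst hQdef
    exact Cfsg.Agent.H66.pCore_quotient_pCore_bot p
  have hHH := Cfsg.Agent.H66.centralizer_pPrimeCore_le p hsolvQ hcoreQ
  obtain ⟨R, hRdef⟩ : ∃ R : Subgroup G,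
      R = (pPrimeCore p (G ⧸ Q)).comap (QuotientGroup.mk' Q) := ⟨_, rfl⟩
  haveI hRn : R.Normal := by rw [hRdef]; infer_instance
  have hQR : Q ≤ R := by
    intro x hx
    rw [hRdef, Subgroup.mem_comap]
    have h1 : QuotientGroup.mk' Q x = 1 := (QuotientGroup.eq_one_iff x).mpr hx
    rw [h1]; exact one_mem _
  have hRcard : Nat.card R = Nat.card Q * Nat.card (pPrimeCore p (G ⧸ Q)) := by
    rw [hRdef]; exact H80.card_comap_mk' Q _
  have hcopQ : (Nat.card (pPrimeCore p (G ⧸ Q))).Coprime p := H80.pPrimeCore_coprime p _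
  -- Schur–Zassenhaus in `R`
  obtain ⟨N, hNdef⟩ : ∃ N : Subgroup R, N = Q.subgroupOf R := ⟨_, rfl⟩
  haveI hNn : N.Normal := by rw [hNdef]; infer_instance
  have hNcard : Nat.card N = Nat.card Q := by
    rw [hNdef]; exact Nat.card_congr (Subgroup.subgroupOfEquivOfLe hQR).toEquiv
  have hNidx : N.index = Nat.card (pPrimeCore p (G ⧸ Q)) := by
    have h1 := Subgroup.card_mul_index N
    rw [hNcard, hRcard] at h1
    exact Nat.eq_of_mul_eq_mul_left Nat.card_pos h1
  obtain ⟨c, hc⟩ := IsPGroup.iff_card.mp hQp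
  have hpc : ∀ m : ℕ, m.Coprime p → (p ^ c).Coprime m := fun m hm =>
    Nat.Coprime.pow_left c hm.symm
  have hNcop : (Nat.card N).Coprime N.index := by
    rw [hNcard, hNidx, hc]
    exact hpc _ hcopQ
  obtain ⟨H', hH'⟩ := Subgroup.exists_right_complement'_of_coprime hNcop
  have hH'card : Nat.card H' = N.index := (hH'.symm.index_eq_card).symm
  obtain ⟨H, hHdef⟩ : ∃ H : Subgroup G, H = H'.map R.subtype := ⟨_, rfl⟩
  have hHcard : Nat.card H = Nat.card (pPrimeCore p (G ⧸ Q)) := by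
    rw [hHdef, Subgroup.card_map_of_injective R.subtype_injective, hH'card, hNidx]
  have hHcop : (Nat.card H).Coprime p := by rw [hHcard]; exact hcopQ
  have hNQ : ∀ w : R, w ∈ N → (w : G) ∈ Q := by
    intro w hw
    rw [hNdef] at hw
    exact Subgroup.mem_subgroupOf.mp hw
  have hdecomp : ∀ r ∈ R, ∃ y ∈ Q, ∃ h ∈ H, r = y * h := by
    intro r hr
    obtain ⟨⟨y, h⟩, hyh⟩ := hH'.2 ⟨r, hr⟩
    refine ⟨((y : R) : G), ?_, ((h : R) : G), ?_, ?_⟩
    · exact hNQ y y.2
    · rw [hHdef]; exact ⟨(h : R), h.2, rfl⟩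
    · have h1 := congrArg Subtype.val hyh
      exact h1.symm
  have hHimg : ∀ z ∈ pPrimeCore p (G ⧸ Q), ∃ h ∈ H, QuotientGroup.mk' Q h = z := by
    intro z hz
    obtain ⟨r, rfl⟩ := QuotientGroup.mk'_surjective Q z
    have hr : r ∈ R := by rw [hRdef]; exact hz
    obtain ⟨y, hy, h, hh, rfl⟩ := hdecomp r hr
    refine ⟨h, hh, ?_⟩
    have hy1 : QuotientGroup.mk' Q y = 1 := (QuotientGroup.eq_one_iff y).mpr hy
    rw [map_mul, hy1, one_mul]
  -- a Sylow subgroup and the normalizer of the complement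
  obtain ⟨P⟩ : Nonempty (Sylow p G) := inferInstance
  have hQP : Q ≤ (P : Subgroup G) := hQp.le_sylow_of_normal P
  obtain ⟨P₁, hP₁def⟩ : ∃ P₁ : Subgroup G,
      P₁ = (P : Subgroup G) ⊓ Subgroup.normalizer (H : Set G) := ⟨_, rfl⟩
  have hP₁P : P₁ ≤ (P : Subgroup G) := by rw [hP₁def]; exact inf_le_left
  have hP₁p : IsPGroup p P₁ := P.2.to_le hP₁P
  have hP₁norm : P₁ ≤ Subgroup.normalizer (H : Set G) := by rw [hP₁def]; exact inf_le_right
  have hPle : (P : Subgroup G) ≤ Q ⊔ P₁ := by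
    intro u hu
    obtain ⟨K', hK'def⟩ : ∃ K' : Subgroup R,
        K' = H'.map (MulAut.conjNormal u : MulAut R).toMonoidHom := ⟨_, rfl⟩
    have hK'card : Nat.card K' = Nat.card H' := by
      rw [hK'def]
      exact Subgroup.card_map_of_injective (MulAut.conjNormal u : MulAut R).injective
    have hK' : Subgroup.IsComplement' N K' := by
      apply Subgroup.isComplement'_of_coprime
      · rw [hK'card]; exact hH'.card_mul_card
      · rw [hK'card, hH'card]; exact hNcop
    have hsolvN : Group.IsSolvable N := by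
      have hNp : IsPGroup p N := IsPGroup.of_card (n := c) (by rw [hNcard, hc])
      haveI := hNp.isNilpotent
      infer_instance
    obtain ⟨g, hg⟩ := Cfsg.Agent.S0001.result N hNcop (Or.inl hsolvN) H' K' hH' hK'
    have hw : (g : G)⁻¹ * u ∈ Subgroup.normalizer (H : Set G) := by
      apply H80.mem_normalizer_of_conj_smul_eq
      apply Subgroup.eq_of_le_of_card_ge
      · apply H80.conj_smul_le_of_mem_normalizer
        intro z hz
        rw [hHdef] at hz
        obtain ⟨h', hh', rfl⟩ := hz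
        have h1 : (MulAut.conjNormal u : MulAut R) h' ∈ K' := by
          rw [hK'def]; exact ⟨h', hh', rfl⟩
        rw [← hg, Subgroup.mem_smul_pointwise_iff_exists] at h1
        obtain ⟨h'', hh'', h2⟩ := h1
        have h3 : (g : G) * (h'' : G) * (g : G)⁻¹ = u * (h' : G) * u⁻¹ := by
          have h4 := congrArg Subtype.val h2
          exact h4
        have h5 : (g : G)⁻¹ * u * R.subtype h' * ((g : G)⁻¹ * u)⁻¹ = (h'' : G) := by
          have h6 : (g : G)⁻¹ * u * R.subtype h' * ((g : G)⁻¹ * u)⁻¹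
              = (g : G)⁻¹ * (u * (h' : G) * u⁻¹) * (g : G) := by
            rw [Subgroup.coe_subtype]; group
          rw [h6, ← h3]; group
        rw [h5, hHdef]
        exact ⟨h'', hh'', rfl⟩
      · rw [H80.card_conj_smul]
    obtain ⟨y, hy, h₀, hh₀, hgy⟩ := hdecomp (g : G) g.2
    have e1 : y⁻¹ * u = h₀ * ((g : G)⁻¹ * u) := by rw [hgy]; group
    have h1 : y⁻¹ * u ∈ P₁ := by
      rw [hP₁def]
      refine ⟨(P : Subgroup G).mul_mem ((P : Subgroup G).inv_mem (hQP hy)) hu, ?_⟩
      rw [e1]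
      exact Subgroup.mul_mem _ (Subgroup.le_normalizer hh₀) hw
    have e2 : u = y * (y⁻¹ * u) := by group
    rw [e2]
    exact Subgroup.mul_mem_sup hy h1
  have hB : ∀ x ∈ P₁, (∀ k ∈ H, x * k = k * x) → x ∈ Q := by
    intro x hx hcent
    have hxbar : QuotientGroup.mk' Q x ∈ Subgroup.centralizer
        ((pPrimeCore p (G ⧸ Q) : Subgroup (G ⧸ Q)) : Set (G ⧸ Q)) := by
      rw [Subgroup.mem_centralizer_iff]
      intro z hz
      obtain ⟨h, hh, rfl⟩ := hHimg z hz
      rw [← map_mul, ← map_mul, hcent h hh]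
    have hxcore := hHH hxbar
    obtain ⟨e, he⟩ := hP₁p ⟨x, hx⟩
    have hxe : x ^ p ^ e = 1 := congrArg Subtype.val he
    have h1 : (QuotientGroup.mk' Q x) ^ p ^ e = 1 := by rw [← map_pow, hxe, map_one]
    have h2 : orderOf (QuotientGroup.mk' Q x) ∣ p ^ e := orderOf_dvd_of_pow_eq_one h1
    have h3 : orderOf (QuotientGroup.mk' Q x) ∣ Nat.card (pPrimeCore p (G ⧸ Q)) := by
      have h4 := orderOf_dvd_natCard (⟨_, hxcore⟩ : pPrimeCore p (G ⧸ Q))
      rwa [Subgroup.orderOf_mk] at h4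
    have h4 : orderOf (QuotientGroup.mk' Q x) = 1 := by
      have h5 := Nat.dvd_gcd h2 h3
      rw [Nat.Coprime.gcd_eq_one (Nat.Coprime.pow_left e hcopQ.symm)] at h5
      exact Nat.dvd_one.mp h5
    rw [orderOf_eq_one_iff] at h4
    exact (QuotientGroup.eq_one_iff x).mp h4
  have hkey := relIndex_le_of_centralizer hχ hfaith p hp H P₁ Q hHcop hP₁p hP₁norm hB
  have hsup : Q ⊔ P₁ = (P : Subgroup G) := le_antisymm (sup_le hQP hP₁P) hPle
  have h1 : Q.relIndex (P : Subgroup G) = Q.relIndex P₁ := by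
    rw [← hsup, Subgroup.relIndex_sup_left]
  have h2 : Q.index = Q.relIndex (P : Subgroup G) * (P : Subgroup G).index :=
    (Subgroup.relIndex_mul_index hQP).symm
  have h3 : ((P : Subgroup G).index).factorization p = 0 :=
    Nat.factorization_eq_zero_of_not_dvd P.not_dvd_index
  have h4 : Q.relIndex (P : Subgroup G) ≠ 0 := by
    show (Q.subgroupOf (P : Subgroup G)).index ≠ 0
    exact Subgroup.index_ne_zero_of_finite
  rw [← hQdef, h2, Nat.factorization_mul h4 Subgroup.index_ne_zero_of_finite, Finsupp.add_apply,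
    h3, add_zero, h1]
  exact hkey

end Winter

end Cfsg.Agent.H4
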